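import Cfsg.Agent.Lib.H94.TCRuB.Chk
set_option autoImplicit false
set_option maxRecDepth 100000
set_option linter.all false
namespace H94.TCRuB
open H35.TC
section
variable {G : Type} [Group G] {g : Lt → G} {H : Subgroup G}
/-- the points of the nodes -/
noncomputable def cP (g : Lt → G) (H : Subgroup G) : ℕ → G ⧸ H := cc (fa g) lt P ((1 : G) : G ⧸ H)
theorem dp_b_0_s (hinv : ∀ x, g (inv x) = (g x)⁻¹) (hr : ∀ r ∈ rels, (r.map g).prod = 1) (hH : ∀ r ∈ subs, (r.map g).prod ∈ H)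
    (j u : ℕ) (hu : u < M) (h : dp_b_0 j u = true) : Good (fa g) T MG M (cP g H) Lt.b u := by
  unfold dp_b_0 at h
  rcases brec_true h with h | h
  · exact lF_good (T := T) (x := Lt.b) (by decide) [Lt.fi, Lt.b, Lt.b, Lt.di, Lt.c, Lt.d, Lt.ci] (hole_rel hinv hr (by decide +kernel)) h
  · exact lS_good (T := T) (x := Lt.b) (by decide) hu [Lt.ci, Lt.di, Lt.fi, Lt.b, Lt.b, Lt.fi, Lt.c] (hole_rel hinv hr (by decide +kernel)) h
theorem dp_b_1_s (hinv : ∀ x, g (inv x) = (g x)⁻¹) (hr : ∀ r ∈ rels, (r.map g).prod = 1) (hH : ∀ r ∈ subs, (r.map g).prod ∈ H)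
    (j u : ℕ) (hu : u < M) (h : dp_b_1 j u = true) : Good (fa g) T MG M (cP g H) Lt.b u := by
  unfold dp_b_1 at h
  rcases brec_true h with h | h
  · exact lS_good (T := T) (x := Lt.b) (by decide) hu [Lt.e, Lt.bi, Lt.e, Lt.di, Lt.bi, Lt.c, Lt.f, Lt.bi, Lt.ei] (hole_rel hinv hr (by decide +kernel)) h
  · exact lS_good (T := T) (x := Lt.b) (by decide) hu [Lt.b, Lt.d, Lt.bi, Lt.bi, Lt.d, Lt.f, Lt.di] (hole_rel hinv hr (by decide +kernel)) h
theorem dp_b_2_s (hinv : ∀ x, g (inv x) = (g x)⁻¹) (hr : ∀ r ∈ rels, (r.map g).prod = 1) (hH : ∀ r ∈ subs, (r.map g).prod ∈ H)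
    (j u : ℕ) (hu : u < M) (h : dp_b_2 j u = true) : Good (fa g) T MG M (cP g H) Lt.b u := by
  unfold dp_b_2 at h
  rcases brec_true h with h | h
  · exact dp_b_0_s hinv hr hH j u hu h
  · exact dp_b_1_s hinv hr hH j u hu h
theorem dp_b_3_s (hinv : ∀ x, g (inv x) = (g x)⁻¹) (hr : ∀ r ∈ rels, (r.map g).prod = 1) (hH : ∀ r ∈ subs, (r.map g).prod ∈ H)
    (j u : ℕ) (hu : u < M) (h : dp_b_3 j u = true) : Good (fa g) T MG M (cP g H) Lt.b u := by
  unfold dp_b_3 at h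
  rcases brec_true h with h | h
  · exact lS_good (T := T) (x := Lt.b) (by decide) hu [Lt.ei, Lt.bi, Lt.e, Lt.b, Lt.fi, Lt.ci, Lt.b, Lt.d, Lt.ei] (hole_rel hinv hr (by decide +kernel)) h
  · exact lS_good (T := T) (x := Lt.b) (by decide) hu [Lt.fi, Lt.bi, Lt.ei, Lt.c, Lt.fi, Lt.ci, Lt.e] (hole_rel hinv hr (by decide +kernel)) h
theorem dp_b_4_s (hinv : ∀ x, g (inv x) = (g x)⁻¹) (hr : ∀ r ∈ rels, (r.map g).prod = 1) (hH : ∀ r ∈ subs, (r.map g).prod ∈ H)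
    (j u : ℕ) (hu : u < M) (h : dp_b_4 j u = true) : Good (fa g) T MG M (cP g H) Lt.b u := by
  unfold dp_b_4 at h
  rcases brec_true h with h | h
  · exact lF_good (T := T) (x := Lt.b) (by decide) [Lt.b, Lt.fi, Lt.c, Lt.b, Lt.ci, Lt.di, Lt.fi] (hole_rel hinv hr (by decide +kernel)) h
  · exact lS_good (T := T) (x := Lt.b) (by decide) hu [Lt.fi, Lt.b, Lt.b, Lt.di, Lt.c, Lt.d, Lt.ci] (hole_rel hinv hr (by decide +kernel)) h
theorem dp_b_5_s (hinv : ∀ x, g (inv x) = (g x)⁻¹) (hr : ∀ r ∈ rels, (r.map g).prod = 1) (hH : ∀ r ∈ subs, (r.map g).prod ∈ H)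
    (j u : ℕ) (hu : u < M) (h : dp_b_5 j u = true) : Good (fa g) T MG M (cP g H) Lt.b u := by
  unfold dp_b_5 at h
  rcases brec_true h with h | h
  · exact dp_b_3_s hinv hr hH j u hu h
  · exact dp_b_4_s hinv hr hH j u hu h
theorem dp_b_6_s (hinv : ∀ x, g (inv x) = (g x)⁻¹) (hr : ∀ r ∈ rels, (r.map g).prod = 1) (hH : ∀ r ∈ subs, (r.map g).prod ∈ H)
    (j u : ℕ) (hu : u < M) (h : dp_b_6 j u = true) : Good (fa g) T MG M (cP g H) Lt.b u := by
  unfold dp_b_6 at h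
  rcases brec_true h with h | h
  · exact dp_b_2_s hinv hr hH j u hu h
  · exact dp_b_5_s hinv hr hH j u hu h
theorem dp_b_7_s (hinv : ∀ x, g (inv x) = (g x)⁻¹) (hr : ∀ r ∈ rels, (r.map g).prod = 1) (hH : ∀ r ∈ subs, (r.map g).prod ∈ H)
    (j u : ℕ) (hu : u < M) (h : dp_b_7 j u = true) : Good (fa g) T MG M (cP g H) Lt.b u := by
  unfold dp_b_7 at h
  rcases brec_true h with h | h
  · exact lF_good (T := T) (x := Lt.b) (by decide) [Lt.c, Lt.b, Lt.b, Lt.di, Lt.f, Lt.d, Lt.c] (hole_rel hinv hr (by decide +kernel)) h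
  · exact lS_good (T := T) (x := Lt.b) (by decide) hu [Lt.c, Lt.b, Lt.b, Lt.di, Lt.f, Lt.d, Lt.c] (hole_rel hinv hr (by decide +kernel)) h
theorem dp_b_8_s (hinv : ∀ x, g (inv x) = (g x)⁻¹) (hr : ∀ r ∈ rels, (r.map g).prod = 1) (hH : ∀ r ∈ subs, (r.map g).prod ∈ H)
    (j u : ℕ) (hu : u < M) (h : dp_b_8 j u = true) : Good (fa g) T MG M (cP g H) Lt.b u := by
  unfold dp_b_8 at h
  rcases brec_true h with h | h
  · exact lF_good (T := T) (x := Lt.b) (by decide) [Lt.ci, Lt.di, Lt.fi, Lt.b, Lt.b, Lt.fi, Lt.c] (hole_rel hinv hr (by decide +kernel)) h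
  · exact dp_b_7_s hinv hr hH j u hu h
theorem dp_b_9_s (hinv : ∀ x, g (inv x) = (g x)⁻¹) (hr : ∀ r ∈ rels, (r.map g).prod = 1) (hH : ∀ r ∈ subs, (r.map g).prod ∈ H)
    (j u : ℕ) (hu : u < M) (h : dp_b_9 j u = true) : Good (fa g) T MG M (cP g H) Lt.b u := by
  unfold dp_b_9 at h
  rcases brec_true h with h | h
  · exact lF_good (T := T) (x := Lt.b) (by decide) [Lt.di, Lt.ci, Lt.fi, Lt.c, Lt.d, Lt.bi, Lt.di] (hole_rel hinv hr (by decide +kernel)) h
  · exact lS_good (T := T) (x := Lt.b) (by decide) hu [Lt.f, Lt.bi, Lt.di, Lt.ci, Lt.d, Lt.c, Lt.d] (hole_rel hinv hr (by decide +kernel)) h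
theorem dp_b_10_s (hinv : ∀ x, g (inv x) = (g x)⁻¹) (hr : ∀ r ∈ rels, (r.map g).prod = 1) (hH : ∀ r ∈ subs, (r.map g).prod ∈ H)
    (j u : ℕ) (hu : u < M) (h : dp_b_10 j u = true) : Good (fa g) T MG M (cP g H) Lt.b u := by
  unfold dp_b_10 at h
  rcases brec_true h with h | h
  · exact lF_good (T := T) (x := Lt.b) (by decide) [Lt.b, Lt.d, Lt.bi, Lt.bi, Lt.d, Lt.f, Lt.di] (hole_rel hinv hr (by decide +kernel)) h
  · exact dp_b_9_s hinv hr hH j u hu h
theorem dp_b_11_s (hinv : ∀ x, g (inv x) = (g x)⁻¹) (hr : ∀ r ∈ rels, (r.map g).prod = 1) (hH : ∀ r ∈ subs, (r.map g).prod ∈ H)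
    (j u : ℕ) (hu : u < M) (h : dp_b_11 j u = true) : Good (fa g) T MG M (cP g H) Lt.b u := by
  unfold dp_b_11 at h
  rcases brec_true h with h | h
  · exact dp_b_8_s hinv hr hH j u hu h
  · exact dp_b_10_s hinv hr hH j u hu h
theorem dp_b_12_s (hinv : ∀ x, g (inv x) = (g x)⁻¹) (hr : ∀ r ∈ rels, (r.map g).prod = 1) (hH : ∀ r ∈ subs, (r.map g).prod ∈ H)
    (j u : ℕ) (hu : u < M) (h : dp_b_12 j u = true) : Good (fa g) T MG M (cP g H) Lt.b u := by
  unfold dp_b_12 at h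
  rcases brec_true h with h | h
  · exact lF_good (T := T) (x := Lt.b) (by decide) [Lt.f, Lt.bi, Lt.di, Lt.ci, Lt.d, Lt.c, Lt.d] (hole_rel hinv hr (by decide +kernel)) h
  · exact lF_good (T := T) (x := Lt.b) (by decide) [Lt.fi, Lt.bi, Lt.ei, Lt.c, Lt.fi, Lt.ci, Lt.e] (hole_rel hinv hr (by decide +kernel)) h
theorem dp_b_13_s (hinv : ∀ x, g (inv x) = (g x)⁻¹) (hr : ∀ r ∈ rels, (r.map g).prod = 1) (hH : ∀ r ∈ subs, (r.map g).prod ∈ H)
    (j u : ℕ) (hu : u < M) (h : dp_b_13 j u = true) : Good (fa g) T MG M (cP g H) Lt.b u := by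
  unfold dp_b_13 at h
  rcases brec_true h with h | h
  · exact lF_good (T := T) (x := Lt.b) (by decide) [Lt.f, Lt.di, Lt.b, Lt.d, Lt.fi, Lt.c, Lt.b] (hole_rel hinv hr (by decide +kernel)) h
  · exact dp_b_12_s hinv hr hH j u hu h
theorem dp_b_14_s (hinv : ∀ x, g (inv x) = (g x)⁻¹) (hr : ∀ r ∈ rels, (r.map g).prod = 1) (hH : ∀ r ∈ subs, (r.map g).prod ∈ H)
    (j u : ℕ) (hu : u < M) (h : dp_b_14 j u = true) : Good (fa g) T MG M (cP g H) Lt.b u := by
  unfold dp_b_14 at h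
  rcases brec_true h with h | h
  · exact lF_good (T := T) (x := Lt.b) (by decide) [Lt.d, Lt.bi, Lt.bi, Lt.d, Lt.f, Lt.di, Lt.b] (hole_rel hinv hr (by decide +kernel)) h
  · exact lF_good (T := T) (x := Lt.b) (by decide) [Lt.b, Lt.f, Lt.bi, Lt.bi, Lt.fi, Lt.c, Lt.f] (hole_rel hinv hr (by decide +kernel)) h
theorem dp_b_15_s (hinv : ∀ x, g (inv x) = (g x)⁻¹) (hr : ∀ r ∈ rels, (r.map g).prod = 1) (hH : ∀ r ∈ subs, (r.map g).prod ∈ H)
    (j u : ℕ) (hu : u < M) (h : dp_b_15 j u = true) : Good (fa g) T MG M (cP g H) Lt.b u := by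
  unfold dp_b_15 at h
  rcases brec_true h with h | h
  · exact lS_good (T := T) (x := Lt.b) (by decide) hu [Lt.f, Lt.di, Lt.b, Lt.d, Lt.fi, Lt.c, Lt.b] (hole_rel hinv hr (by decide +kernel)) h
  · exact lS_good (T := T) (x := Lt.b) (by decide) hu [Lt.fi, Lt.bi, Lt.di, Lt.ci, Lt.di, Lt.c, Lt.d] (hole_rel hinv hr (by decide +kernel)) h
theorem dp_b_16_s (hinv : ∀ x, g (inv x) = (g x)⁻¹) (hr : ∀ r ∈ rels, (r.map g).prod = 1) (hH : ∀ r ∈ subs, (r.map g).prod ∈ H)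
    (j u : ℕ) (hu : u < M) (h : dp_b_16 j u = true) : Good (fa g) T MG M (cP g H) Lt.b u := by
  unfold dp_b_16 at h
  rcases brec_true h with h | h
  · exact dp_b_14_s hinv hr hH j u hu h
  · exact dp_b_15_s hinv hr hH j u hu h
theorem dp_b_17_s (hinv : ∀ x, g (inv x) = (g x)⁻¹) (hr : ∀ r ∈ rels, (r.map g).prod = 1) (hH : ∀ r ∈ subs, (r.map g).prod ∈ H)
    (j u : ℕ) (hu : u < M) (h : dp_b_17 j u = true) : Good (fa g) T MG M (cP g H) Lt.b u := by
  unfold dp_b_17 at h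
  rcases brec_true h with h | h
  · exact dp_b_13_s hinv hr hH j u hu h
  · exact dp_b_16_s hinv hr hH j u hu h
theorem dp_b_18_s (hinv : ∀ x, g (inv x) = (g x)⁻¹) (hr : ∀ r ∈ rels, (r.map g).prod = 1) (hH : ∀ r ∈ subs, (r.map g).prod ∈ H)
    (j u : ℕ) (hu : u < M) (h : dp_b_18 j u = true) : Good (fa g) T MG M (cP g H) Lt.b u := by
  unfold dp_b_18 at h
  rcases brec_true h with h | h
  · exact dp_b_11_s hinv hr hH j u hu h
  · exact dp_b_17_s hinv hr hH j u hu h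
theorem dp_b_19_s (hinv : ∀ x, g (inv x) = (g x)⁻¹) (hr : ∀ r ∈ rels, (r.map g).prod = 1) (hH : ∀ r ∈ subs, (r.map g).prod ∈ H)
    (j u : ℕ) (hu : u < M) (h : dp_b_19 j u = true) : Good (fa g) T MG M (cP g H) Lt.b u := by
  unfold dp_b_19 at h
  rcases brec_true h with h | h
  · exact dp_b_6_s hinv hr hH j u hu h
  · exact dp_b_18_s hinv hr hH j u hu h
theorem dp_b_20_s (hinv : ∀ x, g (inv x) = (g x)⁻¹) (hr : ∀ r ∈ rels, (r.map g).prod = 1) (hH : ∀ r ∈ subs, (r.map g).prod ∈ H)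
    (j u : ℕ) (hu : u < M) (h : dp_b_20 j u = true) : Good (fa g) T MG M (cP g H) Lt.b u := by
  unfold dp_b_20 at h
  rcases brec_true h with h | h
  · exact lF_good (T := T) (x := Lt.b) (by decide) [Lt.fi, Lt.bi, Lt.di, Lt.ci, Lt.di, Lt.c, Lt.d] (hole_rel hinv hr (by decide +kernel)) h
  · exact lS_good (T := T) (x := Lt.b) (by decide) hu [Lt.f, Lt.ci, Lt.e, Lt.c, Lt.fi, Lt.bi, Lt.e] (hole_rel hinv hr (by decide +kernel)) h
theorem dp_b_21_s (hinv : ∀ x, g (inv x) = (g x)⁻¹) (hr : ∀ r ∈ rels, (r.map g).prod = 1) (hH : ∀ r ∈ subs, (r.map g).prod ∈ H)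
    (j u : ℕ) (hu : u < M) (h : dp_b_21 j u = true) : Good (fa g) T MG M (cP g H) Lt.b u := by
  unfold dp_b_21 at h
  rcases brec_true h with h | h
  · exact lS_good (T := T) (x := Lt.b) (by decide) hu [Lt.b, Lt.f, Lt.bi, Lt.bi, Lt.fi, Lt.c, Lt.f] (hole_rel hinv hr (by decide +kernel)) h
  · exact lS_good (T := T) (x := Lt.b) (by decide) hu [Lt.d, Lt.bi, Lt.bi, Lt.d, Lt.f, Lt.di, Lt.b] (hole_rel hinv hr (by decide +kernel)) h
theorem dp_b_22_s (hinv : ∀ x, g (inv x) = (g x)⁻¹) (hr : ∀ r ∈ rels, (r.map g).prod = 1) (hH : ∀ r ∈ subs, (r.map g).prod ∈ H)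
    (j u : ℕ) (hu : u < M) (h : dp_b_22 j u = true) : Good (fa g) T MG M (cP g H) Lt.b u := by
  unfold dp_b_22 at h
  rcases brec_true h with h | h
  · exact dp_b_20_s hinv hr hH j u hu h
  · exact dp_b_21_s hinv hr hH j u hu h
theorem dp_b_23_s (hinv : ∀ x, g (inv x) = (g x)⁻¹) (hr : ∀ r ∈ rels, (r.map g).prod = 1) (hH : ∀ r ∈ subs, (r.map g).prod ∈ H)
    (j u : ℕ) (hu : u < M) (h : dp_b_23 j u = true) : Good (fa g) T MG M (cP g H) Lt.b u := by
  unfold dp_b_23 at h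
  rcases brec_true h with h | h
  · exact lF_good (T := T) (x := Lt.b) (by decide) [Lt.b, Lt.di, Lt.c, Lt.d, Lt.ci, Lt.b, Lt.fi] (hole_rel hinv hr (by decide +kernel)) h
  · exact lS_good (T := T) (x := Lt.b) (by decide) hu [Lt.d, Lt.fi, Lt.c, Lt.b, Lt.b, Lt.f, Lt.di] (hole_rel hinv hr (by decide +kernel)) h
theorem dp_b_24_s (hinv : ∀ x, g (inv x) = (g x)⁻¹) (hr : ∀ r ∈ rels, (r.map g).prod = 1) (hH : ∀ r ∈ subs, (r.map g).prod ∈ H)
    (j u : ℕ) (hu : u < M) (h : dp_b_24 j u = true) : Good (fa g) T MG M (cP g H) Lt.b u := by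
  unfold dp_b_24 at h
  rcases brec_true h with h | h
  · exact lF_good (T := T) (x := Lt.b) (by decide) [Lt.di, Lt.f, Lt.d, Lt.c, Lt.b, Lt.c, Lt.b] (hole_rel hinv hr (by decide +kernel)) h
  · exact lS_good (T := T) (x := Lt.b) (by decide) hu [Lt.b, Lt.fi, Lt.bi, Lt.bi, Lt.fi, Lt.ci, Lt.f] (hole_rel hinv hr (by decide +kernel)) h
theorem dp_b_25_s (hinv : ∀ x, g (inv x) = (g x)⁻¹) (hr : ∀ r ∈ rels, (r.map g).prod = 1) (hH : ∀ r ∈ subs, (r.map g).prod ∈ H)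
    (j u : ℕ) (hu : u < M) (h : dp_b_25 j u = true) : Good (fa g) T MG M (cP g H) Lt.b u := by
  unfold dp_b_25 at h
  rcases brec_true h with h | h
  · exact lS_good (T := T) (x := Lt.b) (by decide) hu [Lt.di, Lt.ci, Lt.f, Lt.c, Lt.d, Lt.bi, Lt.d] (hole_rel hinv hr (by decide +kernel)) h
  · exact dp_b_24_s hinv hr hH j u hu h
theorem dp_b_26_s (hinv : ∀ x, g (inv x) = (g x)⁻¹) (hr : ∀ r ∈ rels, (r.map g).prod = 1) (hH : ∀ r ∈ subs, (r.map g).prod ∈ H)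
    (j u : ℕ) (hu : u < M) (h : dp_b_26 j u = true) : Good (fa g) T MG M (cP g H) Lt.b u := by
  unfold dp_b_26 at h
  rcases brec_true h with h | h
  · exact dp_b_23_s hinv hr hH j u hu h
  · exact dp_b_25_s hinv hr hH j u hu h
theorem dp_b_27_s (hinv : ∀ x, g (inv x) = (g x)⁻¹) (hr : ∀ r ∈ rels, (r.map g).prod = 1) (hH : ∀ r ∈ subs, (r.map g).prod ∈ H)
    (j u : ℕ) (hu : u < M) (h : dp_b_27 j u = true) : Good (fa g) T MG M (cP g H) Lt.b u := by
  unfold dp_b_27 at h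
  rcases brec_true h with h | h
  · exact dp_b_22_s hinv hr hH j u hu h
  · exact dp_b_26_s hinv hr hH j u hu h
theorem dp_b_28_s (hinv : ∀ x, g (inv x) = (g x)⁻¹) (hr : ∀ r ∈ rels, (r.map g).prod = 1) (hH : ∀ r ∈ subs, (r.map g).prod ∈ H)
    (j u : ℕ) (hu : u < M) (h : dp_b_28 j u = true) : Good (fa g) T MG M (cP g H) Lt.b u := by
  unfold dp_b_28 at h
  rcases brec_true h with h | h
  · exact lF_good (T := T) (x := Lt.b) (by decide) [Lt.b, Lt.fi, Lt.bi, Lt.bi, Lt.fi, Lt.ci, Lt.f] (hole_rel hinv hr (by decide +kernel)) h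
  · exact lS_good (T := T) (x := Lt.b) (by decide) hu [Lt.b, Lt.di, Lt.f, Lt.d, Lt.c, Lt.b, Lt.c] (hole_rel hinv hr (by decide +kernel)) h
theorem dp_b_29_s (hinv : ∀ x, g (inv x) = (g x)⁻¹) (hr : ∀ r ∈ rels, (r.map g).prod = 1) (hH : ∀ r ∈ subs, (r.map g).prod ∈ H)
    (j u : ℕ) (hu : u < M) (h : dp_b_29 j u = true) : Good (fa g) T MG M (cP g H) Lt.b u := by
  unfold dp_b_29 at h
  rcases brec_true h with h | h
  · exact lS_good (T := T) (x := Lt.b) (by decide) hu [Lt.di, Lt.ci, Lt.fi, Lt.c, Lt.d, Lt.bi, Lt.di] (hole_rel hinv hr (by decide +kernel)) h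
  · exact lF_good (T := T) (x := Lt.b) (by decide) [Lt.d, Lt.fi, Lt.c, Lt.b, Lt.b, Lt.f, Lt.di] (hole_rel hinv hr (by decide +kernel)) h
theorem dp_b_30_s (hinv : ∀ x, g (inv x) = (g x)⁻¹) (hr : ∀ r ∈ rels, (r.map g).prod = 1) (hH : ∀ r ∈ subs, (r.map g).prod ∈ H)
    (j u : ℕ) (hu : u < M) (h : dp_b_30 j u = true) : Good (fa g) T MG M (cP g H) Lt.b u := by
  unfold dp_b_30 at h
  rcases brec_true h with h | h
  · exact lS_good (T := T) (x := Lt.b) (by decide) hu [Lt.b, Lt.fi, Lt.c, Lt.b, Lt.ci, Lt.di, Lt.fi] (hole_rel hinv hr (by decide +kernel)) h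
  · exact dp_b_29_s hinv hr hH j u hu h
theorem dp_b_31_s (hinv : ∀ x, g (inv x) = (g x)⁻¹) (hr : ∀ r ∈ rels, (r.map g).prod = 1) (hH : ∀ r ∈ subs, (r.map g).prod ∈ H)
    (j u : ℕ) (hu : u < M) (h : dp_b_31 j u = true) : Good (fa g) T MG M (cP g H) Lt.b u := by
  unfold dp_b_31 at h
  rcases brec_true h with h | h
  · exact dp_b_28_s hinv hr hH j u hu h
  · exact dp_b_30_s hinv hr hH j u hu h
theorem dp_b_32_s (hinv : ∀ x, g (inv x) = (g x)⁻¹) (hr : ∀ r ∈ rels, (r.map g).prod = 1) (hH : ∀ r ∈ subs, (r.map g).prod ∈ H)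
    (j u : ℕ) (hu : u < M) (h : dp_b_32 j u = true) : Good (fa g) T MG M (cP g H) Lt.b u := by
  unfold dp_b_32 at h
  rcases brec_true h with h | h
  · exact lS_good (T := T) (x := Lt.b) (by decide) hu [Lt.di, Lt.c, Lt.d, Lt.ci, Lt.b, Lt.fi, Lt.b] (hole_rel hinv hr (by decide +kernel)) h
  · exact lF_good (T := T) (x := Lt.b) (by decide) [Lt.di, Lt.ci, Lt.f, Lt.c, Lt.d, Lt.bi, Lt.d] (hole_rel hinv hr (by decide +kernel)) h
theorem dp_b_33_s (hinv : ∀ x, g (inv x) = (g x)⁻¹) (hr : ∀ r ∈ rels, (r.map g).prod = 1) (hH : ∀ r ∈ subs, (r.map g).prod ∈ H)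
    (j u : ℕ) (hu : u < M) (h : dp_b_33 j u = true) : Good (fa g) T MG M (cP g H) Lt.b u := by
  unfold dp_b_33 at h
  rcases brec_true h with h | h
  · exact lF_good (T := T) (x := Lt.b) (by decide) [Lt.b, Lt.f, Lt.di, Lt.b, Lt.d, Lt.fi, Lt.c] (hole_rel hinv hr (by decide +kernel)) h
  · exact lS_good (T := T) (x := Lt.b) (by decide) hu [Lt.b, Lt.di, Lt.c, Lt.d, Lt.ci, Lt.b, Lt.fi] (hole_rel hinv hr (by decide +kernel)) h
theorem dp_b_34_s (hinv : ∀ x, g (inv x) = (g x)⁻¹) (hr : ∀ r ∈ rels, (r.map g).prod = 1) (hH : ∀ r ∈ subs, (r.map g).prod ∈ H)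
    (j u : ℕ) (hu : u < M) (h : dp_b_34 j u = true) : Good (fa g) T MG M (cP g H) Lt.b u := by
  unfold dp_b_34 at h
  rcases brec_true h with h | h
  · exact lF_good (T := T) (x := Lt.b) (by decide) [Lt.b, Lt.di, Lt.f, Lt.d, Lt.c, Lt.b, Lt.c] (hole_rel hinv hr (by decide +kernel)) h
  · exact dp_b_33_s hinv hr hH j u hu h
theorem dp_b_35_s (hinv : ∀ x, g (inv x) = (g x)⁻¹) (hr : ∀ r ∈ rels, (r.map g).prod = 1) (hH : ∀ r ∈ subs, (r.map g).prod ∈ H)
    (j u : ℕ) (hu : u < M) (h : dp_b_35 j u = true) : Good (fa g) T MG M (cP g H) Lt.b u := by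
  unfold dp_b_35 at h
  rcases brec_true h with h | h
  · exact dp_b_32_s hinv hr hH j u hu h
  · exact dp_b_34_s hinv hr hH j u hu h
theorem dp_b_36_s (hinv : ∀ x, g (inv x) = (g x)⁻¹) (hr : ∀ r ∈ rels, (r.map g).prod = 1) (hH : ∀ r ∈ subs, (r.map g).prod ∈ H)
    (j u : ℕ) (hu : u < M) (h : dp_b_36 j u = true) : Good (fa g) T MG M (cP g H) Lt.b u := by
  unfold dp_b_36 at h
  rcases brec_true h with h | h
  · exact dp_b_31_s hinv hr hH j u hu h
  · exact dp_b_35_s hinv hr hH j u hu h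
theorem dp_b_37_s (hinv : ∀ x, g (inv x) = (g x)⁻¹) (hr : ∀ r ∈ rels, (r.map g).prod = 1) (hH : ∀ r ∈ subs, (r.map g).prod ∈ H)
    (j u : ℕ) (hu : u < M) (h : dp_b_37 j u = true) : Good (fa g) T MG M (cP g H) Lt.b u := by
  unfold dp_b_37 at h
  rcases brec_true h with h | h
  · exact dp_b_27_s hinv hr hH j u hu h
  · exact dp_b_36_s hinv hr hH j u hu h
theorem dp_b_38_s (hinv : ∀ x, g (inv x) = (g x)⁻¹) (hr : ∀ r ∈ rels, (r.map g).prod = 1) (hH : ∀ r ∈ subs, (r.map g).prod ∈ H)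
    (j u : ℕ) (hu : u < M) (h : dp_b_38 j u = true) : Good (fa g) T MG M (cP g H) Lt.b u := by
  unfold dp_b_38 at h
  rcases brec_true h with h | h
  · exact lS_good (T := T) (x := Lt.b) (by decide) hu [Lt.f, Lt.bi, Lt.ei, Lt.c, Lt.f, Lt.ci, Lt.e] (hole_rel hinv hr (by decide +kernel)) h
  · exact lS_good (T := T) (x := Lt.b) (by decide) hu [Lt.b, Lt.di, Lt.bi, Lt.bi, Lt.d, Lt.fi, Lt.di] (hole_rel hinv hr (by decide +kernel)) h
theorem dp_b_39_s (hinv : ∀ x, g (inv x) = (g x)⁻¹) (hr : ∀ r ∈ rels, (r.map g).prod = 1) (hH : ∀ r ∈ subs, (r.map g).prod ∈ H)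
    (j u : ℕ) (hu : u < M) (h : dp_b_39 j u = true) : Good (fa g) T MG M (cP g H) Lt.b u := by
  unfold dp_b_39 at h
  rcases brec_true h with h | h
  · exact lS_good (T := T) (x := Lt.b) (by decide) hu [Lt.f, Lt.bi, Lt.bi, Lt.fi, Lt.c, Lt.f, Lt.b] (hole_rel hinv hr (by decide +kernel)) h
  · exact dp_b_38_s hinv hr hH j u hu h
theorem dp_b_40_s (hinv : ∀ x, g (inv x) = (g x)⁻¹) (hr : ∀ r ∈ rels, (r.map g).prod = 1) (hH : ∀ r ∈ subs, (r.map g).prod ∈ H)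
    (j u : ℕ) (hu : u < M) (h : dp_b_40 j u = true) : Good (fa g) T MG M (cP g H) Lt.b u := by
  unfold dp_b_40 at h
  rcases brec_true h with h | h
  · exact lF_good (T := T) (x := Lt.b) (by decide) [Lt.di, Lt.c, Lt.d, Lt.ci, Lt.b, Lt.fi, Lt.b] (hole_rel hinv hr (by decide +kernel)) h
  · exact lS_good (T := T) (x := Lt.b) (by decide) hu [Lt.b, Lt.f, Lt.di, Lt.b, Lt.d, Lt.fi, Lt.c] (hole_rel hinv hr (by decide +kernel)) h
theorem dp_b_41_s (hinv : ∀ x, g (inv x) = (g x)⁻¹) (hr : ∀ r ∈ rels, (r.map g).prod = 1) (hH : ∀ r ∈ subs, (r.map g).prod ∈ H)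
    (j u : ℕ) (hu : u < M) (h : dp_b_41 j u = true) : Good (fa g) T MG M (cP g H) Lt.b u := by
  unfold dp_b_41 at h
  rcases brec_true h with h | h
  · exact lF_good (T := T) (x := Lt.b) (by decide) [Lt.di, Lt.bi, Lt.bi, Lt.d, Lt.fi, Lt.di, Lt.b] (hole_rel hinv hr (by decide +kernel)) h
  · exact dp_b_40_s hinv hr hH j u hu h
theorem dp_b_42_s (hinv : ∀ x, g (inv x) = (g x)⁻¹) (hr : ∀ r ∈ rels, (r.map g).prod = 1) (hH : ∀ r ∈ subs, (r.map g).prod ∈ H)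
    (j u : ℕ) (hu : u < M) (h : dp_b_42 j u = true) : Good (fa g) T MG M (cP g H) Lt.b u := by
  unfold dp_b_42 at h
  rcases brec_true h with h | h
  · exact dp_b_39_s hinv hr hH j u hu h
  · exact dp_b_41_s hinv hr hH j u hu h
theorem dp_b_43_s (hinv : ∀ x, g (inv x) = (g x)⁻¹) (hr : ∀ r ∈ rels, (r.map g).prod = 1) (hH : ∀ r ∈ subs, (r.map g).prod ∈ H)
    (j u : ℕ) (hu : u < M) (h : dp_b_43 j u = true) : Good (fa g) T MG M (cP g H) Lt.b u := by
  unfold dp_b_43 at h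
  rcases brec_true h with h | h
  · exact lS_good (T := T) (x := Lt.b) (by decide) hu [Lt.ei, Lt.bi, Lt.e, Lt.c, Lt.f, Lt.b, Lt.di, Lt.c, Lt.ei] (hole_rel hinv hr (by decide +kernel)) h
  · exact lS_good (T := T) (x := Lt.b) (by decide) hu [Lt.di, Lt.f, Lt.d, Lt.c, Lt.b, Lt.c, Lt.b] (hole_rel hinv hr (by decide +kernel)) h
theorem dp_b_44_s (hinv : ∀ x, g (inv x) = (g x)⁻¹) (hr : ∀ r ∈ rels, (r.map g).prod = 1) (hH : ∀ r ∈ subs, (r.map g).prod ∈ H)
    (j u : ℕ) (hu : u < M) (h : dp_b_44 j u = true) : Good (fa g) T MG M (cP g H) Lt.b u := by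
  unfold dp_b_44 at h
  rcases brec_true h with h | h
  · exact lF_good (T := T) (x := Lt.b) (by decide) [Lt.ei, Lt.bi, Lt.e, Lt.b, Lt.fi, Lt.ci, Lt.b, Lt.d, Lt.ei] (hole_rel hinv hr (by decide +kernel)) h
  · exact dp_b_43_s hinv hr hH j u hu h
theorem dp_b_45_s (hinv : ∀ x, g (inv x) = (g x)⁻¹) (hr : ∀ r ∈ rels, (r.map g).prod = 1) (hH : ∀ r ∈ subs, (r.map g).prod ∈ H)
    (j u : ℕ) (hu : u < M) (h : dp_b_45 j u = true) : Good (fa g) T MG M (cP g H) Lt.b u := by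
  unfold dp_b_45 at h
  rcases brec_true h with h | h
  · exact lF_good (T := T) (x := Lt.b) (by decide) [Lt.b, Lt.di, Lt.bi, Lt.bi, Lt.d, Lt.fi, Lt.di] (hole_rel hinv hr (by decide +kernel)) h
  · exact lS_good (T := T) (x := Lt.b) (by decide) hu [Lt.fi, Lt.bi, Lt.bi, Lt.fi, Lt.ci, Lt.f, Lt.b] (hole_rel hinv hr (by decide +kernel)) h
theorem dp_b_46_s (hinv : ∀ x, g (inv x) = (g x)⁻¹) (hr : ∀ r ∈ rels, (r.map g).prod = 1) (hH : ∀ r ∈ subs, (r.map g).prod ∈ H)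
    (j u : ℕ) (hu : u < M) (h : dp_b_46 j u = true) : Good (fa g) T MG M (cP g H) Lt.b u := by
  unfold dp_b_46 at h
  rcases brec_true h with h | h
  · exact lF_good (T := T) (x := Lt.b) (by decide) [Lt.fi, Lt.bi, Lt.bi, Lt.fi, Lt.ci, Lt.f, Lt.b] (hole_rel hinv hr (by decide +kernel)) h
  · exact dp_b_45_s hinv hr hH j u hu h
theorem dp_b_47_s (hinv : ∀ x, g (inv x) = (g x)⁻¹) (hr : ∀ r ∈ rels, (r.map g).prod = 1) (hH : ∀ r ∈ subs, (r.map g).prod ∈ H)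
    (j u : ℕ) (hu : u < M) (h : dp_b_47 j u = true) : Good (fa g) T MG M (cP g H) Lt.b u := by
  unfold dp_b_47 at h
  rcases brec_true h with h | h
  · exact dp_b_44_s hinv hr hH j u hu h
  · exact dp_b_46_s hinv hr hH j u hu h
theorem dp_b_48_s (hinv : ∀ x, g (inv x) = (g x)⁻¹) (hr : ∀ r ∈ rels, (r.map g).prod = 1) (hH : ∀ r ∈ subs, (r.map g).prod ∈ H)
    (j u : ℕ) (hu : u < M) (h : dp_b_48 j u = true) : Good (fa g) T MG M (cP g H) Lt.b u := by
  unfold dp_b_48 at h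
  rcases brec_true h with h | h
  · exact dp_b_42_s hinv hr hH j u hu h
  · exact dp_b_47_s hinv hr hH j u hu h
theorem dp_b_49_s (hinv : ∀ x, g (inv x) = (g x)⁻¹) (hr : ∀ r ∈ rels, (r.map g).prod = 1) (hH : ∀ r ∈ subs, (r.map g).prod ∈ H)
    (j u : ℕ) (hu : u < M) (h : dp_b_49 j u = true) : Good (fa g) T MG M (cP g H) Lt.b u := by
  unfold dp_b_49 at h
  rcases brec_true h with h | h
  · exact lF_good (T := T) (x := Lt.b) (by decide) [Lt.f, Lt.bi, Lt.bi, Lt.fi, Lt.c, Lt.f, Lt.b] (hole_rel hinv hr (by decide +kernel)) h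
  · exact lS_good (T := T) (x := Lt.b) (by decide) hu [Lt.fi, Lt.c, Lt.b, Lt.ci, Lt.di, Lt.fi, Lt.b] (hole_rel hinv hr (by decide +kernel)) h
theorem dp_b_50_s (hinv : ∀ x, g (inv x) = (g x)⁻¹) (hr : ∀ r ∈ rels, (r.map g).prod = 1) (hH : ∀ r ∈ subs, (r.map g).prod ∈ H)
    (j u : ℕ) (hu : u < M) (h : dp_b_50 j u = true) : Good (fa g) T MG M (cP g H) Lt.b u := by
  unfold dp_b_50 at h
  rcases brec_true h with h | h
  · exact lF_good (T := T) (x := Lt.b) (by decide) [Lt.f, Lt.ci, Lt.e, Lt.c, Lt.fi, Lt.bi, Lt.e] (hole_rel hinv hr (by decide +kernel)) h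
  · exact dp_b_49_s hinv hr hH j u hu h
theorem dp_b_51_s (hinv : ∀ x, g (inv x) = (g x)⁻¹) (hr : ∀ r ∈ rels, (r.map g).prod = 1) (hH : ∀ r ∈ subs, (r.map g).prod ∈ H)
    (j u : ℕ) (hu : u < M) (h : dp_b_51 j u = true) : Good (fa g) T MG M (cP g H) Lt.b u := by
  unfold dp_b_51 at h
  rcases brec_true h with h | h
  · exact lF_good (T := T) (x := Lt.b) (by decide) [Lt.f, Lt.bi, Lt.ei, Lt.c, Lt.f, Lt.ci, Lt.e] (hole_rel hinv hr (by decide +kernel)) h
  · exact lS_good (T := T) (x := Lt.b) (by decide) hu [Lt.f, Lt.ci, Lt.ei, Lt.c, Lt.fi, Lt.bi, Lt.ei] (hole_rel hinv hr (by decide +kernel)) h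
theorem dp_b_52_s (hinv : ∀ x, g (inv x) = (g x)⁻¹) (hr : ∀ r ∈ rels, (r.map g).prod = 1) (hH : ∀ r ∈ subs, (r.map g).prod ∈ H)
    (j u : ℕ) (hu : u < M) (h : dp_b_52 j u = true) : Good (fa g) T MG M (cP g H) Lt.b u := by
  unfold dp_b_52 at h
  rcases brec_true h with h | h
  · exact lF_good (T := T) (x := Lt.b) (by decide) [Lt.fi, Lt.c, Lt.b, Lt.ci, Lt.di, Lt.fi, Lt.b] (hole_rel hinv hr (by decide +kernel)) h
  · exact dp_b_51_s hinv hr hH j u hu h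
theorem dp_b_53_s (hinv : ∀ x, g (inv x) = (g x)⁻¹) (hr : ∀ r ∈ rels, (r.map g).prod = 1) (hH : ∀ r ∈ subs, (r.map g).prod ∈ H)
    (j u : ℕ) (hu : u < M) (h : dp_b_53 j u = true) : Good (fa g) T MG M (cP g H) Lt.b u := by
  unfold dp_b_53 at h
  rcases brec_true h with h | h
  · exact dp_b_50_s hinv hr hH j u hu h
  · exact dp_b_52_s hinv hr hH j u hu h
theorem dp_b_54_s (hinv : ∀ x, g (inv x) = (g x)⁻¹) (hr : ∀ r ∈ rels, (r.map g).prod = 1) (hH : ∀ r ∈ subs, (r.map g).prod ∈ H)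
    (j u : ℕ) (hu : u < M) (h : dp_b_54 j u = true) : Good (fa g) T MG M (cP g H) Lt.b u := by
  unfold dp_b_54 at h
  rcases brec_true h with h | h
  · exact lS_good (T := T) (x := Lt.b) (by decide) hu [Lt.e, Lt.bi, Lt.e, Lt.ci, Lt.d, Lt.bi, Lt.fi, Lt.ci, Lt.ei] (hole_rel hinv hr (by decide +kernel)) h
  · exact lS_good (T := T) (x := Lt.b) (by decide) hu [Lt.e, Lt.bi, Lt.e, Lt.fi, Lt.ci, Lt.bi, Lt.ci, Lt.di, Lt.ei] (hole_rel hinv hr (by decide +kernel)) h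
theorem dp_b_55_s (hinv : ∀ x, g (inv x) = (g x)⁻¹) (hr : ∀ r ∈ rels, (r.map g).prod = 1) (hH : ∀ r ∈ subs, (r.map g).prod ∈ H)
    (j u : ℕ) (hu : u < M) (h : dp_b_55 j u = true) : Good (fa g) T MG M (cP g H) Lt.b u := by
  unfold dp_b_55 at h
  rcases brec_true h with h | h
  · exact lS_good (T := T) (x := Lt.b) (by decide) hu [Lt.ei, Lt.bi, Lt.e, Lt.d, Lt.c, Lt.b, Lt.c, Lt.f, Lt.ei] (hole_rel hinv hr (by decide +kernel)) h
  · exact lF_good (T := T) (x := Lt.b) (by decide) [Lt.e, Lt.bi, Lt.e, Lt.di, Lt.bi, Lt.c, Lt.f, Lt.bi, Lt.ei] (hole_rel hinv hr (by decide +kernel)) h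
theorem dp_b_56_s (hinv : ∀ x, g (inv x) = (g x)⁻¹) (hr : ∀ r ∈ rels, (r.map g).prod = 1) (hH : ∀ r ∈ subs, (r.map g).prod ∈ H)
    (j u : ℕ) (hu : u < M) (h : dp_b_56 j u = true) : Good (fa g) T MG M (cP g H) Lt.b u := by
  unfold dp_b_56 at h
  rcases brec_true h with h | h
  · exact lS_good (T := T) (x := Lt.b) (by decide) hu [Lt.di, Lt.bi, Lt.bi, Lt.d, Lt.fi, Lt.di, Lt.b] (hole_rel hinv hr (by decide +kernel)) h
  · exact dp_b_55_s hinv hr hH j u hu h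
theorem dp_b_57_s (hinv : ∀ x, g (inv x) = (g x)⁻¹) (hr : ∀ r ∈ rels, (r.map g).prod = 1) (hH : ∀ r ∈ subs, (r.map g).prod ∈ H)
    (j u : ℕ) (hu : u < M) (h : dp_b_57 j u = true) : Good (fa g) T MG M (cP g H) Lt.b u := by
  unfold dp_b_57 at h
  rcases brec_true h with h | h
  · exact dp_b_54_s hinv hr hH j u hu h
  · exact dp_b_56_s hinv hr hH j u hu h
theorem dp_b_58_s (hinv : ∀ x, g (inv x) = (g x)⁻¹) (hr : ∀ r ∈ rels, (r.map g).prod = 1) (hH : ∀ r ∈ subs, (r.map g).prod ∈ H)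
    (j u : ℕ) (hu : u < M) (h : dp_b_58 j u = true) : Good (fa g) T MG M (cP g H) Lt.b u := by
  unfold dp_b_58 at h
  rcases brec_true h with h | h
  · exact lS_good (T := T) (x := Lt.b) (by decide) hu [Lt.di, Lt.ci, Lt.b, Lt.b, Lt.di, Lt.fi, Lt.ci, Lt.f] (hole_rel hinv hr (by decide +kernel)) h
  · exact lS_good (T := T) (x := Lt.b) (by decide) hu [Lt.b, Lt.fi, Lt.c, Lt.fi, Lt.b, Lt.fi, Lt.ci, Lt.b] (hole_rel hinv hr (by decide +kernel)) h
theorem dp_b_59_s (hinv : ∀ x, g (inv x) = (g x)⁻¹) (hr : ∀ r ∈ rels, (r.map g).prod = 1) (hH : ∀ r ∈ subs, (r.map g).prod ∈ H)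
    (j u : ℕ) (hu : u < M) (h : dp_b_59 j u = true) : Good (fa g) T MG M (cP g H) Lt.b u := by
  unfold dp_b_59 at h
  rcases brec_true h with h | h
  · exact lF_good (T := T) (x := Lt.b) (by decide) [Lt.e, Lt.bi, Lt.e, Lt.fi, Lt.ci, Lt.bi, Lt.ci, Lt.di, Lt.ei] (hole_rel hinv hr (by decide +kernel)) h
  · exact dp_b_58_s hinv hr hH j u hu h
theorem dp_b_60_s (hinv : ∀ x, g (inv x) = (g x)⁻¹) (hr : ∀ r ∈ rels, (r.map g).prod = 1) (hH : ∀ r ∈ subs, (r.map g).prod ∈ H)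
    (j u : ℕ) (hu : u < M) (h : dp_b_60 j u = true) : Good (fa g) T MG M (cP g H) Lt.b u := by
  unfold dp_b_60 at h
  rcases brec_true h with h | h
  · exact lF_good (T := T) (x := Lt.b) (by decide) [Lt.f, Lt.ci, Lt.ei, Lt.c, Lt.fi, Lt.bi, Lt.ei] (hole_rel hinv hr (by decide +kernel)) h
  · exact dp_b_59_s hinv hr hH j u hu h
theorem dp_b_61_s (hinv : ∀ x, g (inv x) = (g x)⁻¹) (hr : ∀ r ∈ rels, (r.map g).prod = 1) (hH : ∀ r ∈ subs, (r.map g).prod ∈ H)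
    (j u : ℕ) (hu : u < M) (h : dp_b_61 j u = true) : Good (fa g) T MG M (cP g H) Lt.b u := by
  unfold dp_b_61 at h
  rcases brec_true h with h | h
  · exact lS_good (T := T) (x := Lt.b) (by decide) hu [Lt.di, Lt.c, Lt.ei, Lt.b, Lt.ei, Lt.bi, Lt.e, Lt.c, Lt.f] (hole_rel hinv hr (by decide +kernel)) h
  · exact lS_good (T := T) (x := Lt.b) (by decide) hu [Lt.fi, Lt.ci, Lt.b, Lt.b, Lt.b, Lt.fi, Lt.c, Lt.fi] (hole_rel hinv hr (by decide +kernel)) h
theorem dp_b_62_s (hinv : ∀ x, g (inv x) = (g x)⁻¹) (hr : ∀ r ∈ rels, (r.map g).prod = 1) (hH : ∀ r ∈ subs, (r.map g).prod ∈ H)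
    (j u : ℕ) (hu : u < M) (h : dp_b_62 j u = true) : Good (fa g) T MG M (cP g H) Lt.b u := by
  unfold dp_b_62 at h
  rcases brec_true h with h | h
  · exact lF_good (T := T) (x := Lt.b) (by decide) [Lt.ei, Lt.bi, Lt.e, Lt.d, Lt.c, Lt.b, Lt.c, Lt.f, Lt.ei] (hole_rel hinv hr (by decide +kernel)) h
  · exact lF_good (T := T) (x := Lt.b) (by decide) [Lt.ei, Lt.bi, Lt.e, Lt.c, Lt.f, Lt.b, Lt.di, Lt.c, Lt.ei] (hole_rel hinv hr (by decide +kernel)) h
theorem dp_b_63_s (hinv : ∀ x, g (inv x) = (g x)⁻¹) (hr : ∀ r ∈ rels, (r.map g).prod = 1) (hH : ∀ r ∈ subs, (r.map g).prod ∈ H)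
    (j u : ℕ) (hu : u < M) (h : dp_b_63 j u = true) : Good (fa g) T MG M (cP g H) Lt.b u := by
  unfold dp_b_63 at h
  rcases brec_true h with h | h
  · exact dp_b_61_s hinv hr hH j u hu h
  · exact dp_b_62_s hinv hr hH j u hu h
theorem dp_b_64_s (hinv : ∀ x, g (inv x) = (g x)⁻¹) (hr : ∀ r ∈ rels, (r.map g).prod = 1) (hH : ∀ r ∈ subs, (r.map g).prod ∈ H)
    (j u : ℕ) (hu : u < M) (h : dp_b_64 j u = true) : Good (fa g) T MG M (cP g H) Lt.b u := by
  unfold dp_b_64 at h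
  rcases brec_true h with h | h
  · exact lH_good (T := T) (x := Lt.b) (by decide) [] [] (by rw [show cP g H 0 = _ from cc_zero]; exact sub_rel hinv (hH _ (by decide))) h
  · exact lF_good (T := T) (x := Lt.b) (by decide) [Lt.fi, Lt.c, Lt.fi, Lt.b, Lt.fi, Lt.ci, Lt.b, Lt.b] (hole_rel hinv hr (by decide +kernel)) h
theorem dp_b_65_s (hinv : ∀ x, g (inv x) = (g x)⁻¹) (hr : ∀ r ∈ rels, (r.map g).prod = 1) (hH : ∀ r ∈ subs, (r.map g).prod ∈ H)
    (j u : ℕ) (hu : u < M) (h : dp_b_65 j u = true) : Good (fa g) T MG M (cP g H) Lt.b u := by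
  unfold dp_b_65 at h
  rcases brec_true h with h | h
  · exact lF_good (T := T) (x := Lt.b) (by decide) [Lt.b, Lt.c, Lt.fi, Lt.ci, Lt.bi, Lt.c, Lt.f, Lt.ci, Lt.b] (hole_rel hinv hr (by decide +kernel)) h
  · exact dp_b_64_s hinv hr hH j u hu h
theorem dp_b_66_s (hinv : ∀ x, g (inv x) = (g x)⁻¹) (hr : ∀ r ∈ rels, (r.map g).prod = 1) (hH : ∀ r ∈ subs, (r.map g).prod ∈ H)
    (j u : ℕ) (hu : u < M) (h : dp_b_66 j u = true) : Good (fa g) T MG M (cP g H) Lt.b u := by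
  unfold dp_b_66 at h
  rcases brec_true h with h | h
  · exact lS_good (T := T) (x := Lt.b) (by decide) hu [Lt.fi, Lt.c, Lt.fi, Lt.b, Lt.fi, Lt.ci, Lt.b, Lt.b] (hole_rel hinv hr (by decide +kernel)) h
  · exact lF_good (T := T) (x := Lt.b) (by decide) [Lt.c, Lt.f, Lt.ei, Lt.b, Lt.ei, Lt.bi, Lt.e, Lt.d, Lt.c] (hole_rel hinv hr (by decide +kernel)) h
theorem dp_b_67_s (hinv : ∀ x, g (inv x) = (g x)⁻¹) (hr : ∀ r ∈ rels, (r.map g).prod = 1) (hH : ∀ r ∈ subs, (r.map g).prod ∈ H)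
    (j u : ℕ) (hu : u < M) (h : dp_b_67 j u = true) : Good (fa g) T MG M (cP g H) Lt.b u := by
  unfold dp_b_67 at h
  rcases brec_true h with h | h
  · exact lF_good (T := T) (x := Lt.b) (by decide) [Lt.fi, Lt.ci, Lt.b, Lt.b, Lt.b, Lt.fi, Lt.c, Lt.fi] (hole_rel hinv hr (by decide +kernel)) h
  · exact lS_good (T := T) (x := Lt.b) (by decide) hu [Lt.b, Lt.b, Lt.c, Lt.fi, Lt.ci, Lt.bi, Lt.c, Lt.f, Lt.ci] (hole_rel hinv hr (by decide +kernel)) h
theorem dp_b_68_s (hinv : ∀ x, g (inv x) = (g x)⁻¹) (hr : ∀ r ∈ rels, (r.map g).prod = 1) (hH : ∀ r ∈ subs, (r.map g).prod ∈ H)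
    (j u : ℕ) (hu : u < M) (h : dp_b_68 j u = true) : Good (fa g) T MG M (cP g H) Lt.b u := by
  unfold dp_b_68 at h
  rcases brec_true h with h | h
  · exact lF_good (T := T) (x := Lt.b) (by decide) [Lt.c, Lt.fi, Lt.ci, Lt.bi, Lt.c, Lt.f, Lt.ci, Lt.b, Lt.b] (hole_rel hinv hr (by decide +kernel)) h
  · exact dp_b_67_s hinv hr hH j u hu h
theorem dp_b_69_s (hinv : ∀ x, g (inv x) = (g x)⁻¹) (hr : ∀ r ∈ rels, (r.map g).prod = 1) (hH : ∀ r ∈ subs, (r.map g).prod ∈ H)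
    (j u : ℕ) (hu : u < M) (h : dp_b_69 j u = true) : Good (fa g) T MG M (cP g H) Lt.b u := by
  unfold dp_b_69 at h
  rcases brec_true h with h | h
  · exact dp_b_66_s hinv hr hH j u hu h
  · exact dp_b_68_s hinv hr hH j u hu h
theorem dp_b_70_s (hinv : ∀ x, g (inv x) = (g x)⁻¹) (hr : ∀ r ∈ rels, (r.map g).prod = 1) (hH : ∀ r ∈ subs, (r.map g).prod ∈ H)
    (j u : ℕ) (hu : u < M) (h : dp_b_70 j u = true) : Good (fa g) T MG M (cP g H) Lt.b u := by
  unfold dp_b_70 at h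
  rcases brec_true h with h | h
  · exact dp_b_65_s hinv hr hH j u hu h
  · exact dp_b_69_s hinv hr hH j u hu h
theorem dp_b_71_s (hinv : ∀ x, g (inv x) = (g x)⁻¹) (hr : ∀ r ∈ rels, (r.map g).prod = 1) (hH : ∀ r ∈ subs, (r.map g).prod ∈ H)
    (j u : ℕ) (hu : u < M) (h : dp_b_71 j u = true) : Good (fa g) T MG M (cP g H) Lt.b u := by
  unfold dp_b_71 at h
  rcases brec_true h with h | h
  · exact dp_b_63_s hinv hr hH j u hu h
  · exact dp_b_70_s hinv hr hH j u hu h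
theorem dp_b_72_s (hinv : ∀ x, g (inv x) = (g x)⁻¹) (hr : ∀ r ∈ rels, (r.map g).prod = 1) (hH : ∀ r ∈ subs, (r.map g).prod ∈ H)
    (j u : ℕ) (hu : u < M) (h : dp_b_72 j u = true) : Good (fa g) T MG M (cP g H) Lt.b u := by
  unfold dp_b_72 at h
  rcases brec_true h with h | h
  · exact dp_b_60_s hinv hr hH j u hu h
  · exact dp_b_71_s hinv hr hH j u hu h
theorem dp_b_73_s (hinv : ∀ x, g (inv x) = (g x)⁻¹) (hr : ∀ r ∈ rels, (r.map g).prod = 1) (hH : ∀ r ∈ subs, (r.map g).prod ∈ H)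
    (j u : ℕ) (hu : u < M) (h : dp_b_73 j u = true) : Good (fa g) T MG M (cP g H) Lt.b u := by
  unfold dp_b_73 at h
  rcases brec_true h with h | h
  · exact dp_b_57_s hinv hr hH j u hu h
  · exact dp_b_72_s hinv hr hH j u hu h
theorem dp_b_74_s (hinv : ∀ x, g (inv x) = (g x)⁻¹) (hr : ∀ r ∈ rels, (r.map g).prod = 1) (hH : ∀ r ∈ subs, (r.map g).prod ∈ H)
    (j u : ℕ) (hu : u < M) (h : dp_b_74 j u = true) : Good (fa g) T MG M (cP g H) Lt.b u := by
  unfold dp_b_74 at h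
  rcases brec_true h with h | h
  · exact dp_b_53_s hinv hr hH j u hu h
  · exact dp_b_73_s hinv hr hH j u hu h
theorem dp_b_75_s (hinv : ∀ x, g (inv x) = (g x)⁻¹) (hr : ∀ r ∈ rels, (r.map g).prod = 1) (hH : ∀ r ∈ subs, (r.map g).prod ∈ H)
    (j u : ℕ) (hu : u < M) (h : dp_b_75 j u = true) : Good (fa g) T MG M (cP g H) Lt.b u := by
  unfold dp_b_75 at h
  rcases brec_true h with h | h
  · exact dp_b_48_s hinv hr hH j u hu h
  · exact dp_b_74_s hinv hr hH j u hu h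
theorem dp_b_76_s (hinv : ∀ x, g (inv x) = (g x)⁻¹) (hr : ∀ r ∈ rels, (r.map g).prod = 1) (hH : ∀ r ∈ subs, (r.map g).prod ∈ H)
    (j u : ℕ) (hu : u < M) (h : dp_b_76 j u = true) : Good (fa g) T MG M (cP g H) Lt.b u := by
  unfold dp_b_76 at h
  rcases brec_true h with h | h
  · exact dp_b_37_s hinv hr hH j u hu h
  · exact dp_b_75_s hinv hr hH j u hu h
theorem dp_b_77_s (hinv : ∀ x, g (inv x) = (g x)⁻¹) (hr : ∀ r ∈ rels, (r.map g).prod = 1) (hH : ∀ r ∈ subs, (r.map g).prod ∈ H)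
    (j u : ℕ) (hu : u < M) (h : dp_b_77 j u = true) : Good (fa g) T MG M (cP g H) Lt.b u := by
  unfold dp_b_77 at h
  rcases brec_true h with h | h
  · exact dp_b_19_s hinv hr hH j u hu h
  · exact dp_b_76_s hinv hr hH j u hu h
theorem snd_b (hinv : ∀ x, g (inv x) = (g x)⁻¹) (hr : ∀ r ∈ rels, (r.map g).prod = 1) (hH : ∀ r ∈ subs, (r.map g).prod ∈ H)
    (j u : ℕ) (hu : u < M) (h : disp_b j u = true) : Good (fa g) T MG M (cP g H) Lt.b u := by
  unfold disp_b at h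
  rcases brec_true h with h | h
  · rcases brec_true h with h | h
    · exact lF1_good (T := T) (x := Lt.b) (by decide) .bi (hole_rel hinv hr (by decide +kernel)) h
    · exact lDef_good (T := T) (x := Lt.b) (by decide) rfl h
  · rcases brec_true h with h | h
    · rcases brec_true h with h | h
      · exact lPar_good (T := T) (x := Lt.b) (x' := Lt.bi) (by decide) rfl (inv_rel hinv _ _ rfl) h
      · exact lS_good (T := T) (x := Lt.b) (by decide) hu [Lt.bi] (hole_rel hinv hr (by decide +kernel)) h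
    · exact dp_b_77_s hinv hr hH j u hu h
theorem snc_b (hinv : ∀ x, g (inv x) = (g x)⁻¹) (hr : ∀ r ∈ rels, (r.map g).prod = 1) (hH : ∀ r ∈ subs, (r.map g).prod ∈ H)
    (j u : ℕ) (hu : u < M) (h : chk_b j u = true) : (T Lt.b u < A ∧ Good (fa g) T MG M (cP g H) Lt.b u) ∨ (A ≤ T Lt.b u ∧ MG u < A) := by
  unfold chk_b at h
  cases hb : Nat.ble A (T_b u) with
  | true => rw [hb] at h; exact Or.inr ⟨le_of_ble hb, le_of_ble h⟩
  | false => rw [hb] at h; exact Or.inl ⟨lt_of_ble_false hb, snd_b hinv hr hH j u hu h⟩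
theorem dp_bi_0_s (hinv : ∀ x, g (inv x) = (g x)⁻¹) (hr : ∀ r ∈ rels, (r.map g).prod = 1) (hH : ∀ r ∈ subs, (r.map g).prod ∈ H)
    (j u : ℕ) (hu : u < M) (h : dp_bi_0 j u = true) : Good (fa g) T MG M (cP g H) Lt.bi u := by
  unfold dp_bi_0 at h
  rcases brec_true h with h | h
  · exact lF_good (T := T) (x := Lt.bi) (by decide) [Lt.c, Lt.di, Lt.ci, Lt.d, Lt.bi, Lt.bi, Lt.f] (hole_rel hinv hr (by decide +kernel)) h
  · exact lS_good (T := T) (x := Lt.bi) (by decide) hu [Lt.ci, Lt.di, Lt.fi, Lt.d, Lt.bi, Lt.bi, Lt.ci] (hole_rel hinv hr (by decide +kernel)) h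
theorem dp_bi_1_s (hinv : ∀ x, g (inv x) = (g x)⁻¹) (hr : ∀ r ∈ rels, (r.map g).prod = 1) (hH : ∀ r ∈ subs, (r.map g).prod ∈ H)
    (j u : ℕ) (hu : u < M) (h : dp_bi_1 j u = true) : Good (fa g) T MG M (cP g H) Lt.bi u := by
  unfold dp_bi_1 at h
  rcases brec_true h with h | h
  · exact lS_good (T := T) (x := Lt.bi) (by decide) hu [Lt.e, Lt.b, Lt.fi, Lt.ci, Lt.b, Lt.d, Lt.ei, Lt.b, Lt.ei] (hole_rel hinv hr (by decide +kernel)) h
  · exact lS_good (T := T) (x := Lt.bi) (by decide) hu [Lt.c, Lt.di, Lt.ci, Lt.d, Lt.bi, Lt.bi, Lt.f] (hole_rel hinv hr (by decide +kernel)) h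
theorem dp_bi_2_s (hinv : ∀ x, g (inv x) = (g x)⁻¹) (hr : ∀ r ∈ rels, (r.map g).prod = 1) (hH : ∀ r ∈ subs, (r.map g).prod ∈ H)
    (j u : ℕ) (hu : u < M) (h : dp_bi_2 j u = true) : Good (fa g) T MG M (cP g H) Lt.bi u := by
  unfold dp_bi_2 at h
  rcases brec_true h with h | h
  · exact dp_bi_0_s hinv hr hH j u hu h
  · exact dp_bi_1_s hinv hr hH j u hu h
theorem dp_bi_3_s (hinv : ∀ x, g (inv x) = (g x)⁻¹) (hr : ∀ r ∈ rels, (r.map g).prod = 1) (hH : ∀ r ∈ subs, (r.map g).prod ∈ H)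
    (j u : ℕ) (hu : u < M) (h : dp_bi_3 j u = true) : Good (fa g) T MG M (cP g H) Lt.bi u := by
  unfold dp_bi_3 at h
  rcases brec_true h with h | h
  · exact lF_good (T := T) (x := Lt.bi) (by decide) [Lt.ci, Lt.di, Lt.fi, Lt.d, Lt.bi, Lt.bi, Lt.ci] (hole_rel hinv hr (by decide +kernel)) h
  · exact lS_good (T := T) (x := Lt.bi) (by decide) hu [Lt.ei, Lt.c, Lt.f, Lt.ci, Lt.e, Lt.b, Lt.f] (hole_rel hinv hr (by decide +kernel)) h
theorem dp_bi_4_s (hinv : ∀ x, g (inv x) = (g x)⁻¹) (hr : ∀ r ∈ rels, (r.map g).prod = 1) (hH : ∀ r ∈ subs, (r.map g).prod ∈ H)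
    (j u : ℕ) (hu : u < M) (h : dp_bi_4 j u = true) : Good (fa g) T MG M (cP g H) Lt.bi u := by
  unfold dp_bi_4 at h
  rcases brec_true h with h | h
  · exact lF_good (T := T) (x := Lt.bi) (by decide) [Lt.ci, Lt.f, Lt.bi, Lt.bi, Lt.f, Lt.d, Lt.c] (hole_rel hinv hr (by decide +kernel)) h
  · exact lS_good (T := T) (x := Lt.bi) (by decide) hu [Lt.d, Lt.f, Lt.di, Lt.b, Lt.b, Lt.d, Lt.bi] (hole_rel hinv hr (by decide +kernel)) h
theorem dp_bi_5_s (hinv : ∀ x, g (inv x) = (g x)⁻¹) (hr : ∀ r ∈ rels, (r.map g).prod = 1) (hH : ∀ r ∈ subs, (r.map g).prod ∈ H)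
    (j u : ℕ) (hu : u < M) (h : dp_bi_5 j u = true) : Good (fa g) T MG M (cP g H) Lt.bi u := by
  unfold dp_bi_5 at h
  rcases brec_true h with h | h
  · exact lF_good (T := T) (x := Lt.bi) (by decide) [Lt.d, Lt.f, Lt.di, Lt.b, Lt.b, Lt.d, Lt.bi] (hole_rel hinv hr (by decide +kernel)) h
  · exact dp_bi_4_s hinv hr hH j u hu h
theorem dp_bi_6_s (hinv : ∀ x, g (inv x) = (g x)⁻¹) (hr : ∀ r ∈ rels, (r.map g).prod = 1) (hH : ∀ r ∈ subs, (r.map g).prod ∈ H)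
    (j u : ℕ) (hu : u < M) (h : dp_bi_6 j u = true) : Good (fa g) T MG M (cP g H) Lt.bi u := by
  unfold dp_bi_6 at h
  rcases brec_true h with h | h
  · exact dp_bi_3_s hinv hr hH j u hu h
  · exact dp_bi_5_s hinv hr hH j u hu h
theorem dp_bi_7_s (hinv : ∀ x, g (inv x) = (g x)⁻¹) (hr : ∀ r ∈ rels, (r.map g).prod = 1) (hH : ∀ r ∈ subs, (r.map g).prod ∈ H)
    (j u : ℕ) (hu : u < M) (h : dp_bi_7 j u = true) : Good (fa g) T MG M (cP g H) Lt.bi u := by
  unfold dp_bi_7 at h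
  rcases brec_true h with h | h
  · exact dp_bi_2_s hinv hr hH j u hu h
  · exact dp_bi_6_s hinv hr hH j u hu h
theorem dp_bi_8_s (hinv : ∀ x, g (inv x) = (g x)⁻¹) (hr : ∀ r ∈ rels, (r.map g).prod = 1) (hH : ∀ r ∈ subs, (r.map g).prod ∈ H)
    (j u : ℕ) (hu : u < M) (h : dp_bi_8 j u = true) : Good (fa g) T MG M (cP g H) Lt.bi u := by
  unfold dp_bi_8 at h
  rcases brec_true h with h | h
  · exact lS_good (T := T) (x := Lt.bi) (by decide) hu [Lt.fi, Lt.ci, Lt.f, Lt.b, Lt.b, Lt.fi, Lt.bi] (hole_rel hinv hr (by decide +kernel)) h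
  · exact lS_good (T := T) (x := Lt.bi) (by decide) hu [Lt.di, Lt.ci, Lt.d, Lt.c, Lt.d, Lt.b, Lt.f] (hole_rel hinv hr (by decide +kernel)) h
theorem dp_bi_9_s (hinv : ∀ x, g (inv x) = (g x)⁻¹) (hr : ∀ r ∈ rels, (r.map g).prod = 1) (hH : ∀ r ∈ subs, (r.map g).prod ∈ H)
    (j u : ℕ) (hu : u < M) (h : dp_bi_9 j u = true) : Good (fa g) T MG M (cP g H) Lt.bi u := by
  unfold dp_bi_9 at h
  rcases brec_true h with h | h
  · exact lS_good (T := T) (x := Lt.bi) (by decide) hu [Lt.fi, Lt.c, Lt.f, Lt.b, Lt.b, Lt.f, Lt.bi] (hole_rel hinv hr (by decide +kernel)) h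
  · exact dp_bi_8_s hinv hr hH j u hu h
theorem dp_bi_10_s (hinv : ∀ x, g (inv x) = (g x)⁻¹) (hr : ∀ r ∈ rels, (r.map g).prod = 1) (hH : ∀ r ∈ subs, (r.map g).prod ∈ H)
    (j u : ℕ) (hu : u < M) (h : dp_bi_10 j u = true) : Good (fa g) T MG M (cP g H) Lt.bi u := by
  unfold dp_bi_10 at h
  rcases brec_true h with h | h
  · exact lF_good (T := T) (x := Lt.bi) (by decide) [Lt.fi, Lt.ci, Lt.f, Lt.b, Lt.b, Lt.fi, Lt.bi] (hole_rel hinv hr (by decide +kernel)) h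
  · exact lS_good (T := T) (x := Lt.bi) (by decide) hu [Lt.e, Lt.di, Lt.bi, Lt.c, Lt.f, Lt.bi, Lt.ei, Lt.b, Lt.e] (hole_rel hinv hr (by decide +kernel)) h
theorem dp_bi_11_s (hinv : ∀ x, g (inv x) = (g x)⁻¹) (hr : ∀ r ∈ rels, (r.map g).prod = 1) (hH : ∀ r ∈ subs, (r.map g).prod ∈ H)
    (j u : ℕ) (hu : u < M) (h : dp_bi_11 j u = true) : Good (fa g) T MG M (cP g H) Lt.bi u := by
  unfold dp_bi_11 at h
  rcases brec_true h with h | h
  · exact lF_good (T := T) (x := Lt.bi) (by decide) [Lt.di, Lt.b, Lt.di, Lt.ci, Lt.fi, Lt.c, Lt.d] (hole_rel hinv hr (by decide +kernel)) h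
  · exact lF_good (T := T) (x := Lt.bi) (by decide) [Lt.fi, Lt.c, Lt.f, Lt.b, Lt.b, Lt.f, Lt.bi] (hole_rel hinv hr (by decide +kernel)) h
theorem dp_bi_12_s (hinv : ∀ x, g (inv x) = (g x)⁻¹) (hr : ∀ r ∈ rels, (r.map g).prod = 1) (hH : ∀ r ∈ subs, (r.map g).prod ∈ H)
    (j u : ℕ) (hu : u < M) (h : dp_bi_12 j u = true) : Good (fa g) T MG M (cP g H) Lt.bi u := by
  unfold dp_bi_12 at h
  rcases brec_true h with h | h
  · exact dp_bi_10_s hinv hr hH j u hu h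
  · exact dp_bi_11_s hinv hr hH j u hu h
theorem dp_bi_13_s (hinv : ∀ x, g (inv x) = (g x)⁻¹) (hr : ∀ r ∈ rels, (r.map g).prod = 1) (hH : ∀ r ∈ subs, (r.map g).prod ∈ H)
    (j u : ℕ) (hu : u < M) (h : dp_bi_13 j u = true) : Good (fa g) T MG M (cP g H) Lt.bi u := by
  unfold dp_bi_13 at h
  rcases brec_true h with h | h
  · exact dp_bi_9_s hinv hr hH j u hu h
  · exact dp_bi_12_s hinv hr hH j u hu h
theorem dp_bi_14_s (hinv : ∀ x, g (inv x) = (g x)⁻¹) (hr : ∀ r ∈ rels, (r.map g).prod = 1) (hH : ∀ r ∈ subs, (r.map g).prod ∈ H)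
    (j u : ℕ) (hu : u < M) (h : dp_bi_14 j u = true) : Good (fa g) T MG M (cP g H) Lt.bi u := by
  unfold dp_bi_14 at h
  rcases brec_true h with h | h
  · exact lF_good (T := T) (x := Lt.bi) (by decide) [Lt.bi, Lt.d, Lt.fi, Lt.di, Lt.b, Lt.b, Lt.di] (hole_rel hinv hr (by decide +kernel)) h
  · exact lS_good (T := T) (x := Lt.bi) (by decide) hu [Lt.d, Lt.b, Lt.di, Lt.ci, Lt.f, Lt.c, Lt.d] (hole_rel hinv hr (by decide +kernel)) h
theorem dp_bi_15_s (hinv : ∀ x, g (inv x) = (g x)⁻¹) (hr : ∀ r ∈ rels, (r.map g).prod = 1) (hH : ∀ r ∈ subs, (r.map g).prod ∈ H)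
    (j u : ℕ) (hu : u < M) (h : dp_bi_15 j u = true) : Good (fa g) T MG M (cP g H) Lt.bi u := by
  unfold dp_bi_15 at h
  rcases brec_true h with h | h
  · exact lF_good (T := T) (x := Lt.bi) (by decide) [Lt.f, Lt.d, Lt.c, Lt.bi, Lt.ci, Lt.f, Lt.bi] (hole_rel hinv hr (by decide +kernel)) h
  · exact dp_bi_14_s hinv hr hH j u hu h
theorem dp_bi_16_s (hinv : ∀ x, g (inv x) = (g x)⁻¹) (hr : ∀ r ∈ rels, (r.map g).prod = 1) (hH : ∀ r ∈ subs, (r.map g).prod ∈ H)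
    (j u : ℕ) (hu : u < M) (h : dp_bi_16 j u = true) : Good (fa g) T MG M (cP g H) Lt.bi u := by
  unfold dp_bi_16 at h
  rcases brec_true h with h | h
  · exact lS_good (T := T) (x := Lt.bi) (by decide) hu [Lt.ci, Lt.f, Lt.di, Lt.bi, Lt.d, Lt.fi, Lt.bi] (hole_rel hinv hr (by decide +kernel)) h
  · exact lF_good (T := T) (x := Lt.bi) (by decide) [Lt.di, Lt.ci, Lt.d, Lt.c, Lt.d, Lt.b, Lt.f] (hole_rel hinv hr (by decide +kernel)) h
theorem dp_bi_17_s (hinv : ∀ x, g (inv x) = (g x)⁻¹) (hr : ∀ r ∈ rels, (r.map g).prod = 1) (hH : ∀ r ∈ subs, (r.map g).prod ∈ H)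
    (j u : ℕ) (hu : u < M) (h : dp_bi_17 j u = true) : Good (fa g) T MG M (cP g H) Lt.bi u := by
  unfold dp_bi_17 at h
  rcases brec_true h with h | h
  · exact lS_good (T := T) (x := Lt.bi) (by decide) hu [Lt.bi, Lt.f, Lt.bi, Lt.c, Lt.di, Lt.ci, Lt.d] (hole_rel hinv hr (by decide +kernel)) h
  · exact lF_good (T := T) (x := Lt.bi) (by decide) [Lt.bi, Lt.ci, Lt.f, Lt.di, Lt.bi, Lt.d, Lt.fi] (hole_rel hinv hr (by decide +kernel)) h
theorem dp_bi_18_s (hinv : ∀ x, g (inv x) = (g x)⁻¹) (hr : ∀ r ∈ rels, (r.map g).prod = 1) (hH : ∀ r ∈ subs, (r.map g).prod ∈ H)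
    (j u : ℕ) (hu : u < M) (h : dp_bi_18 j u = true) : Good (fa g) T MG M (cP g H) Lt.bi u := by
  unfold dp_bi_18 at h
  rcases brec_true h with h | h
  · exact dp_bi_16_s hinv hr hH j u hu h
  · exact dp_bi_17_s hinv hr hH j u hu h
theorem dp_bi_19_s (hinv : ∀ x, g (inv x) = (g x)⁻¹) (hr : ∀ r ∈ rels, (r.map g).prod = 1) (hH : ∀ r ∈ subs, (r.map g).prod ∈ H)
    (j u : ℕ) (hu : u < M) (h : dp_bi_19 j u = true) : Good (fa g) T MG M (cP g H) Lt.bi u := by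
  unfold dp_bi_19 at h
  rcases brec_true h with h | h
  · exact dp_bi_15_s hinv hr hH j u hu h
  · exact dp_bi_18_s hinv hr hH j u hu h
theorem dp_bi_20_s (hinv : ∀ x, g (inv x) = (g x)⁻¹) (hr : ∀ r ∈ rels, (r.map g).prod = 1) (hH : ∀ r ∈ subs, (r.map g).prod ∈ H)
    (j u : ℕ) (hu : u < M) (h : dp_bi_20 j u = true) : Good (fa g) T MG M (cP g H) Lt.bi u := by
  unfold dp_bi_20 at h
  rcases brec_true h with h | h
  · exact dp_bi_13_s hinv hr hH j u hu h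
  · exact dp_bi_19_s hinv hr hH j u hu h
theorem dp_bi_21_s (hinv : ∀ x, g (inv x) = (g x)⁻¹) (hr : ∀ r ∈ rels, (r.map g).prod = 1) (hH : ∀ r ∈ subs, (r.map g).prod ∈ H)
    (j u : ℕ) (hu : u < M) (h : dp_bi_21 j u = true) : Good (fa g) T MG M (cP g H) Lt.bi u := by
  unfold dp_bi_21 at h
  rcases brec_true h with h | h
  · exact dp_bi_7_s hinv hr hH j u hu h
  · exact dp_bi_20_s hinv hr hH j u hu h
theorem dp_bi_22_s (hinv : ∀ x, g (inv x) = (g x)⁻¹) (hr : ∀ r ∈ rels, (r.map g).prod = 1) (hH : ∀ r ∈ subs, (r.map g).prod ∈ H)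
    (j u : ℕ) (hu : u < M) (h : dp_bi_22 j u = true) : Good (fa g) T MG M (cP g H) Lt.bi u := by
  unfold dp_bi_22 at h
  rcases brec_true h with h | h
  · exact lF_good (T := T) (x := Lt.bi) (by decide) [Lt.bi, Lt.ci, Lt.bi, Lt.ci, Lt.di, Lt.fi, Lt.d] (hole_rel hinv hr (by decide +kernel)) h
  · exact lS_good (T := T) (x := Lt.bi) (by decide) hu [Lt.bi, Lt.d, Lt.fi, Lt.di, Lt.b, Lt.b, Lt.di] (hole_rel hinv hr (by decide +kernel)) h
theorem dp_bi_23_s (hinv : ∀ x, g (inv x) = (g x)⁻¹) (hr : ∀ r ∈ rels, (r.map g).prod = 1) (hH : ∀ r ∈ subs, (r.map g).prod ∈ H)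
    (j u : ℕ) (hu : u < M) (h : dp_bi_23 j u = true) : Good (fa g) T MG M (cP g H) Lt.bi u := by
  unfold dp_bi_23 at h
  rcases brec_true h with h | h
  · exact lS_good (T := T) (x := Lt.bi) (by decide) hu [Lt.e, Lt.b, Lt.f, Lt.ci, Lt.e, Lt.c, Lt.fi] (hole_rel hinv hr (by decide +kernel)) h
  · exact lF_good (T := T) (x := Lt.bi) (by decide) [Lt.d, Lt.fi, Lt.di, Lt.b, Lt.b, Lt.di, Lt.bi] (hole_rel hinv hr (by decide +kernel)) h
theorem dp_bi_24_s (hinv : ∀ x, g (inv x) = (g x)⁻¹) (hr : ∀ r ∈ rels, (r.map g).prod = 1) (hH : ∀ r ∈ subs, (r.map g).prod ∈ H)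
    (j u : ℕ) (hu : u < M) (h : dp_bi_24 j u = true) : Good (fa g) T MG M (cP g H) Lt.bi u := by
  unfold dp_bi_24 at h
  rcases brec_true h with h | h
  · exact dp_bi_22_s hinv hr hH j u hu h
  · exact dp_bi_23_s hinv hr hH j u hu h
theorem dp_bi_25_s (hinv : ∀ x, g (inv x) = (g x)⁻¹) (hr : ∀ r ∈ rels, (r.map g).prod = 1) (hH : ∀ r ∈ subs, (r.map g).prod ∈ H)
    (j u : ℕ) (hu : u < M) (h : dp_bi_25 j u = true) : Good (fa g) T MG M (cP g H) Lt.bi u := by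
  unfold dp_bi_25 at h
  rcases brec_true h with h | h
  · exact lS_good (T := T) (x := Lt.bi) (by decide) hu [Lt.bi, Lt.ci, Lt.bi, Lt.ci, Lt.di, Lt.fi, Lt.d] (hole_rel hinv hr (by decide +kernel)) h
  · exact lS_good (T := T) (x := Lt.bi) (by decide) hu [Lt.ci, Lt.f, Lt.bi, Lt.bi, Lt.f, Lt.d, Lt.c] (hole_rel hinv hr (by decide +kernel)) h
theorem dp_bi_26_s (hinv : ∀ x, g (inv x) = (g x)⁻¹) (hr : ∀ r ∈ rels, (r.map g).prod = 1) (hH : ∀ r ∈ subs, (r.map g).prod ∈ H)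
    (j u : ℕ) (hu : u < M) (h : dp_bi_26 j u = true) : Good (fa g) T MG M (cP g H) Lt.bi u := by
  unfold dp_bi_26 at h
  rcases brec_true h with h | h
  · exact lF_good (T := T) (x := Lt.bi) (by decide) [Lt.d, Lt.b, Lt.di, Lt.ci, Lt.f, Lt.c, Lt.d] (hole_rel hinv hr (by decide +kernel)) h
  · exact lS_good (T := T) (x := Lt.bi) (by decide) hu [Lt.f, Lt.bi, Lt.c, Lt.di, Lt.ci, Lt.d, Lt.bi] (hole_rel hinv hr (by decide +kernel)) h
theorem dp_bi_27_s (hinv : ∀ x, g (inv x) = (g x)⁻¹) (hr : ∀ r ∈ rels, (r.map g).prod = 1) (hH : ∀ r ∈ subs, (r.map g).prod ∈ H)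
    (j u : ℕ) (hu : u < M) (h : dp_bi_27 j u = true) : Good (fa g) T MG M (cP g H) Lt.bi u := by
  unfold dp_bi_27 at h
  rcases brec_true h with h | h
  · exact dp_bi_25_s hinv hr hH j u hu h
  · exact dp_bi_26_s hinv hr hH j u hu h
theorem dp_bi_28_s (hinv : ∀ x, g (inv x) = (g x)⁻¹) (hr : ∀ r ∈ rels, (r.map g).prod = 1) (hH : ∀ r ∈ subs, (r.map g).prod ∈ H)
    (j u : ℕ) (hu : u < M) (h : dp_bi_28 j u = true) : Good (fa g) T MG M (cP g H) Lt.bi u := by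
  unfold dp_bi_28 at h
  rcases brec_true h with h | h
  · exact dp_bi_24_s hinv hr hH j u hu h
  · exact dp_bi_27_s hinv hr hH j u hu h
theorem dp_bi_29_s (hinv : ∀ x, g (inv x) = (g x)⁻¹) (hr : ∀ r ∈ rels, (r.map g).prod = 1) (hH : ∀ r ∈ subs, (r.map g).prod ∈ H)
    (j u : ℕ) (hu : u < M) (h : dp_bi_29 j u = true) : Good (fa g) T MG M (cP g H) Lt.bi u := by
  unfold dp_bi_29 at h
  rcases brec_true h with h | h
  · exact lS_good (T := T) (x := Lt.bi) (by decide) hu [Lt.d, Lt.fi, Lt.di, Lt.b, Lt.b, Lt.di, Lt.bi] (hole_rel hinv hr (by decide +kernel)) h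
  · exact lS_good (T := T) (x := Lt.bi) (by decide) hu [Lt.bi, Lt.d, Lt.f, Lt.di, Lt.b, Lt.b, Lt.d] (hole_rel hinv hr (by decide +kernel)) h
theorem dp_bi_30_s (hinv : ∀ x, g (inv x) = (g x)⁻¹) (hr : ∀ r ∈ rels, (r.map g).prod = 1) (hH : ∀ r ∈ subs, (r.map g).prod ∈ H)
    (j u : ℕ) (hu : u < M) (h : dp_bi_30 j u = true) : Good (fa g) T MG M (cP g H) Lt.bi u := by
  unfold dp_bi_30 at h
  rcases brec_true h with h | h
  · exact lS_good (T := T) (x := Lt.bi) (by decide) hu [Lt.ei, Lt.c, Lt.fi, Lt.ci, Lt.e, Lt.b, Lt.fi] (hole_rel hinv hr (by decide +kernel)) h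
  · exact lF_good (T := T) (x := Lt.bi) (by decide) [Lt.bi, Lt.fi, Lt.ci, Lt.f, Lt.b, Lt.b, Lt.fi] (hole_rel hinv hr (by decide +kernel)) h
theorem dp_bi_31_s (hinv : ∀ x, g (inv x) = (g x)⁻¹) (hr : ∀ r ∈ rels, (r.map g).prod = 1) (hH : ∀ r ∈ subs, (r.map g).prod ∈ H)
    (j u : ℕ) (hu : u < M) (h : dp_bi_31 j u = true) : Good (fa g) T MG M (cP g H) Lt.bi u := by
  unfold dp_bi_31 at h
  rcases brec_true h with h | h
  · exact dp_bi_29_s hinv hr hH j u hu h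
  · exact dp_bi_30_s hinv hr hH j u hu h
theorem dp_bi_32_s (hinv : ∀ x, g (inv x) = (g x)⁻¹) (hr : ∀ r ∈ rels, (r.map g).prod = 1) (hH : ∀ r ∈ subs, (r.map g).prod ∈ H)
    (j u : ℕ) (hu : u < M) (h : dp_bi_32 j u = true) : Good (fa g) T MG M (cP g H) Lt.bi u := by
  unfold dp_bi_32 at h
  rcases brec_true h with h | h
  · exact lS_good (T := T) (x := Lt.bi) (by decide) hu [Lt.bi, Lt.ci, Lt.f, Lt.di, Lt.bi, Lt.d, Lt.fi] (hole_rel hinv hr (by decide +kernel)) h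
  · exact lS_good (T := T) (x := Lt.bi) (by decide) hu [Lt.e, Lt.fi, Lt.ci, Lt.bi, Lt.ci, Lt.di, Lt.ei, Lt.b, Lt.e] (hole_rel hinv hr (by decide +kernel)) h
theorem dp_bi_33_s (hinv : ∀ x, g (inv x) = (g x)⁻¹) (hr : ∀ r ∈ rels, (r.map g).prod = 1) (hH : ∀ r ∈ subs, (r.map g).prod ∈ H)
    (j u : ℕ) (hu : u < M) (h : dp_bi_33 j u = true) : Good (fa g) T MG M (cP g H) Lt.bi u := by
  unfold dp_bi_33 at h
  rcases brec_true h with h | h
  · exact lS_good (T := T) (x := Lt.bi) (by decide) hu [Lt.di, Lt.ci, Lt.di, Lt.c, Lt.d, Lt.b, Lt.fi] (hole_rel hinv hr (by decide +kernel)) h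
  · exact lS_good (T := T) (x := Lt.bi) (by decide) hu [Lt.ci, Lt.bi, Lt.ci, Lt.di, Lt.fi, Lt.d, Lt.bi] (hole_rel hinv hr (by decide +kernel)) h
theorem dp_bi_34_s (hinv : ∀ x, g (inv x) = (g x)⁻¹) (hr : ∀ r ∈ rels, (r.map g).prod = 1) (hH : ∀ r ∈ subs, (r.map g).prod ∈ H)
    (j u : ℕ) (hu : u < M) (h : dp_bi_34 j u = true) : Good (fa g) T MG M (cP g H) Lt.bi u := by
  unfold dp_bi_34 at h
  rcases brec_true h with h | h
  · exact lF_good (T := T) (x := Lt.bi) (by decide) [Lt.ci, Lt.bi, Lt.ci, Lt.di, Lt.fi, Lt.d, Lt.bi] (hole_rel hinv hr (by decide +kernel)) h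
  · exact dp_bi_33_s hinv hr hH j u hu h
theorem dp_bi_35_s (hinv : ∀ x, g (inv x) = (g x)⁻¹) (hr : ∀ r ∈ rels, (r.map g).prod = 1) (hH : ∀ r ∈ subs, (r.map g).prod ∈ H)
    (j u : ℕ) (hu : u < M) (h : dp_bi_35 j u = true) : Good (fa g) T MG M (cP g H) Lt.bi u := by
  unfold dp_bi_35 at h
  rcases brec_true h with h | h
  · exact dp_bi_32_s hinv hr hH j u hu h
  · exact dp_bi_34_s hinv hr hH j u hu h
theorem dp_bi_36_s (hinv : ∀ x, g (inv x) = (g x)⁻¹) (hr : ∀ r ∈ rels, (r.map g).prod = 1) (hH : ∀ r ∈ subs, (r.map g).prod ∈ H)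
    (j u : ℕ) (hu : u < M) (h : dp_bi_36 j u = true) : Good (fa g) T MG M (cP g H) Lt.bi u := by
  unfold dp_bi_36 at h
  rcases brec_true h with h | h
  · exact dp_bi_31_s hinv hr hH j u hu h
  · exact dp_bi_35_s hinv hr hH j u hu h
theorem dp_bi_37_s (hinv : ∀ x, g (inv x) = (g x)⁻¹) (hr : ∀ r ∈ rels, (r.map g).prod = 1) (hH : ∀ r ∈ subs, (r.map g).prod ∈ H)
    (j u : ℕ) (hu : u < M) (h : dp_bi_37 j u = true) : Good (fa g) T MG M (cP g H) Lt.bi u := by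
  unfold dp_bi_37 at h
  rcases brec_true h with h | h
  · exact dp_bi_28_s hinv hr hH j u hu h
  · exact dp_bi_36_s hinv hr hH j u hu h
theorem dp_bi_38_s (hinv : ∀ x, g (inv x) = (g x)⁻¹) (hr : ∀ r ∈ rels, (r.map g).prod = 1) (hH : ∀ r ∈ subs, (r.map g).prod ∈ H)
    (j u : ℕ) (hu : u < M) (h : dp_bi_38 j u = true) : Good (fa g) T MG M (cP g H) Lt.bi u := by
  unfold dp_bi_38 at h
  rcases brec_true h with h | h
  · exact lF_good (T := T) (x := Lt.bi) (by decide) [Lt.d, Lt.fi, Lt.bi, Lt.bi, Lt.ci, Lt.f, Lt.di] (hole_rel hinv hr (by decide +kernel)) h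
  · exact lF_good (T := T) (x := Lt.bi) (by decide) [Lt.ei, Lt.c, Lt.f, Lt.ci, Lt.e, Lt.b, Lt.f] (hole_rel hinv hr (by decide +kernel)) h
theorem dp_bi_39_s (hinv : ∀ x, g (inv x) = (g x)⁻¹) (hr : ∀ r ∈ rels, (r.map g).prod = 1) (hH : ∀ r ∈ subs, (r.map g).prod ∈ H)
    (j u : ℕ) (hu : u < M) (h : dp_bi_39 j u = true) : Good (fa g) T MG M (cP g H) Lt.bi u := by
  unfold dp_bi_39 at h
  rcases brec_true h with h | h
  · exact lS_good (T := T) (x := Lt.bi) (by decide) hu [Lt.d, Lt.fi, Lt.bi, Lt.bi, Lt.ci, Lt.f, Lt.di] (hole_rel hinv hr (by decide +kernel)) h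
  · exact lS_good (T := T) (x := Lt.bi) (by decide) hu [Lt.f, Lt.d, Lt.c, Lt.bi, Lt.ci, Lt.f, Lt.bi] (hole_rel hinv hr (by decide +kernel)) h
theorem dp_bi_40_s (hinv : ∀ x, g (inv x) = (g x)⁻¹) (hr : ∀ r ∈ rels, (r.map g).prod = 1) (hH : ∀ r ∈ subs, (r.map g).prod ∈ H)
    (j u : ℕ) (hu : u < M) (h : dp_bi_40 j u = true) : Good (fa g) T MG M (cP g H) Lt.bi u := by
  unfold dp_bi_40 at h
  rcases brec_true h with h | h
  · exact lF_good (T := T) (x := Lt.bi) (by decide) [Lt.f, Lt.bi, Lt.c, Lt.di, Lt.ci, Lt.d, Lt.bi] (hole_rel hinv hr (by decide +kernel)) h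
  · exact dp_bi_39_s hinv hr hH j u hu h
theorem dp_bi_41_s (hinv : ∀ x, g (inv x) = (g x)⁻¹) (hr : ∀ r ∈ rels, (r.map g).prod = 1) (hH : ∀ r ∈ subs, (r.map g).prod ∈ H)
    (j u : ℕ) (hu : u < M) (h : dp_bi_41 j u = true) : Good (fa g) T MG M (cP g H) Lt.bi u := by
  unfold dp_bi_41 at h
  rcases brec_true h with h | h
  · exact dp_bi_38_s hinv hr hH j u hu h
  · exact dp_bi_40_s hinv hr hH j u hu h
theorem dp_bi_42_s (hinv : ∀ x, g (inv x) = (g x)⁻¹) (hr : ∀ r ∈ rels, (r.map g).prod = 1) (hH : ∀ r ∈ subs, (r.map g).prod ∈ H)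
    (j u : ℕ) (hu : u < M) (h : dp_bi_42 j u = true) : Good (fa g) T MG M (cP g H) Lt.bi u := by
  unfold dp_bi_42 at h
  rcases brec_true h with h | h
  · exact lS_good (T := T) (x := Lt.bi) (by decide) hu [Lt.ei, Lt.b, Lt.f, Lt.ci, Lt.ei, Lt.c, Lt.fi] (hole_rel hinv hr (by decide +kernel)) h
  · exact lF_good (T := T) (x := Lt.bi) (by decide) [Lt.ei, Lt.c, Lt.fi, Lt.ci, Lt.e, Lt.b, Lt.fi] (hole_rel hinv hr (by decide +kernel)) h
theorem dp_bi_43_s (hinv : ∀ x, g (inv x) = (g x)⁻¹) (hr : ∀ r ∈ rels, (r.map g).prod = 1) (hH : ∀ r ∈ subs, (r.map g).prod ∈ H)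
    (j u : ℕ) (hu : u < M) (h : dp_bi_43 j u = true) : Good (fa g) T MG M (cP g H) Lt.bi u := by
  unfold dp_bi_43 at h
  rcases brec_true h with h | h
  · exact lF_good (T := T) (x := Lt.bi) (by decide) [Lt.bi, Lt.f, Lt.bi, Lt.c, Lt.di, Lt.ci, Lt.d] (hole_rel hinv hr (by decide +kernel)) h
  · exact lS_good (T := T) (x := Lt.bi) (by decide) hu [Lt.di, Lt.b, Lt.di, Lt.ci, Lt.fi, Lt.c, Lt.d] (hole_rel hinv hr (by decide +kernel)) h
theorem dp_bi_44_s (hinv : ∀ x, g (inv x) = (g x)⁻¹) (hr : ∀ r ∈ rels, (r.map g).prod = 1) (hH : ∀ r ∈ subs, (r.map g).prod ∈ H)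
    (j u : ℕ) (hu : u < M) (h : dp_bi_44 j u = true) : Good (fa g) T MG M (cP g H) Lt.bi u := by
  unfold dp_bi_44 at h
  rcases brec_true h with h | h
  · exact lF_good (T := T) (x := Lt.bi) (by decide) [Lt.di, Lt.ci, Lt.di, Lt.c, Lt.d, Lt.b, Lt.fi] (hole_rel hinv hr (by decide +kernel)) h
  · exact dp_bi_43_s hinv hr hH j u hu h
theorem dp_bi_45_s (hinv : ∀ x, g (inv x) = (g x)⁻¹) (hr : ∀ r ∈ rels, (r.map g).prod = 1) (hH : ∀ r ∈ subs, (r.map g).prod ∈ H)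
    (j u : ℕ) (hu : u < M) (h : dp_bi_45 j u = true) : Good (fa g) T MG M (cP g H) Lt.bi u := by
  unfold dp_bi_45 at h
  rcases brec_true h with h | h
  · exact dp_bi_42_s hinv hr hH j u hu h
  · exact dp_bi_44_s hinv hr hH j u hu h
theorem dp_bi_46_s (hinv : ∀ x, g (inv x) = (g x)⁻¹) (hr : ∀ r ∈ rels, (r.map g).prod = 1) (hH : ∀ r ∈ subs, (r.map g).prod ∈ H)
    (j u : ℕ) (hu : u < M) (h : dp_bi_46 j u = true) : Good (fa g) T MG M (cP g H) Lt.bi u := by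
  unfold dp_bi_46 at h
  rcases brec_true h with h | h
  · exact dp_bi_41_s hinv hr hH j u hu h
  · exact dp_bi_45_s hinv hr hH j u hu h
theorem dp_bi_47_s (hinv : ∀ x, g (inv x) = (g x)⁻¹) (hr : ∀ r ∈ rels, (r.map g).prod = 1) (hH : ∀ r ∈ subs, (r.map g).prod ∈ H)
    (j u : ℕ) (hu : u < M) (h : dp_bi_47 j u = true) : Good (fa g) T MG M (cP g H) Lt.bi u := by
  unfold dp_bi_47 at h
  rcases brec_true h with h | h
  · exact lS_good (T := T) (x := Lt.bi) (by decide) hu [Lt.bi, Lt.fi, Lt.c, Lt.f, Lt.b, Lt.b, Lt.f] (hole_rel hinv hr (by decide +kernel)) h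
  · exact lF_good (T := T) (x := Lt.bi) (by decide) [Lt.bi, Lt.d, Lt.f, Lt.di, Lt.b, Lt.b, Lt.d] (hole_rel hinv hr (by decide +kernel)) h
theorem dp_bi_48_s (hinv : ∀ x, g (inv x) = (g x)⁻¹) (hr : ∀ r ∈ rels, (r.map g).prod = 1) (hH : ∀ r ∈ subs, (r.map g).prod ∈ H)
    (j u : ℕ) (hu : u < M) (h : dp_bi_48 j u = true) : Good (fa g) T MG M (cP g H) Lt.bi u := by
  unfold dp_bi_48 at h
  rcases brec_true h with h | h
  · exact lS_good (T := T) (x := Lt.bi) (by decide) hu [Lt.e, Lt.ci, Lt.d, Lt.bi, Lt.fi, Lt.ci, Lt.ei, Lt.b, Lt.e] (hole_rel hinv hr (by decide +kernel)) h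
  · exact dp_bi_47_s hinv hr hH j u hu h
theorem dp_bi_49_s (hinv : ∀ x, g (inv x) = (g x)⁻¹) (hr : ∀ r ∈ rels, (r.map g).prod = 1) (hH : ∀ r ∈ subs, (r.map g).prod ∈ H)
    (j u : ℕ) (hu : u < M) (h : dp_bi_49 j u = true) : Good (fa g) T MG M (cP g H) Lt.bi u := by
  unfold dp_bi_49 at h
  rcases brec_true h with h | h
  · exact lS_good (T := T) (x := Lt.bi) (by decide) hu [Lt.bi, Lt.f, Lt.d, Lt.c, Lt.bi, Lt.ci, Lt.f] (hole_rel hinv hr (by decide +kernel)) h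
  · exact lS_good (T := T) (x := Lt.bi) (by decide) hu [Lt.e, Lt.c, Lt.f, Lt.b, Lt.di, Lt.c, Lt.ei, Lt.b, Lt.ei] (hole_rel hinv hr (by decide +kernel)) h
theorem dp_bi_50_s (hinv : ∀ x, g (inv x) = (g x)⁻¹) (hr : ∀ r ∈ rels, (r.map g).prod = 1) (hH : ∀ r ∈ subs, (r.map g).prod ∈ H)
    (j u : ℕ) (hu : u < M) (h : dp_bi_50 j u = true) : Good (fa g) T MG M (cP g H) Lt.bi u := by
  unfold dp_bi_50 at h
  rcases brec_true h with h | h
  · exact lS_good (T := T) (x := Lt.bi) (by decide) hu [Lt.bi, Lt.fi, Lt.ci, Lt.f, Lt.b, Lt.b, Lt.fi] (hole_rel hinv hr (by decide +kernel)) h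
  · exact lF_good (T := T) (x := Lt.bi) (by decide) [Lt.bi, Lt.f, Lt.d, Lt.c, Lt.bi, Lt.ci, Lt.f] (hole_rel hinv hr (by decide +kernel)) h
theorem dp_bi_51_s (hinv : ∀ x, g (inv x) = (g x)⁻¹) (hr : ∀ r ∈ rels, (r.map g).prod = 1) (hH : ∀ r ∈ subs, (r.map g).prod ∈ H)
    (j u : ℕ) (hu : u < M) (h : dp_bi_51 j u = true) : Good (fa g) T MG M (cP g H) Lt.bi u := by
  unfold dp_bi_51 at h
  rcases brec_true h with h | h
  · exact dp_bi_49_s hinv hr hH j u hu h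
  · exact dp_bi_50_s hinv hr hH j u hu h
theorem dp_bi_52_s (hinv : ∀ x, g (inv x) = (g x)⁻¹) (hr : ∀ r ∈ rels, (r.map g).prod = 1) (hH : ∀ r ∈ subs, (r.map g).prod ∈ H)
    (j u : ℕ) (hu : u < M) (h : dp_bi_52 j u = true) : Good (fa g) T MG M (cP g H) Lt.bi u := by
  unfold dp_bi_52 at h
  rcases brec_true h with h | h
  · exact dp_bi_48_s hinv hr hH j u hu h
  · exact dp_bi_51_s hinv hr hH j u hu h
theorem dp_bi_53_s (hinv : ∀ x, g (inv x) = (g x)⁻¹) (hr : ∀ r ∈ rels, (r.map g).prod = 1) (hH : ∀ r ∈ subs, (r.map g).prod ∈ H)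
    (j u : ℕ) (hu : u < M) (h : dp_bi_53 j u = true) : Good (fa g) T MG M (cP g H) Lt.bi u := by
  unfold dp_bi_53 at h
  rcases brec_true h with h | h
  · exact lF_good (T := T) (x := Lt.bi) (by decide) [Lt.ei, Lt.b, Lt.f, Lt.ci, Lt.ei, Lt.c, Lt.fi] (hole_rel hinv hr (by decide +kernel)) h
  · exact lF_good (T := T) (x := Lt.bi) (by decide) [Lt.ci, Lt.f, Lt.di, Lt.bi, Lt.d, Lt.fi, Lt.bi] (hole_rel hinv hr (by decide +kernel)) h
theorem dp_bi_54_s (hinv : ∀ x, g (inv x) = (g x)⁻¹) (hr : ∀ r ∈ rels, (r.map g).prod = 1) (hH : ∀ r ∈ subs, (r.map g).prod ∈ H)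
    (j u : ℕ) (hu : u < M) (h : dp_bi_54 j u = true) : Good (fa g) T MG M (cP g H) Lt.bi u := by
  unfold dp_bi_54 at h
  rcases brec_true h with h | h
  · exact lF_good (T := T) (x := Lt.bi) (by decide) [Lt.e, Lt.di, Lt.bi, Lt.c, Lt.f, Lt.bi, Lt.ei, Lt.b, Lt.e] (hole_rel hinv hr (by decide +kernel)) h
  · exact lF_good (T := T) (x := Lt.bi) (by decide) [Lt.bi, Lt.fi, Lt.c, Lt.f, Lt.b, Lt.b, Lt.f] (hole_rel hinv hr (by decide +kernel)) h
theorem dp_bi_55_s (hinv : ∀ x, g (inv x) = (g x)⁻¹) (hr : ∀ r ∈ rels, (r.map g).prod = 1) (hH : ∀ r ∈ subs, (r.map g).prod ∈ H)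
    (j u : ℕ) (hu : u < M) (h : dp_bi_55 j u = true) : Good (fa g) T MG M (cP g H) Lt.bi u := by
  unfold dp_bi_55 at h
  rcases brec_true h with h | h
  · exact lF_good (T := T) (x := Lt.bi) (by decide) [Lt.e, Lt.b, Lt.fi, Lt.ci, Lt.b, Lt.d, Lt.ei, Lt.b, Lt.ei] (hole_rel hinv hr (by decide +kernel)) h
  · exact dp_bi_54_s hinv hr hH j u hu h
theorem dp_bi_56_s (hinv : ∀ x, g (inv x) = (g x)⁻¹) (hr : ∀ r ∈ rels, (r.map g).prod = 1) (hH : ∀ r ∈ subs, (r.map g).prod ∈ H)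
    (j u : ℕ) (hu : u < M) (h : dp_bi_56 j u = true) : Good (fa g) T MG M (cP g H) Lt.bi u := by
  unfold dp_bi_56 at h
  rcases brec_true h with h | h
  · exact dp_bi_53_s hinv hr hH j u hu h
  · exact dp_bi_55_s hinv hr hH j u hu h
theorem dp_bi_57_s (hinv : ∀ x, g (inv x) = (g x)⁻¹) (hr : ∀ r ∈ rels, (r.map g).prod = 1) (hH : ∀ r ∈ subs, (r.map g).prod ∈ H)
    (j u : ℕ) (hu : u < M) (h : dp_bi_57 j u = true) : Good (fa g) T MG M (cP g H) Lt.bi u := by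
  unfold dp_bi_57 at h
  rcases brec_true h with h | h
  · exact lF_good (T := T) (x := Lt.bi) (by decide) [Lt.e, Lt.b, Lt.f, Lt.ci, Lt.e, Lt.c, Lt.fi] (hole_rel hinv hr (by decide +kernel)) h
  · exact lF_good (T := T) (x := Lt.bi) (by decide) [Lt.e, Lt.fi, Lt.ci, Lt.bi, Lt.ci, Lt.di, Lt.ei, Lt.b, Lt.e] (hole_rel hinv hr (by decide +kernel)) h
theorem dp_bi_58_s (hinv : ∀ x, g (inv x) = (g x)⁻¹) (hr : ∀ r ∈ rels, (r.map g).prod = 1) (hH : ∀ r ∈ subs, (r.map g).prod ∈ H)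
    (j u : ℕ) (hu : u < M) (h : dp_bi_58 j u = true) : Good (fa g) T MG M (cP g H) Lt.bi u := by
  unfold dp_bi_58 at h
  rcases brec_true h with h | h
  · exact lS_good (T := T) (x := Lt.bi) (by decide) hu [Lt.c, Lt.f, Lt.bi, Lt.ei, Lt.b, Lt.e, Lt.bi, Lt.e, Lt.di] (hole_rel hinv hr (by decide +kernel)) h
  · exact dp_bi_57_s hinv hr hH j u hu h
theorem dp_bi_59_s (hinv : ∀ x, g (inv x) = (g x)⁻¹) (hr : ∀ r ∈ rels, (r.map g).prod = 1) (hH : ∀ r ∈ subs, (r.map g).prod ∈ H)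
    (j u : ℕ) (hu : u < M) (h : dp_bi_59 j u = true) : Good (fa g) T MG M (cP g H) Lt.bi u := by
  unfold dp_bi_59 at h
  rcases brec_true h with h | h
  · exact lF_good (T := T) (x := Lt.bi) (by decide) [Lt.e, Lt.ci, Lt.d, Lt.bi, Lt.fi, Lt.ci, Lt.ei, Lt.b, Lt.e] (hole_rel hinv hr (by decide +kernel)) h
  · exact lF_good (T := T) (x := Lt.bi) (by decide) [Lt.bi, Lt.bi, Lt.c, Lt.f, Lt.bi, Lt.f, Lt.ci, Lt.f] (hole_rel hinv hr (by decide +kernel)) h
theorem dp_bi_60_s (hinv : ∀ x, g (inv x) = (g x)⁻¹) (hr : ∀ r ∈ rels, (r.map g).prod = 1) (hH : ∀ r ∈ subs, (r.map g).prod ∈ H)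
    (j u : ℕ) (hu : u < M) (h : dp_bi_60 j u = true) : Good (fa g) T MG M (cP g H) Lt.bi u := by
  unfold dp_bi_60 at h
  rcases brec_true h with h | h
  · exact lS_good (T := T) (x := Lt.bi) (by decide) hu [Lt.e, Lt.d, Lt.c, Lt.b, Lt.c, Lt.f, Lt.ei, Lt.b, Lt.ei] (hole_rel hinv hr (by decide +kernel)) h
  · exact lS_good (T := T) (x := Lt.bi) (by decide) hu [Lt.fi, Lt.c, Lt.f, Lt.d, Lt.bi, Lt.bi, Lt.c, Lt.d] (hole_rel hinv hr (by decide +kernel)) h
theorem dp_bi_61_s (hinv : ∀ x, g (inv x) = (g x)⁻¹) (hr : ∀ r ∈ rels, (r.map g).prod = 1) (hH : ∀ r ∈ subs, (r.map g).prod ∈ H)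
    (j u : ℕ) (hu : u < M) (h : dp_bi_61 j u = true) : Good (fa g) T MG M (cP g H) Lt.bi u := by
  unfold dp_bi_61 at h
  rcases brec_true h with h | h
  · exact dp_bi_59_s hinv hr hH j u hu h
  · exact dp_bi_60_s hinv hr hH j u hu h
theorem dp_bi_62_s (hinv : ∀ x, g (inv x) = (g x)⁻¹) (hr : ∀ r ∈ rels, (r.map g).prod = 1) (hH : ∀ r ∈ subs, (r.map g).prod ∈ H)
    (j u : ℕ) (hu : u < M) (h : dp_bi_62 j u = true) : Good (fa g) T MG M (cP g H) Lt.bi u := by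
  unfold dp_bi_62 at h
  rcases brec_true h with h | h
  · exact lF_good (T := T) (x := Lt.bi) (by decide) [Lt.c, Lt.f, Lt.bi, Lt.f, Lt.ci, Lt.f, Lt.bi, Lt.bi] (hole_rel hinv hr (by decide +kernel)) h
  · exact lF_good (T := T) (x := Lt.bi) (by decide) [Lt.ei, Lt.b, Lt.e, Lt.bi, Lt.e, Lt.di, Lt.bi, Lt.c, Lt.f] (hole_rel hinv hr (by decide +kernel)) h
theorem dp_bi_63_s (hinv : ∀ x, g (inv x) = (g x)⁻¹) (hr : ∀ r ∈ rels, (r.map g).prod = 1) (hH : ∀ r ∈ subs, (r.map g).prod ∈ H)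
    (j u : ℕ) (hu : u < M) (h : dp_bi_63 j u = true) : Good (fa g) T MG M (cP g H) Lt.bi u := by
  unfold dp_bi_63 at h
  rcases brec_true h with h | h
  · exact lF_good (T := T) (x := Lt.bi) (by decide) [Lt.e, Lt.c, Lt.f, Lt.b, Lt.di, Lt.c, Lt.ei, Lt.b, Lt.ei] (hole_rel hinv hr (by decide +kernel)) h
  · exact dp_bi_62_s hinv hr hH j u hu h
theorem dp_bi_64_s (hinv : ∀ x, g (inv x) = (g x)⁻¹) (hr : ∀ r ∈ rels, (r.map g).prod = 1) (hH : ∀ r ∈ subs, (r.map g).prod ∈ H)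
    (j u : ℕ) (hu : u < M) (h : dp_bi_64 j u = true) : Good (fa g) T MG M (cP g H) Lt.bi u := by
  unfold dp_bi_64 at h
  rcases brec_true h with h | h
  · exact lF_good (T := T) (x := Lt.bi) (by decide) [Lt.f, Lt.ci, Lt.f, Lt.bi, Lt.bi, Lt.bi, Lt.c, Lt.f] (hole_rel hinv hr (by decide +kernel)) h
  · exact lS_good (T := T) (x := Lt.bi) (by decide) hu [Lt.ei, Lt.b, Lt.e, Lt.bi, Lt.e, Lt.di, Lt.bi, Lt.c, Lt.f] (hole_rel hinv hr (by decide +kernel)) h
theorem dp_bi_65_s (hinv : ∀ x, g (inv x) = (g x)⁻¹) (hr : ∀ r ∈ rels, (r.map g).prod = 1) (hH : ∀ r ∈ subs, (r.map g).prod ∈ H)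
    (j u : ℕ) (hu : u < M) (h : dp_bi_65 j u = true) : Good (fa g) T MG M (cP g H) Lt.bi u := by
  unfold dp_bi_65 at h
  rcases brec_true h with h | h
  · exact lF_good (T := T) (x := Lt.bi) (by decide) [Lt.e, Lt.d, Lt.c, Lt.b, Lt.c, Lt.f, Lt.ei, Lt.b, Lt.ei] (hole_rel hinv hr (by decide +kernel)) h
  · exact lF_good (T := T) (x := Lt.bi) (by decide) [Lt.bi, Lt.c, Lt.f, Lt.bi, Lt.f, Lt.ci, Lt.f, Lt.bi] (hole_rel hinv hr (by decide +kernel)) h
theorem dp_bi_66_s (hinv : ∀ x, g (inv x) = (g x)⁻¹) (hr : ∀ r ∈ rels, (r.map g).prod = 1) (hH : ∀ r ∈ subs, (r.map g).prod ∈ H)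
    (j u : ℕ) (hu : u < M) (h : dp_bi_66 j u = true) : Good (fa g) T MG M (cP g H) Lt.bi u := by
  unfold dp_bi_66 at h
  rcases brec_true h with h | h
  · exact lF_good (T := T) (x := Lt.bi) (by decide) [Lt.bi, Lt.c, Lt.fi, Lt.ci, Lt.b, Lt.c, Lt.f, Lt.ci, Lt.bi] (hole_rel hinv hr (by decide +kernel)) h
  · exact dp_bi_65_s hinv hr hH j u hu h
theorem dp_bi_67_s (hinv : ∀ x, g (inv x) = (g x)⁻¹) (hr : ∀ r ∈ rels, (r.map g).prod = 1) (hH : ∀ r ∈ subs, (r.map g).prod ∈ H)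
    (j u : ℕ) (hu : u < M) (h : dp_bi_67 j u = true) : Good (fa g) T MG M (cP g H) Lt.bi u := by
  unfold dp_bi_67 at h
  rcases brec_true h with h | h
  · exact dp_bi_64_s hinv hr hH j u hu h
  · exact dp_bi_66_s hinv hr hH j u hu h
theorem dp_bi_68_s (hinv : ∀ x, g (inv x) = (g x)⁻¹) (hr : ∀ r ∈ rels, (r.map g).prod = 1) (hH : ∀ r ∈ subs, (r.map g).prod ∈ H)
    (j u : ℕ) (hu : u < M) (h : dp_bi_68 j u = true) : Good (fa g) T MG M (cP g H) Lt.bi u := by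
  unfold dp_bi_68 at h
  rcases brec_true h with h | h
  · exact dp_bi_63_s hinv hr hH j u hu h
  · exact dp_bi_67_s hinv hr hH j u hu h
theorem dp_bi_69_s (hinv : ∀ x, g (inv x) = (g x)⁻¹) (hr : ∀ r ∈ rels, (r.map g).prod = 1) (hH : ∀ r ∈ subs, (r.map g).prod ∈ H)
    (j u : ℕ) (hu : u < M) (h : dp_bi_69 j u = true) : Good (fa g) T MG M (cP g H) Lt.bi u := by
  unfold dp_bi_69 at h
  rcases brec_true h with h | h
  · exact dp_bi_61_s hinv hr hH j u hu h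
  · exact dp_bi_68_s hinv hr hH j u hu h
theorem dp_bi_70_s (hinv : ∀ x, g (inv x) = (g x)⁻¹) (hr : ∀ r ∈ rels, (r.map g).prod = 1) (hH : ∀ r ∈ subs, (r.map g).prod ∈ H)
    (j u : ℕ) (hu : u < M) (h : dp_bi_70 j u = true) : Good (fa g) T MG M (cP g H) Lt.bi u := by
  unfold dp_bi_70 at h
  rcases brec_true h with h | h
  · exact dp_bi_58_s hinv hr hH j u hu h
  · exact dp_bi_69_s hinv hr hH j u hu h
theorem dp_bi_71_s (hinv : ∀ x, g (inv x) = (g x)⁻¹) (hr : ∀ r ∈ rels, (r.map g).prod = 1) (hH : ∀ r ∈ subs, (r.map g).prod ∈ H)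
    (j u : ℕ) (hu : u < M) (h : dp_bi_71 j u = true) : Good (fa g) T MG M (cP g H) Lt.bi u := by
  unfold dp_bi_71 at h
  rcases brec_true h with h | h
  · exact dp_bi_56_s hinv hr hH j u hu h
  · exact dp_bi_70_s hinv hr hH j u hu h
theorem dp_bi_72_s (hinv : ∀ x, g (inv x) = (g x)⁻¹) (hr : ∀ r ∈ rels, (r.map g).prod = 1) (hH : ∀ r ∈ subs, (r.map g).prod ∈ H)
    (j u : ℕ) (hu : u < M) (h : dp_bi_72 j u = true) : Good (fa g) T MG M (cP g H) Lt.bi u := by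
  unfold dp_bi_72 at h
  rcases brec_true h with h | h
  · exact dp_bi_52_s hinv hr hH j u hu h
  · exact dp_bi_71_s hinv hr hH j u hu h
theorem dp_bi_73_s (hinv : ∀ x, g (inv x) = (g x)⁻¹) (hr : ∀ r ∈ rels, (r.map g).prod = 1) (hH : ∀ r ∈ subs, (r.map g).prod ∈ H)
    (j u : ℕ) (hu : u < M) (h : dp_bi_73 j u = true) : Good (fa g) T MG M (cP g H) Lt.bi u := by
  unfold dp_bi_73 at h
  rcases brec_true h with h | h
  · exact dp_bi_46_s hinv hr hH j u hu h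
  · exact dp_bi_72_s hinv hr hH j u hu h
theorem dp_bi_74_s (hinv : ∀ x, g (inv x) = (g x)⁻¹) (hr : ∀ r ∈ rels, (r.map g).prod = 1) (hH : ∀ r ∈ subs, (r.map g).prod ∈ H)
    (j u : ℕ) (hu : u < M) (h : dp_bi_74 j u = true) : Good (fa g) T MG M (cP g H) Lt.bi u := by
  unfold dp_bi_74 at h
  rcases brec_true h with h | h
  · exact dp_bi_37_s hinv hr hH j u hu h
  · exact dp_bi_73_s hinv hr hH j u hu h
theorem dp_bi_75_s (hinv : ∀ x, g (inv x) = (g x)⁻¹) (hr : ∀ r ∈ rels, (r.map g).prod = 1) (hH : ∀ r ∈ subs, (r.map g).prod ∈ H)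
    (j u : ℕ) (hu : u < M) (h : dp_bi_75 j u = true) : Good (fa g) T MG M (cP g H) Lt.bi u := by
  unfold dp_bi_75 at h
  rcases brec_true h with h | h
  · exact dp_bi_21_s hinv hr hH j u hu h
  · exact dp_bi_74_s hinv hr hH j u hu h
theorem snd_bi (hinv : ∀ x, g (inv x) = (g x)⁻¹) (hr : ∀ r ∈ rels, (r.map g).prod = 1) (hH : ∀ r ∈ subs, (r.map g).prod ∈ H)
    (j u : ℕ) (hu : u < M) (h : disp_bi j u = true) : Good (fa g) T MG M (cP g H) Lt.bi u := by
  unfold disp_bi at h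
  rcases brec_true h with h | h
  · rcases brec_true h with h | h
    · exact lF1_good (T := T) (x := Lt.bi) (by decide) .b (hole_rel hinv hr (by decide +kernel)) h
    · exact lPar_good (T := T) (x := Lt.bi) (x' := Lt.b) (by decide) rfl (inv_rel hinv _ _ rfl) h
  · rcases brec_true h with h | h
    · rcases brec_true h with h | h
      · exact lDef_good (T := T) (x := Lt.bi) (by decide) rfl h
      · exact lS_good (T := T) (x := Lt.bi) (by decide) hu [Lt.b] (hole_rel hinv hr (by decide +kernel)) h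
    · exact dp_bi_75_s hinv hr hH j u hu h
theorem snc_bi (hinv : ∀ x, g (inv x) = (g x)⁻¹) (hr : ∀ r ∈ rels, (r.map g).prod = 1) (hH : ∀ r ∈ subs, (r.map g).prod ∈ H)
    (j u : ℕ) (hu : u < M) (h : chk_bi j u = true) : (T Lt.bi u < A ∧ Good (fa g) T MG M (cP g H) Lt.bi u) ∨ (A ≤ T Lt.bi u ∧ MG u < A) := by
  unfold chk_bi at h
  cases hb : Nat.ble A (T_bi u) with
  | true => rw [hb] at h; exact Or.inr ⟨le_of_ble hb, le_of_ble h⟩
  | false => rw [hb] at h; exact Or.inl ⟨lt_of_ble_false hb, snd_bi hinv hr hH j u hu h⟩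
theorem dp_d_0_s (hinv : ∀ x, g (inv x) = (g x)⁻¹) (hr : ∀ r ∈ rels, (r.map g).prod = 1) (hH : ∀ r ∈ subs, (r.map g).prod ∈ H)
    (j u : ℕ) (hu : u < M) (h : dp_d_0 j u = true) : Good (fa g) T MG M (cP g H) Lt.d u := by
  unfold dp_d_0 at h
  rcases brec_true h with h | h
  · exact lF_good (T := T) (x := Lt.d) (by decide) [Lt.b, Lt.f, Lt.bi, Lt.di, Lt.ci, Lt.d, Lt.c] (hole_rel hinv hr (by decide +kernel)) h
  · exact lF_good (T := T) (x := Lt.d) (by decide) [Lt.f, Lt.di, Lt.b, Lt.b, Lt.d, Lt.bi, Lt.bi] (hole_rel hinv hr (by decide +kernel)) h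
theorem dp_d_1_s (hinv : ∀ x, g (inv x) = (g x)⁻¹) (hr : ∀ r ∈ rels, (r.map g).prod = 1) (hH : ∀ r ∈ subs, (r.map g).prod ∈ H)
    (j u : ℕ) (hu : u < M) (h : dp_d_1 j u = true) : Good (fa g) T MG M (cP g H) Lt.d u := by
  unfold dp_d_1 at h
  rcases brec_true h with h | h
  · exact lS_good (T := T) (x := Lt.d) (by decide) hu [Lt.b, Lt.di, Lt.ci, Lt.f, Lt.c, Lt.d, Lt.bi] (hole_rel hinv hr (by decide +kernel)) h
  · exact dp_d_0_s hinv hr hH j u hu h
theorem dp_d_2_s (hinv : ∀ x, g (inv x) = (g x)⁻¹) (hr : ∀ r ∈ rels, (r.map g).prod = 1) (hH : ∀ r ∈ subs, (r.map g).prod ∈ H)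
    (j u : ℕ) (hu : u < M) (h : dp_d_2 j u = true) : Good (fa g) T MG M (cP g H) Lt.d u := by
  unfold dp_d_2 at h
  rcases brec_true h with h | h
  · exact lF_good (T := T) (x := Lt.d) (by decide) [Lt.b, Lt.di, Lt.ci, Lt.f, Lt.c, Lt.d, Lt.bi] (hole_rel hinv hr (by decide +kernel)) h
  · exact lS_good (T := T) (x := Lt.d) (by decide) hu [Lt.b, Lt.f, Lt.bi, Lt.di, Lt.ci, Lt.d, Lt.c] (hole_rel hinv hr (by decide +kernel)) h
theorem dp_d_3_s (hinv : ∀ x, g (inv x) = (g x)⁻¹) (hr : ∀ r ∈ rels, (r.map g).prod = 1) (hH : ∀ r ∈ subs, (r.map g).prod ∈ H)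
    (j u : ℕ) (hu : u < M) (h : dp_d_3 j u = true) : Good (fa g) T MG M (cP g H) Lt.d u := by
  unfold dp_d_3 at h
  rcases brec_true h with h | h
  · exact lS_good (T := T) (x := Lt.d) (by decide) hu [Lt.f, Lt.di, Lt.b, Lt.b, Lt.d, Lt.bi, Lt.bi] (hole_rel hinv hr (by decide +kernel)) h
  · exact lS_good (T := T) (x := Lt.d) (by decide) hu [Lt.ci, Lt.di, Lt.fi, Lt.c, Lt.f, Lt.ci, Lt.f] (hole_rel hinv hr (by decide +kernel)) h
theorem dp_d_4_s (hinv : ∀ x, g (inv x) = (g x)⁻¹) (hr : ∀ r ∈ rels, (r.map g).prod = 1) (hH : ∀ r ∈ subs, (r.map g).prod ∈ H)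
    (j u : ℕ) (hu : u < M) (h : dp_d_4 j u = true) : Good (fa g) T MG M (cP g H) Lt.d u := by
  unfold dp_d_4 at h
  rcases brec_true h with h | h
  · exact dp_d_2_s hinv hr hH j u hu h
  · exact dp_d_3_s hinv hr hH j u hu h
theorem dp_d_5_s (hinv : ∀ x, g (inv x) = (g x)⁻¹) (hr : ∀ r ∈ rels, (r.map g).prod = 1) (hH : ∀ r ∈ subs, (r.map g).prod ∈ H)
    (j u : ℕ) (hu : u < M) (h : dp_d_5 j u = true) : Good (fa g) T MG M (cP g H) Lt.d u := by
  unfold dp_d_5 at h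
  rcases brec_true h with h | h
  · exact dp_d_1_s hinv hr hH j u hu h
  · exact dp_d_4_s hinv hr hH j u hu h
theorem dp_d_6_s (hinv : ∀ x, g (inv x) = (g x)⁻¹) (hr : ∀ r ∈ rels, (r.map g).prod = 1) (hH : ∀ r ∈ subs, (r.map g).prod ∈ H)
    (j u : ℕ) (hu : u < M) (h : dp_d_6 j u = true) : Good (fa g) T MG M (cP g H) Lt.d u := by
  unfold dp_d_6 at h
  rcases brec_true h with h | h
  · exact lF_good (T := T) (x := Lt.d) (by decide) [Lt.fi, Lt.di, Lt.b, Lt.b, Lt.di, Lt.bi, Lt.bi] (hole_rel hinv hr (by decide +kernel)) h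
  · exact lS_good (T := T) (x := Lt.d) (by decide) hu [Lt.fi, Lt.c, Lt.b, Lt.b, Lt.f, Lt.di, Lt.b] (hole_rel hinv hr (by decide +kernel)) h
theorem dp_d_7_s (hinv : ∀ x, g (inv x) = (g x)⁻¹) (hr : ∀ r ∈ rels, (r.map g).prod = 1) (hH : ∀ r ∈ subs, (r.map g).prod ∈ H)
    (j u : ℕ) (hu : u < M) (h : dp_d_7 j u = true) : Good (fa g) T MG M (cP g H) Lt.d u := by
  unfold dp_d_7 at h
  rcases brec_true h with h | h
  · exact lF_good (T := T) (x := Lt.d) (by decide) [Lt.ci, Lt.di, Lt.fi, Lt.c, Lt.f, Lt.ci, Lt.f] (hole_rel hinv hr (by decide +kernel)) h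
  · exact lS_good (T := T) (x := Lt.d) (by decide) hu [Lt.c, Lt.di, Lt.c, Lt.d, Lt.ci, Lt.di, Lt.fi] (hole_rel hinv hr (by decide +kernel)) h
theorem dp_d_8_s (hinv : ∀ x, g (inv x) = (g x)⁻¹) (hr : ∀ r ∈ rels, (r.map g).prod = 1) (hH : ∀ r ∈ subs, (r.map g).prod ∈ H)
    (j u : ℕ) (hu : u < M) (h : dp_d_8 j u = true) : Good (fa g) T MG M (cP g H) Lt.d u := by
  unfold dp_d_8 at h
  rcases brec_true h with h | h
  · exact lF_good (T := T) (x := Lt.d) (by decide) [Lt.fi, Lt.c, Lt.b, Lt.b, Lt.f, Lt.di, Lt.b] (hole_rel hinv hr (by decide +kernel)) h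
  · exact dp_d_7_s hinv hr hH j u hu h
theorem dp_d_9_s (hinv : ∀ x, g (inv x) = (g x)⁻¹) (hr : ∀ r ∈ rels, (r.map g).prod = 1) (hH : ∀ r ∈ subs, (r.map g).prod ∈ H)
    (j u : ℕ) (hu : u < M) (h : dp_d_9 j u = true) : Good (fa g) T MG M (cP g H) Lt.d u := by
  unfold dp_d_9 at h
  rcases brec_true h with h | h
  · exact dp_d_6_s hinv hr hH j u hu h
  · exact dp_d_8_s hinv hr hH j u hu h
theorem dp_d_10_s (hinv : ∀ x, g (inv x) = (g x)⁻¹) (hr : ∀ r ∈ rels, (r.map g).prod = 1) (hH : ∀ r ∈ subs, (r.map g).prod ∈ H)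
    (j u : ℕ) (hu : u < M) (h : dp_d_10 j u = true) : Good (fa g) T MG M (cP g H) Lt.d u := by
  unfold dp_d_10 at h
  rcases brec_true h with h | h
  · exact lF_good (T := T) (x := Lt.d) (by decide) [Lt.ci, Lt.b, Lt.fi, Lt.b, Lt.b, Lt.di, Lt.c] (hole_rel hinv hr (by decide +kernel)) h
  · exact lS_good (T := T) (x := Lt.d) (by decide) hu [Lt.bi, Lt.bi, Lt.f, Lt.bi, Lt.c, Lt.di, Lt.ci] (hole_rel hinv hr (by decide +kernel)) h
theorem dp_d_11_s (hinv : ∀ x, g (inv x) = (g x)⁻¹) (hr : ∀ r ∈ rels, (r.map g).prod = 1) (hH : ∀ r ∈ subs, (r.map g).prod ∈ H)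
    (j u : ℕ) (hu : u < M) (h : dp_d_11 j u = true) : Good (fa g) T MG M (cP g H) Lt.d u := by
  unfold dp_d_11 at h
  rcases brec_true h with h | h
  · exact lF_good (T := T) (x := Lt.d) (by decide) [Lt.c, Lt.bi, Lt.ci, Lt.f, Lt.bi, Lt.bi, Lt.f] (hole_rel hinv hr (by decide +kernel)) h
  · exact lF_good (T := T) (x := Lt.d) (by decide) [Lt.ci, Lt.di, Lt.f, Lt.d, Lt.c, Lt.di, Lt.ci] (hole_rel hinv hr (by decide +kernel)) h
theorem dp_d_12_s (hinv : ∀ x, g (inv x) = (g x)⁻¹) (hr : ∀ r ∈ rels, (r.map g).prod = 1) (hH : ∀ r ∈ subs, (r.map g).prod ∈ H)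
    (j u : ℕ) (hu : u < M) (h : dp_d_12 j u = true) : Good (fa g) T MG M (cP g H) Lt.d u := by
  unfold dp_d_12 at h
  rcases brec_true h with h | h
  · exact lS_good (T := T) (x := Lt.d) (by decide) hu [Lt.c, Lt.bi, Lt.ci, Lt.f, Lt.bi, Lt.bi, Lt.f] (hole_rel hinv hr (by decide +kernel)) h
  · exact dp_d_11_s hinv hr hH j u hu h
theorem dp_d_13_s (hinv : ∀ x, g (inv x) = (g x)⁻¹) (hr : ∀ r ∈ rels, (r.map g).prod = 1) (hH : ∀ r ∈ subs, (r.map g).prod ∈ H)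
    (j u : ℕ) (hu : u < M) (h : dp_d_13 j u = true) : Good (fa g) T MG M (cP g H) Lt.d u := by
  unfold dp_d_13 at h
  rcases brec_true h with h | h
  · exact dp_d_10_s hinv hr hH j u hu h
  · exact dp_d_12_s hinv hr hH j u hu h
theorem dp_d_14_s (hinv : ∀ x, g (inv x) = (g x)⁻¹) (hr : ∀ r ∈ rels, (r.map g).prod = 1) (hH : ∀ r ∈ subs, (r.map g).prod ∈ H)
    (j u : ℕ) (hu : u < M) (h : dp_d_14 j u = true) : Good (fa g) T MG M (cP g H) Lt.d u := by
  unfold dp_d_14 at h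
  rcases brec_true h with h | h
  · exact dp_d_9_s hinv hr hH j u hu h
  · exact dp_d_13_s hinv hr hH j u hu h
theorem dp_d_15_s (hinv : ∀ x, g (inv x) = (g x)⁻¹) (hr : ∀ r ∈ rels, (r.map g).prod = 1) (hH : ∀ r ∈ subs, (r.map g).prod ∈ H)
    (j u : ℕ) (hu : u < M) (h : dp_d_15 j u = true) : Good (fa g) T MG M (cP g H) Lt.d u := by
  unfold dp_d_15 at h
  rcases brec_true h with h | h
  · exact dp_d_5_s hinv hr hH j u hu h
  · exact dp_d_14_s hinv hr hH j u hu h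
theorem dp_d_16_s (hinv : ∀ x, g (inv x) = (g x)⁻¹) (hr : ∀ r ∈ rels, (r.map g).prod = 1) (hH : ∀ r ∈ subs, (r.map g).prod ∈ H)
    (j u : ℕ) (hu : u < M) (h : dp_d_16 j u = true) : Good (fa g) T MG M (cP g H) Lt.d u := by
  unfold dp_d_16 at h
  rcases brec_true h with h | h
  · exact lF_good (T := T) (x := Lt.d) (by decide) [Lt.fi, Lt.bi, Lt.bi, Lt.ci, Lt.f, Lt.di, Lt.bi] (hole_rel hinv hr (by decide +kernel)) h
  · exact lS_good (T := T) (x := Lt.d) (by decide) hu [Lt.fi, Lt.bi, Lt.bi, Lt.ci, Lt.f, Lt.di, Lt.bi] (hole_rel hinv hr (by decide +kernel)) h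
theorem dp_d_17_s (hinv : ∀ x, g (inv x) = (g x)⁻¹) (hr : ∀ r ∈ rels, (r.map g).prod = 1) (hH : ∀ r ∈ subs, (r.map g).prod ∈ H)
    (j u : ℕ) (hu : u < M) (h : dp_d_17 j u = true) : Good (fa g) T MG M (cP g H) Lt.d u := by
  unfold dp_d_17 at h
  rcases brec_true h with h | h
  · exact lS_good (T := T) (x := Lt.d) (by decide) hu [Lt.c, Lt.d, Lt.b, Lt.f, Lt.bi, Lt.di, Lt.ci] (hole_rel hinv hr (by decide +kernel)) h
  · exact dp_d_16_s hinv hr hH j u hu h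
theorem dp_d_18_s (hinv : ∀ x, g (inv x) = (g x)⁻¹) (hr : ∀ r ∈ rels, (r.map g).prod = 1) (hH : ∀ r ∈ subs, (r.map g).prod ∈ H)
    (j u : ℕ) (hu : u < M) (h : dp_d_18 j u = true) : Good (fa g) T MG M (cP g H) Lt.d u := by
  unfold dp_d_18 at h
  rcases brec_true h with h | h
  · exact lS_good (T := T) (x := Lt.d) (by decide) hu [Lt.b, Lt.fi, Lt.bi, Lt.di, Lt.ci, Lt.di, Lt.c] (hole_rel hinv hr (by decide +kernel)) h
  · exact lS_good (T := T) (x := Lt.d) (by decide) hu [Lt.fi, Lt.di, Lt.b, Lt.b, Lt.di, Lt.bi, Lt.bi] (hole_rel hinv hr (by decide +kernel)) h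
theorem dp_d_19_s (hinv : ∀ x, g (inv x) = (g x)⁻¹) (hr : ∀ r ∈ rels, (r.map g).prod = 1) (hH : ∀ r ∈ subs, (r.map g).prod ∈ H)
    (j u : ℕ) (hu : u < M) (h : dp_d_19 j u = true) : Good (fa g) T MG M (cP g H) Lt.d u := by
  unfold dp_d_19 at h
  rcases brec_true h with h | h
  · exact lF_good (T := T) (x := Lt.d) (by decide) [Lt.b, Lt.fi, Lt.bi, Lt.di, Lt.ci, Lt.di, Lt.c] (hole_rel hinv hr (by decide +kernel)) h
  · exact dp_d_18_s hinv hr hH j u hu h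
theorem dp_d_20_s (hinv : ∀ x, g (inv x) = (g x)⁻¹) (hr : ∀ r ∈ rels, (r.map g).prod = 1) (hH : ∀ r ∈ subs, (r.map g).prod ∈ H)
    (j u : ℕ) (hu : u < M) (h : dp_d_20 j u = true) : Good (fa g) T MG M (cP g H) Lt.d u := by
  unfold dp_d_20 at h
  rcases brec_true h with h | h
  · exact dp_d_17_s hinv hr hH j u hu h
  · exact dp_d_19_s hinv hr hH j u hu h
theorem dp_d_21_s (hinv : ∀ x, g (inv x) = (g x)⁻¹) (hr : ∀ r ∈ rels, (r.map g).prod = 1) (hH : ∀ r ∈ subs, (r.map g).prod ∈ H)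
    (j u : ℕ) (hu : u < M) (h : dp_d_21 j u = true) : Good (fa g) T MG M (cP g H) Lt.d u := by
  unfold dp_d_21 at h
  rcases brec_true h with h | h
  · exact lF_good (T := T) (x := Lt.d) (by decide) [Lt.c, Lt.d, Lt.b, Lt.f, Lt.bi, Lt.di, Lt.ci] (hole_rel hinv hr (by decide +kernel)) h
  · exact lF_good (T := T) (x := Lt.d) (by decide) [Lt.bi, Lt.bi, Lt.f, Lt.bi, Lt.c, Lt.di, Lt.ci] (hole_rel hinv hr (by decide +kernel)) h
theorem dp_d_22_s (hinv : ∀ x, g (inv x) = (g x)⁻¹) (hr : ∀ r ∈ rels, (r.map g).prod = 1) (hH : ∀ r ∈ subs, (r.map g).prod ∈ H)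
    (j u : ℕ) (hu : u < M) (h : dp_d_22 j u = true) : Good (fa g) T MG M (cP g H) Lt.d u := by
  unfold dp_d_22 at h
  rcases brec_true h with h | h
  · exact lS_good (T := T) (x := Lt.d) (by decide) hu [Lt.bi, Lt.bi, Lt.ci, Lt.bi, Lt.ci, Lt.di, Lt.fi] (hole_rel hinv hr (by decide +kernel)) h
  · exact dp_d_21_s hinv hr hH j u hu h
theorem dp_d_23_s (hinv : ∀ x, g (inv x) = (g x)⁻¹) (hr : ∀ r ∈ rels, (r.map g).prod = 1) (hH : ∀ r ∈ subs, (r.map g).prod ∈ H)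
    (j u : ℕ) (hu : u < M) (h : dp_d_23 j u = true) : Good (fa g) T MG M (cP g H) Lt.d u := by
  unfold dp_d_23 at h
  rcases brec_true h with h | h
  · exact lF_good (T := T) (x := Lt.d) (by decide) [Lt.bi, Lt.di, Lt.b, Lt.di, Lt.ci, Lt.fi, Lt.c] (hole_rel hinv hr (by decide +kernel)) h
  · exact lS_good (T := T) (x := Lt.d) (by decide) hu [Lt.bi, Lt.di, Lt.b, Lt.di, Lt.ci, Lt.fi, Lt.c] (hole_rel hinv hr (by decide +kernel)) h
theorem dp_d_24_s (hinv : ∀ x, g (inv x) = (g x)⁻¹) (hr : ∀ r ∈ rels, (r.map g).prod = 1) (hH : ∀ r ∈ subs, (r.map g).prod ∈ H)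
    (j u : ℕ) (hu : u < M) (h : dp_d_24 j u = true) : Good (fa g) T MG M (cP g H) Lt.d u := by
  unfold dp_d_24 at h
  rcases brec_true h with h | h
  · exact lS_good (T := T) (x := Lt.d) (by decide) hu [Lt.ci, Lt.b, Lt.fi, Lt.b, Lt.b, Lt.di, Lt.c] (hole_rel hinv hr (by decide +kernel)) h
  · exact lS_good (T := T) (x := Lt.d) (by decide) hu [Lt.bi, Lt.bi, Lt.d, Lt.f, Lt.di, Lt.b, Lt.b] (hole_rel hinv hr (by decide +kernel)) h
theorem dp_d_25_s (hinv : ∀ x, g (inv x) = (g x)⁻¹) (hr : ∀ r ∈ rels, (r.map g).prod = 1) (hH : ∀ r ∈ subs, (r.map g).prod ∈ H)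
    (j u : ℕ) (hu : u < M) (h : dp_d_25 j u = true) : Good (fa g) T MG M (cP g H) Lt.d u := by
  unfold dp_d_25 at h
  rcases brec_true h with h | h
  · exact dp_d_23_s hinv hr hH j u hu h
  · exact dp_d_24_s hinv hr hH j u hu h
theorem dp_d_26_s (hinv : ∀ x, g (inv x) = (g x)⁻¹) (hr : ∀ r ∈ rels, (r.map g).prod = 1) (hH : ∀ r ∈ subs, (r.map g).prod ∈ H)
    (j u : ℕ) (hu : u < M) (h : dp_d_26 j u = true) : Good (fa g) T MG M (cP g H) Lt.d u := by
  unfold dp_d_26 at h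
  rcases brec_true h with h | h
  · exact dp_d_22_s hinv hr hH j u hu h
  · exact dp_d_25_s hinv hr hH j u hu h
theorem dp_d_27_s (hinv : ∀ x, g (inv x) = (g x)⁻¹) (hr : ∀ r ∈ rels, (r.map g).prod = 1) (hH : ∀ r ∈ subs, (r.map g).prod ∈ H)
    (j u : ℕ) (hu : u < M) (h : dp_d_27 j u = true) : Good (fa g) T MG M (cP g H) Lt.d u := by
  unfold dp_d_27 at h
  rcases brec_true h with h | h
  · exact dp_d_20_s hinv hr hH j u hu h
  · exact dp_d_26_s hinv hr hH j u hu h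
theorem dp_d_28_s (hinv : ∀ x, g (inv x) = (g x)⁻¹) (hr : ∀ r ∈ rels, (r.map g).prod = 1) (hH : ∀ r ∈ subs, (r.map g).prod ∈ H)
    (j u : ℕ) (hu : u < M) (h : dp_d_28 j u = true) : Good (fa g) T MG M (cP g H) Lt.d u := by
  unfold dp_d_28 at h
  rcases brec_true h with h | h
  · exact lF_good (T := T) (x := Lt.d) (by decide) [Lt.c, Lt.b, Lt.c, Lt.b, Lt.b, Lt.di, Lt.f] (hole_rel hinv hr (by decide +kernel)) h
  · exact lF_good (T := T) (x := Lt.d) (by decide) [Lt.bi, Lt.bi, Lt.ci, Lt.bi, Lt.ci, Lt.di, Lt.fi] (hole_rel hinv hr (by decide +kernel)) h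
theorem dp_d_29_s (hinv : ∀ x, g (inv x) = (g x)⁻¹) (hr : ∀ r ∈ rels, (r.map g).prod = 1) (hH : ∀ r ∈ subs, (r.map g).prod ∈ H)
    (j u : ℕ) (hu : u < M) (h : dp_d_29 j u = true) : Good (fa g) T MG M (cP g H) Lt.d u := by
  unfold dp_d_29 at h
  rcases brec_true h with h | h
  · exact lS_good (T := T) (x := Lt.d) (by decide) hu [Lt.ci, Lt.di, Lt.ci, Lt.fi, Lt.c, Lt.f, Lt.c] (hole_rel hinv hr (by decide +kernel)) h
  · exact lS_good (T := T) (x := Lt.d) (by decide) hu [Lt.ci, Lt.di, Lt.f, Lt.d, Lt.c, Lt.di, Lt.ci] (hole_rel hinv hr (by decide +kernel)) h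
theorem dp_d_30_s (hinv : ∀ x, g (inv x) = (g x)⁻¹) (hr : ∀ r ∈ rels, (r.map g).prod = 1) (hH : ∀ r ∈ subs, (r.map g).prod ∈ H)
    (j u : ℕ) (hu : u < M) (h : dp_d_30 j u = true) : Good (fa g) T MG M (cP g H) Lt.d u := by
  unfold dp_d_30 at h
  rcases brec_true h with h | h
  · exact dp_d_28_s hinv hr hH j u hu h
  · exact dp_d_29_s hinv hr hH j u hu h
theorem dp_d_31_s (hinv : ∀ x, g (inv x) = (g x)⁻¹) (hr : ∀ r ∈ rels, (r.map g).prod = 1) (hH : ∀ r ∈ subs, (r.map g).prod ∈ H)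
    (j u : ℕ) (hu : u < M) (h : dp_d_31 j u = true) : Good (fa g) T MG M (cP g H) Lt.d u := by
  unfold dp_d_31 at h
  rcases brec_true h with h | h
  · exact lF_good (T := T) (x := Lt.d) (by decide) [Lt.bi, Lt.d, Lt.b, Lt.di, Lt.ci, Lt.f, Lt.c] (hole_rel hinv hr (by decide +kernel)) h
  · exact lF_good (T := T) (x := Lt.d) (by decide) [Lt.ci, Lt.di, Lt.ci, Lt.fi, Lt.c, Lt.f, Lt.c] (hole_rel hinv hr (by decide +kernel)) h
theorem dp_d_32_s (hinv : ∀ x, g (inv x) = (g x)⁻¹) (hr : ∀ r ∈ rels, (r.map g).prod = 1) (hH : ∀ r ∈ subs, (r.map g).prod ∈ H)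
    (j u : ℕ) (hu : u < M) (h : dp_d_32 j u = true) : Good (fa g) T MG M (cP g H) Lt.d u := by
  unfold dp_d_32 at h
  rcases brec_true h with h | h
  · exact lF_good (T := T) (x := Lt.d) (by decide) [Lt.bi, Lt.bi, Lt.d, Lt.f, Lt.di, Lt.b, Lt.b] (hole_rel hinv hr (by decide +kernel)) h
  · exact lS_good (T := T) (x := Lt.d) (by decide) hu [Lt.c, Lt.b, Lt.c, Lt.b, Lt.b, Lt.di, Lt.f] (hole_rel hinv hr (by decide +kernel)) h
theorem dp_d_33_s (hinv : ∀ x, g (inv x) = (g x)⁻¹) (hr : ∀ r ∈ rels, (r.map g).prod = 1) (hH : ∀ r ∈ subs, (r.map g).prod ∈ H)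
    (j u : ℕ) (hu : u < M) (h : dp_d_33 j u = true) : Good (fa g) T MG M (cP g H) Lt.d u := by
  unfold dp_d_33 at h
  rcases brec_true h with h | h
  · exact dp_d_31_s hinv hr hH j u hu h
  · exact dp_d_32_s hinv hr hH j u hu h
theorem dp_d_34_s (hinv : ∀ x, g (inv x) = (g x)⁻¹) (hr : ∀ r ∈ rels, (r.map g).prod = 1) (hH : ∀ r ∈ subs, (r.map g).prod ∈ H)
    (j u : ℕ) (hu : u < M) (h : dp_d_34 j u = true) : Good (fa g) T MG M (cP g H) Lt.d u := by
  unfold dp_d_34 at h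
  rcases brec_true h with h | h
  · exact dp_d_30_s hinv hr hH j u hu h
  · exact dp_d_33_s hinv hr hH j u hu h
theorem dp_d_35_s (hinv : ∀ x, g (inv x) = (g x)⁻¹) (hr : ∀ r ∈ rels, (r.map g).prod = 1) (hH : ∀ r ∈ subs, (r.map g).prod ∈ H)
    (j u : ℕ) (hu : u < M) (h : dp_d_35 j u = true) : Good (fa g) T MG M (cP g H) Lt.d u := by
  unfold dp_d_35 at h
  rcases brec_true h with h | h
  · exact lF_good (T := T) (x := Lt.d) (by decide) [Lt.c, Lt.di, Lt.c, Lt.d, Lt.ci, Lt.di, Lt.fi] (hole_rel hinv hr (by decide +kernel)) h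
  · exact lS_good (T := T) (x := Lt.d) (by decide) hu [Lt.c, Lt.di, Lt.ci, Lt.fi, Lt.ci, Lt.f, Lt.c] (hole_rel hinv hr (by decide +kernel)) h
theorem dp_d_36_s (hinv : ∀ x, g (inv x) = (g x)⁻¹) (hr : ∀ r ∈ rels, (r.map g).prod = 1) (hH : ∀ r ∈ subs, (r.map g).prod ∈ H)
    (j u : ℕ) (hu : u < M) (h : dp_d_36 j u = true) : Good (fa g) T MG M (cP g H) Lt.d u := by
  unfold dp_d_36 at h
  rcases brec_true h with h | h
  · exact lF_good (T := T) (x := Lt.d) (by decide) [Lt.c, Lt.di, Lt.ci, Lt.fi, Lt.ci, Lt.f, Lt.c] (hole_rel hinv hr (by decide +kernel)) h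
  · exact lF_good (T := T) (x := Lt.d) (by decide) [Lt.ci, Lt.di, Lt.fi, Lt.d, Lt.c, Lt.di, Lt.c] (hole_rel hinv hr (by decide +kernel)) h
theorem dp_d_37_s (hinv : ∀ x, g (inv x) = (g x)⁻¹) (hr : ∀ r ∈ rels, (r.map g).prod = 1) (hH : ∀ r ∈ subs, (r.map g).prod ∈ H)
    (j u : ℕ) (hu : u < M) (h : dp_d_37 j u = true) : Good (fa g) T MG M (cP g H) Lt.d u := by
  unfold dp_d_37 at h
  rcases brec_true h with h | h
  · exact lS_good (T := T) (x := Lt.d) (by decide) hu [Lt.c, Lt.di, Lt.fi, Lt.c, Lt.fi, Lt.ci, Lt.f] (hole_rel hinv hr (by decide +kernel)) h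
  · exact dp_d_36_s hinv hr hH j u hu h
theorem dp_d_38_s (hinv : ∀ x, g (inv x) = (g x)⁻¹) (hr : ∀ r ∈ rels, (r.map g).prod = 1) (hH : ∀ r ∈ subs, (r.map g).prod ∈ H)
    (j u : ℕ) (hu : u < M) (h : dp_d_38 j u = true) : Good (fa g) T MG M (cP g H) Lt.d u := by
  unfold dp_d_38 at h
  rcases brec_true h with h | h
  · exact dp_d_35_s hinv hr hH j u hu h
  · exact dp_d_37_s hinv hr hH j u hu h
theorem dp_d_39_s (hinv : ∀ x, g (inv x) = (g x)⁻¹) (hr : ∀ r ∈ rels, (r.map g).prod = 1) (hH : ∀ r ∈ subs, (r.map g).prod ∈ H)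
    (j u : ℕ) (hu : u < M) (h : dp_d_39 j u = true) : Good (fa g) T MG M (cP g H) Lt.d u := by
  unfold dp_d_39 at h
  rcases brec_true h with h | h
  · exact lF_good (T := T) (x := Lt.d) (by decide) [Lt.c, Lt.di, Lt.fi, Lt.c, Lt.fi, Lt.ci, Lt.f] (hole_rel hinv hr (by decide +kernel)) h
  · exact lF_good (T := T) (x := Lt.d) (by decide) [Lt.c, Lt.di, Lt.ci, Lt.d, Lt.ci, Lt.di, Lt.f] (hole_rel hinv hr (by decide +kernel)) h
theorem dp_d_40_s (hinv : ∀ x, g (inv x) = (g x)⁻¹) (hr : ∀ r ∈ rels, (r.map g).prod = 1) (hH : ∀ r ∈ subs, (r.map g).prod ∈ H)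
    (j u : ℕ) (hu : u < M) (h : dp_d_40 j u = true) : Good (fa g) T MG M (cP g H) Lt.d u := by
  unfold dp_d_40 at h
  rcases brec_true h with h | h
  · exact lS_good (T := T) (x := Lt.d) (by decide) hu [Lt.bi, Lt.d, Lt.b, Lt.di, Lt.ci, Lt.f, Lt.c] (hole_rel hinv hr (by decide +kernel)) h
  · exact dp_d_39_s hinv hr hH j u hu h
theorem dp_d_41_s (hinv : ∀ x, g (inv x) = (g x)⁻¹) (hr : ∀ r ∈ rels, (r.map g).prod = 1) (hH : ∀ r ∈ subs, (r.map g).prod ∈ H)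
    (j u : ℕ) (hu : u < M) (h : dp_d_41 j u = true) : Good (fa g) T MG M (cP g H) Lt.d u := by
  unfold dp_d_41 at h
  rcases brec_true h with h | h
  · exact lS_good (T := T) (x := Lt.d) (by decide) hu [Lt.ei, Lt.b, Lt.ei, Lt.bi, Lt.e, Lt.b, Lt.fi, Lt.ci, Lt.b] (hole_rel hinv hr (by decide +kernel)) h
  · exact lS_good (T := T) (x := Lt.d) (by decide) hu [Lt.ci, Lt.di, Lt.fi, Lt.d, Lt.c, Lt.di, Lt.c] (hole_rel hinv hr (by decide +kernel)) h
theorem dp_d_42_s (hinv : ∀ x, g (inv x) = (g x)⁻¹) (hr : ∀ r ∈ rels, (r.map g).prod = 1) (hH : ∀ r ∈ subs, (r.map g).prod ∈ H)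
    (j u : ℕ) (hu : u < M) (h : dp_d_42 j u = true) : Good (fa g) T MG M (cP g H) Lt.d u := by
  unfold dp_d_42 at h
  rcases brec_true h with h | h
  · exact lF_good (T := T) (x := Lt.d) (by decide) [Lt.ei, Lt.b, Lt.ei, Lt.bi, Lt.e, Lt.b, Lt.fi, Lt.ci, Lt.b] (hole_rel hinv hr (by decide +kernel)) h
  · exact lS_good (T := T) (x := Lt.d) (by decide) hu [Lt.c, Lt.di, Lt.ci, Lt.d, Lt.ci, Lt.di, Lt.f] (hole_rel hinv hr (by decide +kernel)) h
theorem dp_d_43_s (hinv : ∀ x, g (inv x) = (g x)⁻¹) (hr : ∀ r ∈ rels, (r.map g).prod = 1) (hH : ∀ r ∈ subs, (r.map g).prod ∈ H)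
    (j u : ℕ) (hu : u < M) (h : dp_d_43 j u = true) : Good (fa g) T MG M (cP g H) Lt.d u := by
  unfold dp_d_43 at h
  rcases brec_true h with h | h
  · exact lS_good (T := T) (x := Lt.d) (by decide) hu [Lt.bi, Lt.bi, Lt.c, Lt.d, Lt.bi, Lt.fi, Lt.c, Lt.f] (hole_rel hinv hr (by decide +kernel)) h
  · exact lF_good (T := T) (x := Lt.d) (by decide) [Lt.f, Lt.c, Lt.d, Lt.f, Lt.c, Lt.d, Lt.f, Lt.c] (hole_rel hinv hr (by decide +kernel)) h
theorem dp_d_44_s (hinv : ∀ x, g (inv x) = (g x)⁻¹) (hr : ∀ r ∈ rels, (r.map g).prod = 1) (hH : ∀ r ∈ subs, (r.map g).prod ∈ H)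
    (j u : ℕ) (hu : u < M) (h : dp_d_44 j u = true) : Good (fa g) T MG M (cP g H) Lt.d u := by
  unfold dp_d_44 at h
  rcases brec_true h with h | h
  · exact lF_good (T := T) (x := Lt.d) (by decide) [Lt.bi, Lt.fi, Lt.ci, Lt.ei, Lt.b, Lt.e, Lt.bi, Lt.e, Lt.ci] (hole_rel hinv hr (by decide +kernel)) h
  · exact dp_d_43_s hinv hr hH j u hu h
theorem dp_d_45_s (hinv : ∀ x, g (inv x) = (g x)⁻¹) (hr : ∀ r ∈ rels, (r.map g).prod = 1) (hH : ∀ r ∈ subs, (r.map g).prod ∈ H)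
    (j u : ℕ) (hu : u < M) (h : dp_d_45 j u = true) : Good (fa g) T MG M (cP g H) Lt.d u := by
  unfold dp_d_45 at h
  rcases brec_true h with h | h
  · exact lH_good (T := T) (x := Lt.d) (by decide) [] [] (by rw [show cP g H 0 = _ from cc_zero]; exact sub_rel hinv (hH _ (by decide))) h
  · exact lS_good (T := T) (x := Lt.d) (by decide) hu [Lt.f, Lt.c, Lt.d, Lt.f, Lt.c, Lt.d, Lt.f, Lt.c] (hole_rel hinv hr (by decide +kernel)) h
theorem dp_d_46_s (hinv : ∀ x, g (inv x) = (g x)⁻¹) (hr : ∀ r ∈ rels, (r.map g).prod = 1) (hH : ∀ r ∈ subs, (r.map g).prod ∈ H)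
    (j u : ℕ) (hu : u < M) (h : dp_d_46 j u = true) : Good (fa g) T MG M (cP g H) Lt.d u := by
  unfold dp_d_46 at h
  rcases brec_true h with h | h
  · exact lS_good (T := T) (x := Lt.d) (by decide) hu [Lt.c, Lt.b, Lt.c, Lt.f, Lt.ei, Lt.b, Lt.ei, Lt.bi, Lt.e] (hole_rel hinv hr (by decide +kernel)) h
  · exact dp_d_45_s hinv hr hH j u hu h
theorem dp_d_47_s (hinv : ∀ x, g (inv x) = (g x)⁻¹) (hr : ∀ r ∈ rels, (r.map g).prod = 1) (hH : ∀ r ∈ subs, (r.map g).prod ∈ H)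
    (j u : ℕ) (hu : u < M) (h : dp_d_47 j u = true) : Good (fa g) T MG M (cP g H) Lt.d u := by
  unfold dp_d_47 at h
  rcases brec_true h with h | h
  · exact lF_good (T := T) (x := Lt.d) (by decide) [Lt.c, Lt.b, Lt.c, Lt.f, Lt.ei, Lt.b, Lt.ei, Lt.bi, Lt.e] (hole_rel hinv hr (by decide +kernel)) h
  · exact dp_d_46_s hinv hr hH j u hu h
theorem dp_d_48_s (hinv : ∀ x, g (inv x) = (g x)⁻¹) (hr : ∀ r ∈ rels, (r.map g).prod = 1) (hH : ∀ r ∈ subs, (r.map g).prod ∈ H)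
    (j u : ℕ) (hu : u < M) (h : dp_d_48 j u = true) : Good (fa g) T MG M (cP g H) Lt.d u := by
  unfold dp_d_48 at h
  rcases brec_true h with h | h
  · exact dp_d_44_s hinv hr hH j u hu h
  · exact dp_d_47_s hinv hr hH j u hu h
theorem dp_d_49_s (hinv : ∀ x, g (inv x) = (g x)⁻¹) (hr : ∀ r ∈ rels, (r.map g).prod = 1) (hH : ∀ r ∈ subs, (r.map g).prod ∈ H)
    (j u : ℕ) (hu : u < M) (h : dp_d_49 j u = true) : Good (fa g) T MG M (cP g H) Lt.d u := by
  unfold dp_d_49 at h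
  rcases brec_true h with h | h
  · exact dp_d_42_s hinv hr hH j u hu h
  · exact dp_d_48_s hinv hr hH j u hu h
theorem dp_d_50_s (hinv : ∀ x, g (inv x) = (g x)⁻¹) (hr : ∀ r ∈ rels, (r.map g).prod = 1) (hH : ∀ r ∈ subs, (r.map g).prod ∈ H)
    (j u : ℕ) (hu : u < M) (h : dp_d_50 j u = true) : Good (fa g) T MG M (cP g H) Lt.d u := by
  unfold dp_d_50 at h
  rcases brec_true h with h | h
  · exact dp_d_41_s hinv hr hH j u hu h
  · exact dp_d_49_s hinv hr hH j u hu h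
theorem dp_d_51_s (hinv : ∀ x, g (inv x) = (g x)⁻¹) (hr : ∀ r ∈ rels, (r.map g).prod = 1) (hH : ∀ r ∈ subs, (r.map g).prod ∈ H)
    (j u : ℕ) (hu : u < M) (h : dp_d_51 j u = true) : Good (fa g) T MG M (cP g H) Lt.d u := by
  unfold dp_d_51 at h
  rcases brec_true h with h | h
  · exact dp_d_40_s hinv hr hH j u hu h
  · exact dp_d_50_s hinv hr hH j u hu h
theorem dp_d_52_s (hinv : ∀ x, g (inv x) = (g x)⁻¹) (hr : ∀ r ∈ rels, (r.map g).prod = 1) (hH : ∀ r ∈ subs, (r.map g).prod ∈ H)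
    (j u : ℕ) (hu : u < M) (h : dp_d_52 j u = true) : Good (fa g) T MG M (cP g H) Lt.d u := by
  unfold dp_d_52 at h
  rcases brec_true h with h | h
  · exact dp_d_38_s hinv hr hH j u hu h
  · exact dp_d_51_s hinv hr hH j u hu h
theorem dp_d_53_s (hinv : ∀ x, g (inv x) = (g x)⁻¹) (hr : ∀ r ∈ rels, (r.map g).prod = 1) (hH : ∀ r ∈ subs, (r.map g).prod ∈ H)
    (j u : ℕ) (hu : u < M) (h : dp_d_53 j u = true) : Good (fa g) T MG M (cP g H) Lt.d u := by
  unfold dp_d_53 at h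
  rcases brec_true h with h | h
  · exact dp_d_34_s hinv hr hH j u hu h
  · exact dp_d_52_s hinv hr hH j u hu h
theorem dp_d_54_s (hinv : ∀ x, g (inv x) = (g x)⁻¹) (hr : ∀ r ∈ rels, (r.map g).prod = 1) (hH : ∀ r ∈ subs, (r.map g).prod ∈ H)
    (j u : ℕ) (hu : u < M) (h : dp_d_54 j u = true) : Good (fa g) T MG M (cP g H) Lt.d u := by
  unfold dp_d_54 at h
  rcases brec_true h with h | h
  · exact dp_d_27_s hinv hr hH j u hu h
  · exact dp_d_53_s hinv hr hH j u hu h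
theorem dp_d_55_s (hinv : ∀ x, g (inv x) = (g x)⁻¹) (hr : ∀ r ∈ rels, (r.map g).prod = 1) (hH : ∀ r ∈ subs, (r.map g).prod ∈ H)
    (j u : ℕ) (hu : u < M) (h : dp_d_55 j u = true) : Good (fa g) T MG M (cP g H) Lt.d u := by
  unfold dp_d_55 at h
  rcases brec_true h with h | h
  · exact dp_d_15_s hinv hr hH j u hu h
  · exact dp_d_54_s hinv hr hH j u hu h
theorem snd_d (hinv : ∀ x, g (inv x) = (g x)⁻¹) (hr : ∀ r ∈ rels, (r.map g).prod = 1) (hH : ∀ r ∈ subs, (r.map g).prod ∈ H)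
    (j u : ℕ) (hu : u < M) (h : disp_d j u = true) : Good (fa g) T MG M (cP g H) Lt.d u := by
  unfold disp_d at h
  rcases brec_true h with h | h
  · rcases brec_true h with h | h
    · exact lF1_good (T := T) (x := Lt.d) (by decide) .di (hole_rel hinv hr (by decide +kernel)) h
    · exact lDef_good (T := T) (x := Lt.d) (by decide) rfl h
  · rcases brec_true h with h | h
    · rcases brec_true h with h | h
      · exact lPar_good (T := T) (x := Lt.d) (x' := Lt.di) (by decide) rfl (inv_rel hinv _ _ rfl) h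
      · exact lS_good (T := T) (x := Lt.d) (by decide) hu [Lt.di] (hole_rel hinv hr (by decide +kernel)) h
    · exact dp_d_55_s hinv hr hH j u hu h
theorem snc_d (hinv : ∀ x, g (inv x) = (g x)⁻¹) (hr : ∀ r ∈ rels, (r.map g).prod = 1) (hH : ∀ r ∈ subs, (r.map g).prod ∈ H)
    (j u : ℕ) (hu : u < M) (h : chk_d j u = true) : (T Lt.d u < A ∧ Good (fa g) T MG M (cP g H) Lt.d u) ∨ (A ≤ T Lt.d u ∧ MG u < A) := by
  unfold chk_d at h
  cases hb : Nat.ble A (T_d u) with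
  | true => rw [hb] at h; exact Or.inr ⟨le_of_ble hb, le_of_ble h⟩
  | false => rw [hb] at h; exact Or.inl ⟨lt_of_ble_false hb, snd_d hinv hr hH j u hu h⟩
theorem dp_di_0_s (hinv : ∀ x, g (inv x) = (g x)⁻¹) (hr : ∀ r ∈ rels, (r.map g).prod = 1) (hH : ∀ r ∈ subs, (r.map g).prod ∈ H)
    (j u : ℕ) (hu : u < M) (h : dp_di_0 j u = true) : Good (fa g) T MG M (cP g H) Lt.di u := by
  unfold dp_di_0 at h
  rcases brec_true h with h | h
  · exact lF_good (T := T) (x := Lt.di) (by decide) [Lt.b, Lt.di, Lt.ci, Lt.fi, Lt.c, Lt.d, Lt.bi] (hole_rel hinv hr (by decide +kernel)) h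
  · exact lS_good (T := T) (x := Lt.di) (by decide) hu [Lt.b, Lt.di, Lt.ci, Lt.fi, Lt.c, Lt.d, Lt.bi] (hole_rel hinv hr (by decide +kernel)) h
theorem dp_di_1_s (hinv : ∀ x, g (inv x) = (g x)⁻¹) (hr : ∀ r ∈ rels, (r.map g).prod = 1) (hH : ∀ r ∈ subs, (r.map g).prod ∈ H)
    (j u : ℕ) (hu : u < M) (h : dp_di_1 j u = true) : Good (fa g) T MG M (cP g H) Lt.di u := by
  unfold dp_di_1 at h
  rcases brec_true h with h | h
  · exact lF_good (T := T) (x := Lt.di) (by decide) [Lt.ci, Lt.di, Lt.c, Lt.d, Lt.b, Lt.fi, Lt.bi] (hole_rel hinv hr (by decide +kernel)) h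
  · exact dp_di_0_s hinv hr hH j u hu h
theorem dp_di_2_s (hinv : ∀ x, g (inv x) = (g x)⁻¹) (hr : ∀ r ∈ rels, (r.map g).prod = 1) (hH : ∀ r ∈ subs, (r.map g).prod ∈ H)
    (j u : ℕ) (hu : u < M) (h : dp_di_2 j u = true) : Good (fa g) T MG M (cP g H) Lt.di u := by
  unfold dp_di_2 at h
  rcases brec_true h with h | h
  · exact lS_good (T := T) (x := Lt.di) (by decide) hu [Lt.b, Lt.b, Lt.di, Lt.bi, Lt.bi, Lt.d, Lt.fi] (hole_rel hinv hr (by decide +kernel)) h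
  · exact lF_good (T := T) (x := Lt.di) (by decide) [Lt.c, Lt.d, Lt.ci, Lt.di, Lt.fi, Lt.d, Lt.c] (hole_rel hinv hr (by decide +kernel)) h
theorem dp_di_3_s (hinv : ∀ x, g (inv x) = (g x)⁻¹) (hr : ∀ r ∈ rels, (r.map g).prod = 1) (hH : ∀ r ∈ subs, (r.map g).prod ∈ H)
    (j u : ℕ) (hu : u < M) (h : dp_di_3 j u = true) : Good (fa g) T MG M (cP g H) Lt.di u := by
  unfold dp_di_3 at h
  rcases brec_true h with h | h
  · exact lS_good (T := T) (x := Lt.di) (by decide) hu [Lt.b, Lt.b, Lt.d, Lt.bi, Lt.bi, Lt.d, Lt.f] (hole_rel hinv hr (by decide +kernel)) h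
  · exact lS_good (T := T) (x := Lt.di) (by decide) hu [Lt.ci, Lt.di, Lt.c, Lt.d, Lt.b, Lt.fi, Lt.bi] (hole_rel hinv hr (by decide +kernel)) h
theorem dp_di_4_s (hinv : ∀ x, g (inv x) = (g x)⁻¹) (hr : ∀ r ∈ rels, (r.map g).prod = 1) (hH : ∀ r ∈ subs, (r.map g).prod ∈ H)
    (j u : ℕ) (hu : u < M) (h : dp_di_4 j u = true) : Good (fa g) T MG M (cP g H) Lt.di u := by
  unfold dp_di_4 at h
  rcases brec_true h with h | h
  · exact dp_di_2_s hinv hr hH j u hu h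
  · exact dp_di_3_s hinv hr hH j u hu h
theorem dp_di_5_s (hinv : ∀ x, g (inv x) = (g x)⁻¹) (hr : ∀ r ∈ rels, (r.map g).prod = 1) (hH : ∀ r ∈ subs, (r.map g).prod ∈ H)
    (j u : ℕ) (hu : u < M) (h : dp_di_5 j u = true) : Good (fa g) T MG M (cP g H) Lt.di u := by
  unfold dp_di_5 at h
  rcases brec_true h with h | h
  · exact dp_di_1_s hinv hr hH j u hu h
  · exact dp_di_4_s hinv hr hH j u hu h
theorem dp_di_6_s (hinv : ∀ x, g (inv x) = (g x)⁻¹) (hr : ∀ r ∈ rels, (r.map g).prod = 1) (hH : ∀ r ∈ subs, (r.map g).prod ∈ H)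
    (j u : ℕ) (hu : u < M) (h : dp_di_6 j u = true) : Good (fa g) T MG M (cP g H) Lt.di u := by
  unfold dp_di_6 at h
  rcases brec_true h with h | h
  · exact lF_good (T := T) (x := Lt.di) (by decide) [Lt.b, Lt.b, Lt.di, Lt.bi, Lt.bi, Lt.d, Lt.fi] (hole_rel hinv hr (by decide +kernel)) h
  · exact lS_good (T := T) (x := Lt.di) (by decide) hu [Lt.fi, Lt.b, Lt.b, Lt.fi, Lt.c, Lt.b, Lt.ci] (hole_rel hinv hr (by decide +kernel)) h
theorem dp_di_7_s (hinv : ∀ x, g (inv x) = (g x)⁻¹) (hr : ∀ r ∈ rels, (r.map g).prod = 1) (hH : ∀ r ∈ subs, (r.map g).prod ∈ H)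
    (j u : ℕ) (hu : u < M) (h : dp_di_7 j u = true) : Good (fa g) T MG M (cP g H) Lt.di u := by
  unfold dp_di_7 at h
  rcases brec_true h with h | h
  · exact lS_good (T := T) (x := Lt.di) (by decide) hu [Lt.b, Lt.d, Lt.fi, Lt.c, Lt.b, Lt.b, Lt.f] (hole_rel hinv hr (by decide +kernel)) h
  · exact lS_good (T := T) (x := Lt.di) (by decide) hu [Lt.ci, Lt.d, Lt.c, Lt.d, Lt.b, Lt.f, Lt.bi] (hole_rel hinv hr (by decide +kernel)) h
theorem dp_di_8_s (hinv : ∀ x, g (inv x) = (g x)⁻¹) (hr : ∀ r ∈ rels, (r.map g).prod = 1) (hH : ∀ r ∈ subs, (r.map g).prod ∈ H)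
    (j u : ℕ) (hu : u < M) (h : dp_di_8 j u = true) : Good (fa g) T MG M (cP g H) Lt.di u := by
  unfold dp_di_8 at h
  rcases brec_true h with h | h
  · exact lF_good (T := T) (x := Lt.di) (by decide) [Lt.fi, Lt.b, Lt.b, Lt.fi, Lt.c, Lt.b, Lt.ci] (hole_rel hinv hr (by decide +kernel)) h
  · exact dp_di_7_s hinv hr hH j u hu h
theorem dp_di_9_s (hinv : ∀ x, g (inv x) = (g x)⁻¹) (hr : ∀ r ∈ rels, (r.map g).prod = 1) (hH : ∀ r ∈ subs, (r.map g).prod ∈ H)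
    (j u : ℕ) (hu : u < M) (h : dp_di_9 j u = true) : Good (fa g) T MG M (cP g H) Lt.di u := by
  unfold dp_di_9 at h
  rcases brec_true h with h | h
  · exact dp_di_6_s hinv hr hH j u hu h
  · exact dp_di_8_s hinv hr hH j u hu h
theorem dp_di_10_s (hinv : ∀ x, g (inv x) = (g x)⁻¹) (hr : ∀ r ∈ rels, (r.map g).prod = 1) (hH : ∀ r ∈ subs, (r.map g).prod ∈ H)
    (j u : ℕ) (hu : u < M) (h : dp_di_10 j u = true) : Good (fa g) T MG M (cP g H) Lt.di u := by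
  unfold dp_di_10 at h
  rcases brec_true h with h | h
  · exact lF_good (T := T) (x := Lt.di) (by decide) [Lt.b, Lt.b, Lt.d, Lt.bi, Lt.bi, Lt.d, Lt.f] (hole_rel hinv hr (by decide +kernel)) h
  · exact lS_good (T := T) (x := Lt.di) (by decide) hu [Lt.c, Lt.d, Lt.b, Lt.fi, Lt.bi, Lt.di, Lt.ci] (hole_rel hinv hr (by decide +kernel)) h
theorem dp_di_11_s (hinv : ∀ x, g (inv x) = (g x)⁻¹) (hr : ∀ r ∈ rels, (r.map g).prod = 1) (hH : ∀ r ∈ subs, (r.map g).prod ∈ H)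
    (j u : ℕ) (hu : u < M) (h : dp_di_11 j u = true) : Good (fa g) T MG M (cP g H) Lt.di u := by
  unfold dp_di_11 at h
  rcases brec_true h with h | h
  · exact lS_good (T := T) (x := Lt.di) (by decide) hu [Lt.ci, Lt.f, Lt.c, Lt.d, Lt.bi, Lt.d, Lt.b] (hole_rel hinv hr (by decide +kernel)) h
  · exact lS_good (T := T) (x := Lt.di) (by decide) hu [Lt.f, Lt.d, Lt.c, Lt.b, Lt.c, Lt.b, Lt.b] (hole_rel hinv hr (by decide +kernel)) h
theorem dp_di_12_s (hinv : ∀ x, g (inv x) = (g x)⁻¹) (hr : ∀ r ∈ rels, (r.map g).prod = 1) (hH : ∀ r ∈ subs, (r.map g).prod ∈ H)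
    (j u : ℕ) (hu : u < M) (h : dp_di_12 j u = true) : Good (fa g) T MG M (cP g H) Lt.di u := by
  unfold dp_di_12 at h
  rcases brec_true h with h | h
  · exact lF_good (T := T) (x := Lt.di) (by decide) [Lt.c, Lt.d, Lt.b, Lt.fi, Lt.bi, Lt.di, Lt.ci] (hole_rel hinv hr (by decide +kernel)) h
  · exact dp_di_11_s hinv hr hH j u hu h
theorem dp_di_13_s (hinv : ∀ x, g (inv x) = (g x)⁻¹) (hr : ∀ r ∈ rels, (r.map g).prod = 1) (hH : ∀ r ∈ subs, (r.map g).prod ∈ H)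
    (j u : ℕ) (hu : u < M) (h : dp_di_13 j u = true) : Good (fa g) T MG M (cP g H) Lt.di u := by
  unfold dp_di_13 at h
  rcases brec_true h with h | h
  · exact dp_di_10_s hinv hr hH j u hu h
  · exact dp_di_12_s hinv hr hH j u hu h
theorem dp_di_14_s (hinv : ∀ x, g (inv x) = (g x)⁻¹) (hr : ∀ r ∈ rels, (r.map g).prod = 1) (hH : ∀ r ∈ subs, (r.map g).prod ∈ H)
    (j u : ℕ) (hu : u < M) (h : dp_di_14 j u = true) : Good (fa g) T MG M (cP g H) Lt.di u := by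
  unfold dp_di_14 at h
  rcases brec_true h with h | h
  · exact dp_di_9_s hinv hr hH j u hu h
  · exact dp_di_13_s hinv hr hH j u hu h
theorem dp_di_15_s (hinv : ∀ x, g (inv x) = (g x)⁻¹) (hr : ∀ r ∈ rels, (r.map g).prod = 1) (hH : ∀ r ∈ subs, (r.map g).prod ∈ H)
    (j u : ℕ) (hu : u < M) (h : dp_di_15 j u = true) : Good (fa g) T MG M (cP g H) Lt.di u := by
  unfold dp_di_15 at h
  rcases brec_true h with h | h
  · exact dp_di_5_s hinv hr hH j u hu h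
  · exact dp_di_14_s hinv hr hH j u hu h
theorem dp_di_16_s (hinv : ∀ x, g (inv x) = (g x)⁻¹) (hr : ∀ r ∈ rels, (r.map g).prod = 1) (hH : ∀ r ∈ subs, (r.map g).prod ∈ H)
    (j u : ℕ) (hu : u < M) (h : dp_di_16 j u = true) : Good (fa g) T MG M (cP g H) Lt.di u := by
  unfold dp_di_16 at h
  rcases brec_true h with h | h
  · exact lF_good (T := T) (x := Lt.di) (by decide) [Lt.ci, Lt.d, Lt.c, Lt.d, Lt.b, Lt.f, Lt.bi] (hole_rel hinv hr (by decide +kernel)) h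
  · exact lS_good (T := T) (x := Lt.di) (by decide) hu [Lt.bi, Lt.bi, Lt.d, Lt.fi, Lt.di, Lt.b, Lt.b] (hole_rel hinv hr (by decide +kernel)) h
theorem dp_di_17_s (hinv : ∀ x, g (inv x) = (g x)⁻¹) (hr : ∀ r ∈ rels, (r.map g).prod = 1) (hH : ∀ r ∈ subs, (r.map g).prod ∈ H)
    (j u : ℕ) (hu : u < M) (h : dp_di_17 j u = true) : Good (fa g) T MG M (cP g H) Lt.di u := by
  unfold dp_di_17 at h
  rcases brec_true h with h | h
  · exact lS_good (T := T) (x := Lt.di) (by decide) hu [Lt.ci, Lt.d, Lt.bi, Lt.bi, Lt.f, Lt.bi, Lt.c] (hole_rel hinv hr (by decide +kernel)) h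
  · exact dp_di_16_s hinv hr hH j u hu h
theorem dp_di_18_s (hinv : ∀ x, g (inv x) = (g x)⁻¹) (hr : ∀ r ∈ rels, (r.map g).prod = 1) (hH : ∀ r ∈ subs, (r.map g).prod ∈ H)
    (j u : ℕ) (hu : u < M) (h : dp_di_18 j u = true) : Good (fa g) T MG M (cP g H) Lt.di u := by
  unfold dp_di_18 at h
  rcases brec_true h with h | h
  · exact lF_good (T := T) (x := Lt.di) (by decide) [Lt.b, Lt.d, Lt.fi, Lt.c, Lt.b, Lt.b, Lt.f] (hole_rel hinv hr (by decide +kernel)) h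
  · exact lS_good (T := T) (x := Lt.di) (by decide) hu [Lt.c, Lt.d, Lt.ci, Lt.b, Lt.fi, Lt.b, Lt.b] (hole_rel hinv hr (by decide +kernel)) h
theorem dp_di_19_s (hinv : ∀ x, g (inv x) = (g x)⁻¹) (hr : ∀ r ∈ rels, (r.map g).prod = 1) (hH : ∀ r ∈ subs, (r.map g).prod ∈ H)
    (j u : ℕ) (hu : u < M) (h : dp_di_19 j u = true) : Good (fa g) T MG M (cP g H) Lt.di u := by
  unfold dp_di_19 at h
  rcases brec_true h with h | h
  · exact lF_good (T := T) (x := Lt.di) (by decide) [Lt.ci, Lt.f, Lt.c, Lt.d, Lt.bi, Lt.d, Lt.b] (hole_rel hinv hr (by decide +kernel)) h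
  · exact dp_di_18_s hinv hr hH j u hu h
theorem dp_di_20_s (hinv : ∀ x, g (inv x) = (g x)⁻¹) (hr : ∀ r ∈ rels, (r.map g).prod = 1) (hH : ∀ r ∈ subs, (r.map g).prod ∈ H)
    (j u : ℕ) (hu : u < M) (h : dp_di_20 j u = true) : Good (fa g) T MG M (cP g H) Lt.di u := by
  unfold dp_di_20 at h
  rcases brec_true h with h | h
  · exact dp_di_17_s hinv hr hH j u hu h
  · exact dp_di_19_s hinv hr hH j u hu h
theorem dp_di_21_s (hinv : ∀ x, g (inv x) = (g x)⁻¹) (hr : ∀ r ∈ rels, (r.map g).prod = 1) (hH : ∀ r ∈ subs, (r.map g).prod ∈ H)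
    (j u : ℕ) (hu : u < M) (h : dp_di_21 j u = true) : Good (fa g) T MG M (cP g H) Lt.di u := by
  unfold dp_di_21 at h
  rcases brec_true h with h | h
  · exact lS_good (T := T) (x := Lt.di) (by decide) hu [Lt.fi, Lt.d, Lt.bi, Lt.bi, Lt.ci, Lt.bi, Lt.ci] (hole_rel hinv hr (by decide +kernel)) h
  · exact lF_good (T := T) (x := Lt.di) (by decide) [Lt.f, Lt.d, Lt.c, Lt.b, Lt.c, Lt.b, Lt.b] (hole_rel hinv hr (by decide +kernel)) h
theorem dp_di_22_s (hinv : ∀ x, g (inv x) = (g x)⁻¹) (hr : ∀ r ∈ rels, (r.map g).prod = 1) (hH : ∀ r ∈ subs, (r.map g).prod ∈ H)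
    (j u : ℕ) (hu : u < M) (h : dp_di_22 j u = true) : Good (fa g) T MG M (cP g H) Lt.di u := by
  unfold dp_di_22 at h
  rcases brec_true h with h | h
  · exact lF_good (T := T) (x := Lt.di) (by decide) [Lt.c, Lt.d, Lt.ci, Lt.b, Lt.fi, Lt.b, Lt.b] (hole_rel hinv hr (by decide +kernel)) h
  · exact dp_di_21_s hinv hr hH j u hu h
theorem dp_di_23_s (hinv : ∀ x, g (inv x) = (g x)⁻¹) (hr : ∀ r ∈ rels, (r.map g).prod = 1) (hH : ∀ r ∈ subs, (r.map g).prod ∈ H)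
    (j u : ℕ) (hu : u < M) (h : dp_di_23 j u = true) : Good (fa g) T MG M (cP g H) Lt.di u := by
  unfold dp_di_23 at h
  rcases brec_true h with h | h
  · exact lF_good (T := T) (x := Lt.di) (by decide) [Lt.fi, Lt.c, Lt.fi, Lt.ci, Lt.f, Lt.d, Lt.c] (hole_rel hinv hr (by decide +kernel)) h
  · exact lF_good (T := T) (x := Lt.di) (by decide) [Lt.bi, Lt.d, Lt.fi, Lt.bi, Lt.bi, Lt.ci, Lt.f] (hole_rel hinv hr (by decide +kernel)) h
theorem dp_di_24_s (hinv : ∀ x, g (inv x) = (g x)⁻¹) (hr : ∀ r ∈ rels, (r.map g).prod = 1) (hH : ∀ r ∈ subs, (r.map g).prod ∈ H)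
    (j u : ℕ) (hu : u < M) (h : dp_di_24 j u = true) : Good (fa g) T MG M (cP g H) Lt.di u := by
  unfold dp_di_24 at h
  rcases brec_true h with h | h
  · exact lS_good (T := T) (x := Lt.di) (by decide) hu [Lt.c, Lt.d, Lt.ci, Lt.di, Lt.fi, Lt.d, Lt.c] (hole_rel hinv hr (by decide +kernel)) h
  · exact lS_good (T := T) (x := Lt.di) (by decide) hu [Lt.bi, Lt.d, Lt.fi, Lt.bi, Lt.bi, Lt.ci, Lt.f] (hole_rel hinv hr (by decide +kernel)) h
theorem dp_di_25_s (hinv : ∀ x, g (inv x) = (g x)⁻¹) (hr : ∀ r ∈ rels, (r.map g).prod = 1) (hH : ∀ r ∈ subs, (r.map g).prod ∈ H)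
    (j u : ℕ) (hu : u < M) (h : dp_di_25 j u = true) : Good (fa g) T MG M (cP g H) Lt.di u := by
  unfold dp_di_25 at h
  rcases brec_true h with h | h
  · exact dp_di_23_s hinv hr hH j u hu h
  · exact dp_di_24_s hinv hr hH j u hu h
theorem dp_di_26_s (hinv : ∀ x, g (inv x) = (g x)⁻¹) (hr : ∀ r ∈ rels, (r.map g).prod = 1) (hH : ∀ r ∈ subs, (r.map g).prod ∈ H)
    (j u : ℕ) (hu : u < M) (h : dp_di_26 j u = true) : Good (fa g) T MG M (cP g H) Lt.di u := by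
  unfold dp_di_26 at h
  rcases brec_true h with h | h
  · exact dp_di_22_s hinv hr hH j u hu h
  · exact dp_di_25_s hinv hr hH j u hu h
theorem dp_di_27_s (hinv : ∀ x, g (inv x) = (g x)⁻¹) (hr : ∀ r ∈ rels, (r.map g).prod = 1) (hH : ∀ r ∈ subs, (r.map g).prod ∈ H)
    (j u : ℕ) (hu : u < M) (h : dp_di_27 j u = true) : Good (fa g) T MG M (cP g H) Lt.di u := by
  unfold dp_di_27 at h
  rcases brec_true h with h | h
  · exact dp_di_20_s hinv hr hH j u hu h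
  · exact dp_di_26_s hinv hr hH j u hu h
theorem dp_di_28_s (hinv : ∀ x, g (inv x) = (g x)⁻¹) (hr : ∀ r ∈ rels, (r.map g).prod = 1) (hH : ∀ r ∈ subs, (r.map g).prod ∈ H)
    (j u : ℕ) (hu : u < M) (h : dp_di_28 j u = true) : Good (fa g) T MG M (cP g H) Lt.di u := by
  unfold dp_di_28 at h
  rcases brec_true h with h | h
  · exact lS_good (T := T) (x := Lt.di) (by decide) hu [Lt.fi, Lt.c, Lt.fi, Lt.ci, Lt.f, Lt.d, Lt.c] (hole_rel hinv hr (by decide +kernel)) h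
  · exact lF_good (T := T) (x := Lt.di) (by decide) [Lt.bi, Lt.bi, Lt.d, Lt.fi, Lt.di, Lt.b, Lt.b] (hole_rel hinv hr (by decide +kernel)) h
theorem dp_di_29_s (hinv : ∀ x, g (inv x) = (g x)⁻¹) (hr : ∀ r ∈ rels, (r.map g).prod = 1) (hH : ∀ r ∈ subs, (r.map g).prod ∈ H)
    (j u : ℕ) (hu : u < M) (h : dp_di_29 j u = true) : Good (fa g) T MG M (cP g H) Lt.di u := by
  unfold dp_di_29 at h
  rcases brec_true h with h | h
  · exact lF_good (T := T) (x := Lt.di) (by decide) [Lt.ci, Lt.d, Lt.bi, Lt.bi, Lt.f, Lt.bi, Lt.c] (hole_rel hinv hr (by decide +kernel)) h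
  · exact lS_good (T := T) (x := Lt.di) (by decide) hu [Lt.f, Lt.d, Lt.c, Lt.di, Lt.ci, Lt.d, Lt.ci] (hole_rel hinv hr (by decide +kernel)) h
theorem dp_di_30_s (hinv : ∀ x, g (inv x) = (g x)⁻¹) (hr : ∀ r ∈ rels, (r.map g).prod = 1) (hH : ∀ r ∈ subs, (r.map g).prod ∈ H)
    (j u : ℕ) (hu : u < M) (h : dp_di_30 j u = true) : Good (fa g) T MG M (cP g H) Lt.di u := by
  unfold dp_di_30 at h
  rcases brec_true h with h | h
  · exact dp_di_28_s hinv hr hH j u hu h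
  · exact dp_di_29_s hinv hr hH j u hu h
theorem dp_di_31_s (hinv : ∀ x, g (inv x) = (g x)⁻¹) (hr : ∀ r ∈ rels, (r.map g).prod = 1) (hH : ∀ r ∈ subs, (r.map g).prod ∈ H)
    (j u : ℕ) (hu : u < M) (h : dp_di_31 j u = true) : Good (fa g) T MG M (cP g H) Lt.di u := by
  unfold dp_di_31 at h
  rcases brec_true h with h | h
  · exact lF_good (T := T) (x := Lt.di) (by decide) [Lt.f, Lt.d, Lt.c, Lt.di, Lt.ci, Lt.d, Lt.ci] (hole_rel hinv hr (by decide +kernel)) h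
  · exact lF_good (T := T) (x := Lt.di) (by decide) [Lt.fi, Lt.c, Lt.f, Lt.ci, Lt.f, Lt.d, Lt.ci] (hole_rel hinv hr (by decide +kernel)) h
theorem dp_di_32_s (hinv : ∀ x, g (inv x) = (g x)⁻¹) (hr : ∀ r ∈ rels, (r.map g).prod = 1) (hH : ∀ r ∈ subs, (r.map g).prod ∈ H)
    (j u : ℕ) (hu : u < M) (h : dp_di_32 j u = true) : Good (fa g) T MG M (cP g H) Lt.di u := by
  unfold dp_di_32 at h
  rcases brec_true h with h | h
  · exact lF_good (T := T) (x := Lt.di) (by decide) [Lt.fi, Lt.d, Lt.bi, Lt.bi, Lt.ci, Lt.bi, Lt.ci] (hole_rel hinv hr (by decide +kernel)) h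
  · exact lS_good (T := T) (x := Lt.di) (by decide) hu [Lt.ci, Lt.fi, Lt.c, Lt.d, Lt.bi, Lt.di, Lt.b] (hole_rel hinv hr (by decide +kernel)) h
theorem dp_di_33_s (hinv : ∀ x, g (inv x) = (g x)⁻¹) (hr : ∀ r ∈ rels, (r.map g).prod = 1) (hH : ∀ r ∈ subs, (r.map g).prod ∈ H)
    (j u : ℕ) (hu : u < M) (h : dp_di_33 j u = true) : Good (fa g) T MG M (cP g H) Lt.di u := by
  unfold dp_di_33 at h
  rcases brec_true h with h | h
  · exact dp_di_31_s hinv hr hH j u hu h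
  · exact dp_di_32_s hinv hr hH j u hu h
theorem dp_di_34_s (hinv : ∀ x, g (inv x) = (g x)⁻¹) (hr : ∀ r ∈ rels, (r.map g).prod = 1) (hH : ∀ r ∈ subs, (r.map g).prod ∈ H)
    (j u : ℕ) (hu : u < M) (h : dp_di_34 j u = true) : Good (fa g) T MG M (cP g H) Lt.di u := by
  unfold dp_di_34 at h
  rcases brec_true h with h | h
  · exact dp_di_30_s hinv hr hH j u hu h
  · exact dp_di_33_s hinv hr hH j u hu h
theorem dp_di_35_s (hinv : ∀ x, g (inv x) = (g x)⁻¹) (hr : ∀ r ∈ rels, (r.map g).prod = 1) (hH : ∀ r ∈ subs, (r.map g).prod ∈ H)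
    (j u : ℕ) (hu : u < M) (h : dp_di_35 j u = true) : Good (fa g) T MG M (cP g H) Lt.di u := by
  unfold dp_di_35 at h
  rcases brec_true h with h | h
  · exact lF_good (T := T) (x := Lt.di) (by decide) [Lt.fi, Lt.d, Lt.c, Lt.di, Lt.c, Lt.d, Lt.ci] (hole_rel hinv hr (by decide +kernel)) h
  · exact lF_good (T := T) (x := Lt.di) (by decide) [Lt.ci, Lt.fi, Lt.ci, Lt.f, Lt.c, Lt.d, Lt.c] (hole_rel hinv hr (by decide +kernel)) h
theorem dp_di_36_s (hinv : ∀ x, g (inv x) = (g x)⁻¹) (hr : ∀ r ∈ rels, (r.map g).prod = 1) (hH : ∀ r ∈ subs, (r.map g).prod ∈ H)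
    (j u : ℕ) (hu : u < M) (h : dp_di_36 j u = true) : Good (fa g) T MG M (cP g H) Lt.di u := by
  unfold dp_di_36 at h
  rcases brec_true h with h | h
  · exact lS_good (T := T) (x := Lt.di) (by decide) hu [Lt.fi, Lt.d, Lt.c, Lt.di, Lt.c, Lt.d, Lt.ci] (hole_rel hinv hr (by decide +kernel)) h
  · exact lS_good (T := T) (x := Lt.di) (by decide) hu [Lt.ci, Lt.fi, Lt.c, Lt.f, Lt.c, Lt.d, Lt.ci] (hole_rel hinv hr (by decide +kernel)) h
theorem dp_di_37_s (hinv : ∀ x, g (inv x) = (g x)⁻¹) (hr : ∀ r ∈ rels, (r.map g).prod = 1) (hH : ∀ r ∈ subs, (r.map g).prod ∈ H)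
    (j u : ℕ) (hu : u < M) (h : dp_di_37 j u = true) : Good (fa g) T MG M (cP g H) Lt.di u := by
  unfold dp_di_37 at h
  rcases brec_true h with h | h
  · exact lS_good (T := T) (x := Lt.di) (by decide) hu [Lt.ci, Lt.d, Lt.ci, Lt.di, Lt.f, Lt.d, Lt.c] (hole_rel hinv hr (by decide +kernel)) h
  · exact dp_di_36_s hinv hr hH j u hu h
theorem dp_di_38_s (hinv : ∀ x, g (inv x) = (g x)⁻¹) (hr : ∀ r ∈ rels, (r.map g).prod = 1) (hH : ∀ r ∈ subs, (r.map g).prod ∈ H)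
    (j u : ℕ) (hu : u < M) (h : dp_di_38 j u = true) : Good (fa g) T MG M (cP g H) Lt.di u := by
  unfold dp_di_38 at h
  rcases brec_true h with h | h
  · exact dp_di_35_s hinv hr hH j u hu h
  · exact dp_di_37_s hinv hr hH j u hu h
theorem dp_di_39_s (hinv : ∀ x, g (inv x) = (g x)⁻¹) (hr : ∀ r ∈ rels, (r.map g).prod = 1) (hH : ∀ r ∈ subs, (r.map g).prod ∈ H)
    (j u : ℕ) (hu : u < M) (h : dp_di_39 j u = true) : Good (fa g) T MG M (cP g H) Lt.di u := by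
  unfold dp_di_39 at h
  rcases brec_true h with h | h
  · exact lS_good (T := T) (x := Lt.di) (by decide) hu [Lt.ci, Lt.fi, Lt.ci, Lt.f, Lt.c, Lt.d, Lt.c] (hole_rel hinv hr (by decide +kernel)) h
  · exact lS_good (T := T) (x := Lt.di) (by decide) hu [Lt.fi, Lt.c, Lt.f, Lt.ci, Lt.f, Lt.d, Lt.ci] (hole_rel hinv hr (by decide +kernel)) h
theorem dp_di_40_s (hinv : ∀ x, g (inv x) = (g x)⁻¹) (hr : ∀ r ∈ rels, (r.map g).prod = 1) (hH : ∀ r ∈ subs, (r.map g).prod ∈ H)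
    (j u : ℕ) (hu : u < M) (h : dp_di_40 j u = true) : Good (fa g) T MG M (cP g H) Lt.di u := by
  unfold dp_di_40 at h
  rcases brec_true h with h | h
  · exact lS_good (T := T) (x := Lt.di) (by decide) hu [Lt.bi, Lt.c, Lt.f, Lt.bi, Lt.ei, Lt.b, Lt.e, Lt.bi, Lt.e] (hole_rel hinv hr (by decide +kernel)) h
  · exact dp_di_39_s hinv hr hH j u hu h
theorem dp_di_41_s (hinv : ∀ x, g (inv x) = (g x)⁻¹) (hr : ∀ r ∈ rels, (r.map g).prod = 1) (hH : ∀ r ∈ subs, (r.map g).prod ∈ H)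
    (j u : ℕ) (hu : u < M) (h : dp_di_41 j u = true) : Good (fa g) T MG M (cP g H) Lt.di u := by
  unfold dp_di_41 at h
  rcases brec_true h with h | h
  · exact lF_good (T := T) (x := Lt.di) (by decide) [Lt.ci, Lt.fi, Lt.c, Lt.f, Lt.c, Lt.d, Lt.ci] (hole_rel hinv hr (by decide +kernel)) h
  · exact lF_good (T := T) (x := Lt.di) (by decide) [Lt.ci, Lt.d, Lt.ci, Lt.di, Lt.f, Lt.d, Lt.c] (hole_rel hinv hr (by decide +kernel)) h
theorem dp_di_42_s (hinv : ∀ x, g (inv x) = (g x)⁻¹) (hr : ∀ r ∈ rels, (r.map g).prod = 1) (hH : ∀ r ∈ subs, (r.map g).prod ∈ H)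
    (j u : ℕ) (hu : u < M) (h : dp_di_42 j u = true) : Good (fa g) T MG M (cP g H) Lt.di u := by
  unfold dp_di_42 at h
  rcases brec_true h with h | h
  · exact lS_good (T := T) (x := Lt.di) (by decide) hu [Lt.ci, Lt.b, Lt.b, Lt.di, Lt.fi, Lt.ci, Lt.f, Lt.b] (hole_rel hinv hr (by decide +kernel)) h
  · exact lF_good (T := T) (x := Lt.di) (by decide) [Lt.ci, Lt.b, Lt.b, Lt.di, Lt.fi, Lt.ci, Lt.f, Lt.b] (hole_rel hinv hr (by decide +kernel)) h
theorem dp_di_43_s (hinv : ∀ x, g (inv x) = (g x)⁻¹) (hr : ∀ r ∈ rels, (r.map g).prod = 1) (hH : ∀ r ∈ subs, (r.map g).prod ∈ H)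
    (j u : ℕ) (hu : u < M) (h : dp_di_43 j u = true) : Good (fa g) T MG M (cP g H) Lt.di u := by
  unfold dp_di_43 at h
  rcases brec_true h with h | h
  · exact lS_good (T := T) (x := Lt.di) (by decide) hu [Lt.c, Lt.ei, Lt.b, Lt.ei, Lt.bi, Lt.e, Lt.c, Lt.f, Lt.b] (hole_rel hinv hr (by decide +kernel)) h
  · exact dp_di_42_s hinv hr hH j u hu h
theorem dp_di_44_s (hinv : ∀ x, g (inv x) = (g x)⁻¹) (hr : ∀ r ∈ rels, (r.map g).prod = 1) (hH : ∀ r ∈ subs, (r.map g).prod ∈ H)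
    (j u : ℕ) (hu : u < M) (h : dp_di_44 j u = true) : Good (fa g) T MG M (cP g H) Lt.di u := by
  unfold dp_di_44 at h
  rcases brec_true h with h | h
  · exact lF_good (T := T) (x := Lt.di) (by decide) [Lt.bi, Lt.c, Lt.f, Lt.bi, Lt.ei, Lt.b, Lt.e, Lt.bi, Lt.e] (hole_rel hinv hr (by decide +kernel)) h
  · exact dp_di_43_s hinv hr hH j u hu h
theorem dp_di_45_s (hinv : ∀ x, g (inv x) = (g x)⁻¹) (hr : ∀ r ∈ rels, (r.map g).prod = 1) (hH : ∀ r ∈ subs, (r.map g).prod ∈ H)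
    (j u : ℕ) (hu : u < M) (h : dp_di_45 j u = true) : Good (fa g) T MG M (cP g H) Lt.di u := by
  unfold dp_di_45 at h
  rcases brec_true h with h | h
  · exact lS_good (T := T) (x := Lt.di) (by decide) hu [Lt.ei, Lt.b, Lt.e, Lt.bi, Lt.e, Lt.fi, Lt.ci, Lt.bi, Lt.ci] (hole_rel hinv hr (by decide +kernel)) h
  · exact dp_di_44_s hinv hr hH j u hu h
theorem dp_di_46_s (hinv : ∀ x, g (inv x) = (g x)⁻¹) (hr : ∀ r ∈ rels, (r.map g).prod = 1) (hH : ∀ r ∈ subs, (r.map g).prod ∈ H)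
    (j u : ℕ) (hu : u < M) (h : dp_di_46 j u = true) : Good (fa g) T MG M (cP g H) Lt.di u := by
  unfold dp_di_46 at h
  rcases brec_true h with h | h
  · exact lF_good (T := T) (x := Lt.di) (by decide) [Lt.ci, Lt.fi, Lt.c, Lt.d, Lt.bi, Lt.di, Lt.b] (hole_rel hinv hr (by decide +kernel)) h
  · exact dp_di_45_s hinv hr hH j u hu h
theorem dp_di_47_s (hinv : ∀ x, g (inv x) = (g x)⁻¹) (hr : ∀ r ∈ rels, (r.map g).prod = 1) (hH : ∀ r ∈ subs, (r.map g).prod ∈ H)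
    (j u : ℕ) (hu : u < M) (h : dp_di_47 j u = true) : Good (fa g) T MG M (cP g H) Lt.di u := by
  unfold dp_di_47 at h
  rcases brec_true h with h | h
  · exact dp_di_41_s hinv hr hH j u hu h
  · exact dp_di_46_s hinv hr hH j u hu h
theorem dp_di_48_s (hinv : ∀ x, g (inv x) = (g x)⁻¹) (hr : ∀ r ∈ rels, (r.map g).prod = 1) (hH : ∀ r ∈ subs, (r.map g).prod ∈ H)
    (j u : ℕ) (hu : u < M) (h : dp_di_48 j u = true) : Good (fa g) T MG M (cP g H) Lt.di u := by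
  unfold dp_di_48 at h
  rcases brec_true h with h | h
  · exact dp_di_40_s hinv hr hH j u hu h
  · exact dp_di_47_s hinv hr hH j u hu h
theorem dp_di_49_s (hinv : ∀ x, g (inv x) = (g x)⁻¹) (hr : ∀ r ∈ rels, (r.map g).prod = 1) (hH : ∀ r ∈ subs, (r.map g).prod ∈ H)
    (j u : ℕ) (hu : u < M) (h : dp_di_49 j u = true) : Good (fa g) T MG M (cP g H) Lt.di u := by
  unfold dp_di_49 at h
  rcases brec_true h with h | h
  · exact dp_di_38_s hinv hr hH j u hu h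
  · exact dp_di_48_s hinv hr hH j u hu h
theorem dp_di_50_s (hinv : ∀ x, g (inv x) = (g x)⁻¹) (hr : ∀ r ∈ rels, (r.map g).prod = 1) (hH : ∀ r ∈ subs, (r.map g).prod ∈ H)
    (j u : ℕ) (hu : u < M) (h : dp_di_50 j u = true) : Good (fa g) T MG M (cP g H) Lt.di u := by
  unfold dp_di_50 at h
  rcases brec_true h with h | h
  · exact dp_di_34_s hinv hr hH j u hu h
  · exact dp_di_49_s hinv hr hH j u hu h
theorem dp_di_51_s (hinv : ∀ x, g (inv x) = (g x)⁻¹) (hr : ∀ r ∈ rels, (r.map g).prod = 1) (hH : ∀ r ∈ subs, (r.map g).prod ∈ H)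
    (j u : ℕ) (hu : u < M) (h : dp_di_51 j u = true) : Good (fa g) T MG M (cP g H) Lt.di u := by
  unfold dp_di_51 at h
  rcases brec_true h with h | h
  · exact dp_di_27_s hinv hr hH j u hu h
  · exact dp_di_50_s hinv hr hH j u hu h
theorem dp_di_52_s (hinv : ∀ x, g (inv x) = (g x)⁻¹) (hr : ∀ r ∈ rels, (r.map g).prod = 1) (hH : ∀ r ∈ subs, (r.map g).prod ∈ H)
    (j u : ℕ) (hu : u < M) (h : dp_di_52 j u = true) : Good (fa g) T MG M (cP g H) Lt.di u := by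
  unfold dp_di_52 at h
  rcases brec_true h with h | h
  · exact dp_di_15_s hinv hr hH j u hu h
  · exact dp_di_51_s hinv hr hH j u hu h
theorem snd_di (hinv : ∀ x, g (inv x) = (g x)⁻¹) (hr : ∀ r ∈ rels, (r.map g).prod = 1) (hH : ∀ r ∈ subs, (r.map g).prod ∈ H)
    (j u : ℕ) (hu : u < M) (h : disp_di j u = true) : Good (fa g) T MG M (cP g H) Lt.di u := by
  unfold disp_di at h
  rcases brec_true h with h | h
  · rcases brec_true h with h | h
    · exact lF1_good (T := T) (x := Lt.di) (by decide) .d (hole_rel hinv hr (by decide +kernel)) h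
    · exact lPar_good (T := T) (x := Lt.di) (x' := Lt.d) (by decide) rfl (inv_rel hinv _ _ rfl) h
  · rcases brec_true h with h | h
    · rcases brec_true h with h | h
      · exact lDef_good (T := T) (x := Lt.di) (by decide) rfl h
      · exact lS_good (T := T) (x := Lt.di) (by decide) hu [Lt.d] (hole_rel hinv hr (by decide +kernel)) h
    · exact dp_di_52_s hinv hr hH j u hu h
theorem snc_di (hinv : ∀ x, g (inv x) = (g x)⁻¹) (hr : ∀ r ∈ rels, (r.map g).prod = 1) (hH : ∀ r ∈ subs, (r.map g).prod ∈ H)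
    (j u : ℕ) (hu : u < M) (h : chk_di j u = true) : (T Lt.di u < A ∧ Good (fa g) T MG M (cP g H) Lt.di u) ∨ (A ≤ T Lt.di u ∧ MG u < A) := by
  unfold chk_di at h
  cases hb : Nat.ble A (T_di u) with
  | true => rw [hb] at h; exact Or.inr ⟨le_of_ble hb, le_of_ble h⟩
  | false => rw [hb] at h; exact Or.inl ⟨lt_of_ble_false hb, snd_di hinv hr hH j u hu h⟩
theorem dp_c_0_s (hinv : ∀ x, g (inv x) = (g x)⁻¹) (hr : ∀ r ∈ rels, (r.map g).prod = 1) (hH : ∀ r ∈ subs, (r.map g).prod ∈ H)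
    (j u : ℕ) (hu : u < M) (h : dp_c_0 j u = true) : Good (fa g) T MG M (cP g H) Lt.c u := by
  unfold dp_c_0 at h
  rcases brec_true h with h | h
  · exact lS_good (T := T) (x := Lt.c) (by decide) hu [Lt.bi, Lt.ci, Lt.f, Lt.bi, Lt.bi, Lt.f, Lt.d] (hole_rel hinv hr (by decide +kernel)) h
  · exact lF_good (T := T) (x := Lt.c) (by decide) [Lt.di, Lt.ci, Lt.d, Lt.bi, Lt.bi, Lt.f, Lt.bi] (hole_rel hinv hr (by decide +kernel)) h
theorem dp_c_1_s (hinv : ∀ x, g (inv x) = (g x)⁻¹) (hr : ∀ r ∈ rels, (r.map g).prod = 1) (hH : ∀ r ∈ subs, (r.map g).prod ∈ H)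
    (j u : ℕ) (hu : u < M) (h : dp_c_1 j u = true) : Good (fa g) T MG M (cP g H) Lt.c u := by
  unfold dp_c_1 at h
  rcases brec_true h with h | h
  · exact lS_good (T := T) (x := Lt.c) (by decide) hu [Lt.b, Lt.b, Lt.di, Lt.f, Lt.d, Lt.c, Lt.b] (hole_rel hinv hr (by decide +kernel)) h
  · exact lS_good (T := T) (x := Lt.c) (by decide) hu [Lt.f, Lt.ci, Lt.e, Lt.b, Lt.f, Lt.bi, Lt.ei] (hole_rel hinv hr (by decide +kernel)) h
theorem dp_c_2_s (hinv : ∀ x, g (inv x) = (g x)⁻¹) (hr : ∀ r ∈ rels, (r.map g).prod = 1) (hH : ∀ r ∈ subs, (r.map g).prod ∈ H)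
    (j u : ℕ) (hu : u < M) (h : dp_c_2 j u = true) : Good (fa g) T MG M (cP g H) Lt.c u := by
  unfold dp_c_2 at h
  rcases brec_true h with h | h
  · exact dp_c_0_s hinv hr hH j u hu h
  · exact dp_c_1_s hinv hr hH j u hu h
theorem dp_c_3_s (hinv : ∀ x, g (inv x) = (g x)⁻¹) (hr : ∀ r ∈ rels, (r.map g).prod = 1) (hH : ∀ r ∈ subs, (r.map g).prod ∈ H)
    (j u : ℕ) (hu : u < M) (h : dp_c_3 j u = true) : Good (fa g) T MG M (cP g H) Lt.c u := by
  unfold dp_c_3 at h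
  rcases brec_true h with h | h
  · exact lF_good (T := T) (x := Lt.c) (by decide) [Lt.b, Lt.b, Lt.di, Lt.f, Lt.d, Lt.c, Lt.b] (hole_rel hinv hr (by decide +kernel)) h
  · exact lF_good (T := T) (x := Lt.c) (by decide) [Lt.f, Lt.c, Lt.d, Lt.ci, Lt.di, Lt.ci, Lt.fi] (hole_rel hinv hr (by decide +kernel)) h
theorem dp_c_4_s (hinv : ∀ x, g (inv x) = (g x)⁻¹) (hr : ∀ r ∈ rels, (r.map g).prod = 1) (hH : ∀ r ∈ subs, (r.map g).prod ∈ H)
    (j u : ℕ) (hu : u < M) (h : dp_c_4 j u = true) : Good (fa g) T MG M (cP g H) Lt.c u := by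
  unfold dp_c_4 at h
  rcases brec_true h with h | h
  · exact lF_good (T := T) (x := Lt.c) (by decide) [Lt.fi, Lt.ci, Lt.f, Lt.d, Lt.c, Lt.di, Lt.fi] (hole_rel hinv hr (by decide +kernel)) h
  · exact lF_good (T := T) (x := Lt.c) (by decide) [Lt.bi, Lt.ci, Lt.f, Lt.bi, Lt.bi, Lt.f, Lt.d] (hole_rel hinv hr (by decide +kernel)) h
theorem dp_c_5_s (hinv : ∀ x, g (inv x) = (g x)⁻¹) (hr : ∀ r ∈ rels, (r.map g).prod = 1) (hH : ∀ r ∈ subs, (r.map g).prod ∈ H)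
    (j u : ℕ) (hu : u < M) (h : dp_c_5 j u = true) : Good (fa g) T MG M (cP g H) Lt.c u := by
  unfold dp_c_5 at h
  rcases brec_true h with h | h
  · exact lS_good (T := T) (x := Lt.c) (by decide) hu [Lt.b, Lt.ci, Lt.di, Lt.fi, Lt.b, Lt.b, Lt.fi] (hole_rel hinv hr (by decide +kernel)) h
  · exact dp_c_4_s hinv hr hH j u hu h
theorem dp_c_6_s (hinv : ∀ x, g (inv x) = (g x)⁻¹) (hr : ∀ r ∈ rels, (r.map g).prod = 1) (hH : ∀ r ∈ subs, (r.map g).prod ∈ H)
    (j u : ℕ) (hu : u < M) (h : dp_c_6 j u = true) : Good (fa g) T MG M (cP g H) Lt.c u := by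
  unfold dp_c_6 at h
  rcases brec_true h with h | h
  · exact dp_c_3_s hinv hr hH j u hu h
  · exact dp_c_5_s hinv hr hH j u hu h
theorem dp_c_7_s (hinv : ∀ x, g (inv x) = (g x)⁻¹) (hr : ∀ r ∈ rels, (r.map g).prod = 1) (hH : ∀ r ∈ subs, (r.map g).prod ∈ H)
    (j u : ℕ) (hu : u < M) (h : dp_c_7 j u = true) : Good (fa g) T MG M (cP g H) Lt.c u := by
  unfold dp_c_7 at h
  rcases brec_true h with h | h
  · exact dp_c_2_s hinv hr hH j u hu h
  · exact dp_c_6_s hinv hr hH j u hu h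
theorem dp_c_8_s (hinv : ∀ x, g (inv x) = (g x)⁻¹) (hr : ∀ r ∈ rels, (r.map g).prod = 1) (hH : ∀ r ∈ subs, (r.map g).prod ∈ H)
    (j u : ℕ) (hu : u < M) (h : dp_c_8 j u = true) : Good (fa g) T MG M (cP g H) Lt.c u := by
  unfold dp_c_8 at h
  rcases brec_true h with h | h
  · exact lS_good (T := T) (x := Lt.c) (by decide) hu [Lt.di, Lt.ci, Lt.d, Lt.bi, Lt.bi, Lt.f, Lt.bi] (hole_rel hinv hr (by decide +kernel)) h
  · exact lF_good (T := T) (x := Lt.c) (by decide) [Lt.di, Lt.c, Lt.d, Lt.ci, Lt.di, Lt.fi, Lt.d] (hole_rel hinv hr (by decide +kernel)) h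
theorem dp_c_9_s (hinv : ∀ x, g (inv x) = (g x)⁻¹) (hr : ∀ r ∈ rels, (r.map g).prod = 1) (hH : ∀ r ∈ subs, (r.map g).prod ∈ H)
    (j u : ℕ) (hu : u < M) (h : dp_c_9 j u = true) : Good (fa g) T MG M (cP g H) Lt.c u := by
  unfold dp_c_9 at h
  rcases brec_true h with h | h
  · exact lS_good (T := T) (x := Lt.c) (by decide) hu [Lt.fi, Lt.bi, Lt.e, Lt.b, Lt.f, Lt.ci, Lt.e] (hole_rel hinv hr (by decide +kernel)) h
  · exact lF_good (T := T) (x := Lt.c) (by decide) [Lt.f, Lt.ci, Lt.f, Lt.d, Lt.ci, Lt.di, Lt.fi] (hole_rel hinv hr (by decide +kernel)) h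
theorem dp_c_10_s (hinv : ∀ x, g (inv x) = (g x)⁻¹) (hr : ∀ r ∈ rels, (r.map g).prod = 1) (hH : ∀ r ∈ subs, (r.map g).prod ∈ H)
    (j u : ℕ) (hu : u < M) (h : dp_c_10 j u = true) : Good (fa g) T MG M (cP g H) Lt.c u := by
  unfold dp_c_10 at h
  rcases brec_true h with h | h
  · exact lF_good (T := T) (x := Lt.c) (by decide) [Lt.f, Lt.ci, Lt.e, Lt.b, Lt.f, Lt.bi, Lt.ei] (hole_rel hinv hr (by decide +kernel)) h
  · exact dp_c_9_s hinv hr hH j u hu h
theorem dp_c_11_s (hinv : ∀ x, g (inv x) = (g x)⁻¹) (hr : ∀ r ∈ rels, (r.map g).prod = 1) (hH : ∀ r ∈ subs, (r.map g).prod ∈ H)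
    (j u : ℕ) (hu : u < M) (h : dp_c_11 j u = true) : Good (fa g) T MG M (cP g H) Lt.c u := by
  unfold dp_c_11 at h
  rcases brec_true h with h | h
  · exact dp_c_8_s hinv hr hH j u hu h
  · exact dp_c_10_s hinv hr hH j u hu h
theorem dp_c_12_s (hinv : ∀ x, g (inv x) = (g x)⁻¹) (hr : ∀ r ∈ rels, (r.map g).prod = 1) (hH : ∀ r ∈ subs, (r.map g).prod ∈ H)
    (j u : ℕ) (hu : u < M) (h : dp_c_12 j u = true) : Good (fa g) T MG M (cP g H) Lt.c u := by
  unfold dp_c_12 at h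
  rcases brec_true h with h | h
  · exact lS_good (T := T) (x := Lt.c) (by decide) hu [Lt.b, Lt.b, Lt.f, Lt.di, Lt.b, Lt.d, Lt.fi] (hole_rel hinv hr (by decide +kernel)) h
  · exact lF_good (T := T) (x := Lt.c) (by decide) [Lt.fi, Lt.bi, Lt.e, Lt.b, Lt.f, Lt.ci, Lt.e] (hole_rel hinv hr (by decide +kernel)) h
theorem dp_c_13_s (hinv : ∀ x, g (inv x) = (g x)⁻¹) (hr : ∀ r ∈ rels, (r.map g).prod = 1) (hH : ∀ r ∈ subs, (r.map g).prod ∈ H)
    (j u : ℕ) (hu : u < M) (h : dp_c_13 j u = true) : Good (fa g) T MG M (cP g H) Lt.c u := by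
  unfold dp_c_13 at h
  rcases brec_true h with h | h
  · exact lF_good (T := T) (x := Lt.c) (by decide) [Lt.b, Lt.ci, Lt.di, Lt.fi, Lt.b, Lt.b, Lt.fi] (hole_rel hinv hr (by decide +kernel)) h
  · exact lS_good (T := T) (x := Lt.c) (by decide) hu [Lt.di, Lt.c, Lt.d, Lt.ci, Lt.di, Lt.fi, Lt.d] (hole_rel hinv hr (by decide +kernel)) h
theorem dp_c_14_s (hinv : ∀ x, g (inv x) = (g x)⁻¹) (hr : ∀ r ∈ rels, (r.map g).prod = 1) (hH : ∀ r ∈ subs, (r.map g).prod ∈ H)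
    (j u : ℕ) (hu : u < M) (h : dp_c_14 j u = true) : Good (fa g) T MG M (cP g H) Lt.c u := by
  unfold dp_c_14 at h
  rcases brec_true h with h | h
  · exact lS_good (T := T) (x := Lt.c) (by decide) hu [Lt.f, Lt.c, Lt.d, Lt.ci, Lt.di, Lt.ci, Lt.fi] (hole_rel hinv hr (by decide +kernel)) h
  · exact dp_c_13_s hinv hr hH j u hu h
theorem dp_c_15_s (hinv : ∀ x, g (inv x) = (g x)⁻¹) (hr : ∀ r ∈ rels, (r.map g).prod = 1) (hH : ∀ r ∈ subs, (r.map g).prod ∈ H)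
    (j u : ℕ) (hu : u < M) (h : dp_c_15 j u = true) : Good (fa g) T MG M (cP g H) Lt.c u := by
  unfold dp_c_15 at h
  rcases brec_true h with h | h
  · exact dp_c_12_s hinv hr hH j u hu h
  · exact dp_c_14_s hinv hr hH j u hu h
theorem dp_c_16_s (hinv : ∀ x, g (inv x) = (g x)⁻¹) (hr : ∀ r ∈ rels, (r.map g).prod = 1) (hH : ∀ r ∈ subs, (r.map g).prod ∈ H)
    (j u : ℕ) (hu : u < M) (h : dp_c_16 j u = true) : Good (fa g) T MG M (cP g H) Lt.c u := by
  unfold dp_c_16 at h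
  rcases brec_true h with h | h
  · exact dp_c_11_s hinv hr hH j u hu h
  · exact dp_c_15_s hinv hr hH j u hu h
theorem dp_c_17_s (hinv : ∀ x, g (inv x) = (g x)⁻¹) (hr : ∀ r ∈ rels, (r.map g).prod = 1) (hH : ∀ r ∈ subs, (r.map g).prod ∈ H)
    (j u : ℕ) (hu : u < M) (h : dp_c_17 j u = true) : Good (fa g) T MG M (cP g H) Lt.c u := by
  unfold dp_c_17 at h
  rcases brec_true h with h | h
  · exact dp_c_7_s hinv hr hH j u hu h
  · exact dp_c_16_s hinv hr hH j u hu h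
theorem dp_c_18_s (hinv : ∀ x, g (inv x) = (g x)⁻¹) (hr : ∀ r ∈ rels, (r.map g).prod = 1) (hH : ∀ r ∈ subs, (r.map g).prod ∈ H)
    (j u : ℕ) (hu : u < M) (h : dp_c_18 j u = true) : Good (fa g) T MG M (cP g H) Lt.c u := by
  unfold dp_c_18 at h
  rcases brec_true h with h | h
  · exact lF_good (T := T) (x := Lt.c) (by decide) [Lt.di, Lt.ci, Lt.fi, Lt.ci, Lt.f, Lt.c, Lt.d] (hole_rel hinv hr (by decide +kernel)) h
  · exact lF_good (T := T) (x := Lt.c) (by decide) [Lt.d, Lt.c, Lt.di, Lt.ci, Lt.fi, Lt.ci, Lt.f] (hole_rel hinv hr (by decide +kernel)) h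
theorem dp_c_19_s (hinv : ∀ x, g (inv x) = (g x)⁻¹) (hr : ∀ r ∈ rels, (r.map g).prod = 1) (hH : ∀ r ∈ subs, (r.map g).prod ∈ H)
    (j u : ℕ) (hu : u < M) (h : dp_c_19 j u = true) : Good (fa g) T MG M (cP g H) Lt.c u := by
  unfold dp_c_19 at h
  rcases brec_true h with h | h
  · exact lS_good (T := T) (x := Lt.c) (by decide) hu [Lt.di, Lt.fi, Lt.c, Lt.fi, Lt.ci, Lt.f, Lt.d] (hole_rel hinv hr (by decide +kernel)) h
  · exact dp_c_18_s hinv hr hH j u hu h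
theorem dp_c_20_s (hinv : ∀ x, g (inv x) = (g x)⁻¹) (hr : ∀ r ∈ rels, (r.map g).prod = 1) (hH : ∀ r ∈ subs, (r.map g).prod ∈ H)
    (j u : ℕ) (hu : u < M) (h : dp_c_20 j u = true) : Good (fa g) T MG M (cP g H) Lt.c u := by
  unfold dp_c_20 at h
  rcases brec_true h with h | h
  · exact lS_good (T := T) (x := Lt.c) (by decide) hu [Lt.d, Lt.ci, Lt.di, Lt.ci, Lt.fi, Lt.c, Lt.f] (hole_rel hinv hr (by decide +kernel)) h
  · exact lF_good (T := T) (x := Lt.c) (by decide) [Lt.f, Lt.b, Lt.b, Lt.f, Lt.bi, Lt.bi, Lt.fi] (hole_rel hinv hr (by decide +kernel)) h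
theorem dp_c_21_s (hinv : ∀ x, g (inv x) = (g x)⁻¹) (hr : ∀ r ∈ rels, (r.map g).prod = 1) (hH : ∀ r ∈ subs, (r.map g).prod ∈ H)
    (j u : ℕ) (hu : u < M) (h : dp_c_21 j u = true) : Good (fa g) T MG M (cP g H) Lt.c u := by
  unfold dp_c_21 at h
  rcases brec_true h with h | h
  · exact lF_good (T := T) (x := Lt.c) (by decide) [Lt.d, Lt.ci, Lt.di, Lt.fi, Lt.d, Lt.c, Lt.di] (hole_rel hinv hr (by decide +kernel)) h
  · exact dp_c_20_s hinv hr hH j u hu h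
theorem dp_c_22_s (hinv : ∀ x, g (inv x) = (g x)⁻¹) (hr : ∀ r ∈ rels, (r.map g).prod = 1) (hH : ∀ r ∈ subs, (r.map g).prod ∈ H)
    (j u : ℕ) (hu : u < M) (h : dp_c_22 j u = true) : Good (fa g) T MG M (cP g H) Lt.c u := by
  unfold dp_c_22 at h
  rcases brec_true h with h | h
  · exact dp_c_19_s hinv hr hH j u hu h
  · exact dp_c_21_s hinv hr hH j u hu h
theorem dp_c_23_s (hinv : ∀ x, g (inv x) = (g x)⁻¹) (hr : ∀ r ∈ rels, (r.map g).prod = 1) (hH : ∀ r ∈ subs, (r.map g).prod ∈ H)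
    (j u : ℕ) (hu : u < M) (h : dp_c_23 j u = true) : Good (fa g) T MG M (cP g H) Lt.c u := by
  unfold dp_c_23 at h
  rcases brec_true h with h | h
  · exact lS_good (T := T) (x := Lt.c) (by decide) hu [Lt.f, Lt.ci, Lt.f, Lt.d, Lt.ci, Lt.di, Lt.fi] (hole_rel hinv hr (by decide +kernel)) h
  · exact lS_good (T := T) (x := Lt.c) (by decide) hu [Lt.d, Lt.b, Lt.f, Lt.bi, Lt.di, Lt.ci, Lt.d] (hole_rel hinv hr (by decide +kernel)) h
theorem dp_c_24_s (hinv : ∀ x, g (inv x) = (g x)⁻¹) (hr : ∀ r ∈ rels, (r.map g).prod = 1) (hH : ∀ r ∈ subs, (r.map g).prod ∈ H)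
    (j u : ℕ) (hu : u < M) (h : dp_c_24 j u = true) : Good (fa g) T MG M (cP g H) Lt.c u := by
  unfold dp_c_24 at h
  rcases brec_true h with h | h
  · exact lF_good (T := T) (x := Lt.c) (by decide) [Lt.di, Lt.fi, Lt.c, Lt.fi, Lt.ci, Lt.f, Lt.d] (hole_rel hinv hr (by decide +kernel)) h
  · exact dp_c_23_s hinv hr hH j u hu h
theorem dp_c_25_s (hinv : ∀ x, g (inv x) = (g x)⁻¹) (hr : ∀ r ∈ rels, (r.map g).prod = 1) (hH : ∀ r ∈ subs, (r.map g).prod ∈ H)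
    (j u : ℕ) (hu : u < M) (h : dp_c_25 j u = true) : Good (fa g) T MG M (cP g H) Lt.c u := by
  unfold dp_c_25 at h
  rcases brec_true h with h | h
  · exact lS_good (T := T) (x := Lt.c) (by decide) hu [Lt.d, Lt.c, Lt.di, Lt.ci, Lt.fi, Lt.ci, Lt.f] (hole_rel hinv hr (by decide +kernel)) h
  · exact lF_good (T := T) (x := Lt.c) (by decide) [Lt.d, Lt.ci, Lt.di, Lt.ci, Lt.fi, Lt.c, Lt.f] (hole_rel hinv hr (by decide +kernel)) h
theorem dp_c_26_s (hinv : ∀ x, g (inv x) = (g x)⁻¹) (hr : ∀ r ∈ rels, (r.map g).prod = 1) (hH : ∀ r ∈ subs, (r.map g).prod ∈ H)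
    (j u : ℕ) (hu : u < M) (h : dp_c_26 j u = true) : Good (fa g) T MG M (cP g H) Lt.c u := by
  unfold dp_c_26 at h
  rcases brec_true h with h | h
  · exact lS_good (T := T) (x := Lt.c) (by decide) hu [Lt.f, Lt.b, Lt.b, Lt.f, Lt.bi, Lt.bi, Lt.fi] (hole_rel hinv hr (by decide +kernel)) h
  · exact lS_good (T := T) (x := Lt.c) (by decide) hu [Lt.d, Lt.ci, Lt.di, Lt.fi, Lt.d, Lt.c, Lt.di] (hole_rel hinv hr (by decide +kernel)) h
theorem dp_c_27_s (hinv : ∀ x, g (inv x) = (g x)⁻¹) (hr : ∀ r ∈ rels, (r.map g).prod = 1) (hH : ∀ r ∈ subs, (r.map g).prod ∈ H)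
    (j u : ℕ) (hu : u < M) (h : dp_c_27 j u = true) : Good (fa g) T MG M (cP g H) Lt.c u := by
  unfold dp_c_27 at h
  rcases brec_true h with h | h
  · exact dp_c_25_s hinv hr hH j u hu h
  · exact dp_c_26_s hinv hr hH j u hu h
theorem dp_c_28_s (hinv : ∀ x, g (inv x) = (g x)⁻¹) (hr : ∀ r ∈ rels, (r.map g).prod = 1) (hH : ∀ r ∈ subs, (r.map g).prod ∈ H)
    (j u : ℕ) (hu : u < M) (h : dp_c_28 j u = true) : Good (fa g) T MG M (cP g H) Lt.c u := by
  unfold dp_c_28 at h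
  rcases brec_true h with h | h
  · exact dp_c_24_s hinv hr hH j u hu h
  · exact dp_c_27_s hinv hr hH j u hu h
theorem dp_c_29_s (hinv : ∀ x, g (inv x) = (g x)⁻¹) (hr : ∀ r ∈ rels, (r.map g).prod = 1) (hH : ∀ r ∈ subs, (r.map g).prod ∈ H)
    (j u : ℕ) (hu : u < M) (h : dp_c_29 j u = true) : Good (fa g) T MG M (cP g H) Lt.c u := by
  unfold dp_c_29 at h
  rcases brec_true h with h | h
  · exact dp_c_22_s hinv hr hH j u hu h
  · exact dp_c_28_s hinv hr hH j u hu h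
theorem dp_c_30_s (hinv : ∀ x, g (inv x) = (g x)⁻¹) (hr : ∀ r ∈ rels, (r.map g).prod = 1) (hH : ∀ r ∈ subs, (r.map g).prod ∈ H)
    (j u : ℕ) (hu : u < M) (h : dp_c_30 j u = true) : Good (fa g) T MG M (cP g H) Lt.c u := by
  unfold dp_c_30 at h
  rcases brec_true h with h | h
  · exact lF_good (T := T) (x := Lt.c) (by decide) [Lt.b, Lt.b, Lt.f, Lt.di, Lt.b, Lt.d, Lt.fi] (hole_rel hinv hr (by decide +kernel)) h
  · exact lS_good (T := T) (x := Lt.c) (by decide) hu [Lt.di, Lt.ci, Lt.fi, Lt.ci, Lt.f, Lt.c, Lt.d] (hole_rel hinv hr (by decide +kernel)) h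
theorem dp_c_31_s (hinv : ∀ x, g (inv x) = (g x)⁻¹) (hr : ∀ r ∈ rels, (r.map g).prod = 1) (hH : ∀ r ∈ subs, (r.map g).prod ∈ H)
    (j u : ℕ) (hu : u < M) (h : dp_c_31 j u = true) : Good (fa g) T MG M (cP g H) Lt.c u := by
  unfold dp_c_31 at h
  rcases brec_true h with h | h
  · exact lS_good (T := T) (x := Lt.c) (by decide) hu [Lt.fi, Lt.ci, Lt.f, Lt.d, Lt.c, Lt.di, Lt.fi] (hole_rel hinv hr (by decide +kernel)) h
  · exact lF_good (T := T) (x := Lt.c) (by decide) [Lt.b, Lt.c, Lt.b, Lt.b, Lt.di, Lt.f, Lt.d] (hole_rel hinv hr (by decide +kernel)) h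
theorem dp_c_32_s (hinv : ∀ x, g (inv x) = (g x)⁻¹) (hr : ∀ r ∈ rels, (r.map g).prod = 1) (hH : ∀ r ∈ subs, (r.map g).prod ∈ H)
    (j u : ℕ) (hu : u < M) (h : dp_c_32 j u = true) : Good (fa g) T MG M (cP g H) Lt.c u := by
  unfold dp_c_32 at h
  rcases brec_true h with h | h
  · exact dp_c_30_s hinv hr hH j u hu h
  · exact dp_c_31_s hinv hr hH j u hu h
theorem dp_c_33_s (hinv : ∀ x, g (inv x) = (g x)⁻¹) (hr : ∀ r ∈ rels, (r.map g).prod = 1) (hH : ∀ r ∈ subs, (r.map g).prod ∈ H)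
    (j u : ℕ) (hu : u < M) (h : dp_c_33 j u = true) : Good (fa g) T MG M (cP g H) Lt.c u := by
  unfold dp_c_33 at h
  rcases brec_true h with h | h
  · exact lF_good (T := T) (x := Lt.c) (by decide) [Lt.d, Lt.b, Lt.f, Lt.bi, Lt.di, Lt.ci, Lt.d] (hole_rel hinv hr (by decide +kernel)) h
  · exact lS_good (T := T) (x := Lt.c) (by decide) hu [Lt.fi, Lt.ci, Lt.e, Lt.b, Lt.fi, Lt.bi, Lt.ei] (hole_rel hinv hr (by decide +kernel)) h
theorem dp_c_34_s (hinv : ∀ x, g (inv x) = (g x)⁻¹) (hr : ∀ r ∈ rels, (r.map g).prod = 1) (hH : ∀ r ∈ subs, (r.map g).prod ∈ H)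
    (j u : ℕ) (hu : u < M) (h : dp_c_34 j u = true) : Good (fa g) T MG M (cP g H) Lt.c u := by
  unfold dp_c_34 at h
  rcases brec_true h with h | h
  · exact lF_good (T := T) (x := Lt.c) (by decide) [Lt.d, Lt.bi, Lt.d, Lt.b, Lt.di, Lt.ci, Lt.f] (hole_rel hinv hr (by decide +kernel)) h
  · exact lF_good (T := T) (x := Lt.c) (by decide) [Lt.fi, Lt.bi, Lt.ei, Lt.b, Lt.f, Lt.ci, Lt.ei] (hole_rel hinv hr (by decide +kernel)) h
theorem dp_c_35_s (hinv : ∀ x, g (inv x) = (g x)⁻¹) (hr : ∀ r ∈ rels, (r.map g).prod = 1) (hH : ∀ r ∈ subs, (r.map g).prod ∈ H)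
    (j u : ℕ) (hu : u < M) (h : dp_c_35 j u = true) : Good (fa g) T MG M (cP g H) Lt.c u := by
  unfold dp_c_35 at h
  rcases brec_true h with h | h
  · exact dp_c_33_s hinv hr hH j u hu h
  · exact dp_c_34_s hinv hr hH j u hu h
theorem dp_c_36_s (hinv : ∀ x, g (inv x) = (g x)⁻¹) (hr : ∀ r ∈ rels, (r.map g).prod = 1) (hH : ∀ r ∈ subs, (r.map g).prod ∈ H)
    (j u : ℕ) (hu : u < M) (h : dp_c_36 j u = true) : Good (fa g) T MG M (cP g H) Lt.c u := by
  unfold dp_c_36 at h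
  rcases brec_true h with h | h
  · exact dp_c_32_s hinv hr hH j u hu h
  · exact dp_c_35_s hinv hr hH j u hu h
theorem dp_c_37_s (hinv : ∀ x, g (inv x) = (g x)⁻¹) (hr : ∀ r ∈ rels, (r.map g).prod = 1) (hH : ∀ r ∈ subs, (r.map g).prod ∈ H)
    (j u : ℕ) (hu : u < M) (h : dp_c_37 j u = true) : Good (fa g) T MG M (cP g H) Lt.c u := by
  unfold dp_c_37 at h
  rcases brec_true h with h | h
  · exact lS_good (T := T) (x := Lt.c) (by decide) hu [Lt.d, Lt.b, Lt.fi, Lt.bi, Lt.di, Lt.ci, Lt.di] (hole_rel hinv hr (by decide +kernel)) h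
  · exact lS_good (T := T) (x := Lt.c) (by decide) hu [Lt.b, Lt.c, Lt.b, Lt.b, Lt.di, Lt.f, Lt.d] (hole_rel hinv hr (by decide +kernel)) h
theorem dp_c_38_s (hinv : ∀ x, g (inv x) = (g x)⁻¹) (hr : ∀ r ∈ rels, (r.map g).prod = 1) (hH : ∀ r ∈ subs, (r.map g).prod ∈ H)
    (j u : ℕ) (hu : u < M) (h : dp_c_38 j u = true) : Good (fa g) T MG M (cP g H) Lt.c u := by
  unfold dp_c_38 at h
  rcases brec_true h with h | h
  · exact lS_good (T := T) (x := Lt.c) (by decide) hu [Lt.fi, Lt.bi, Lt.ei, Lt.b, Lt.f, Lt.ci, Lt.ei] (hole_rel hinv hr (by decide +kernel)) h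
  · exact dp_c_37_s hinv hr hH j u hu h
theorem dp_c_39_s (hinv : ∀ x, g (inv x) = (g x)⁻¹) (hr : ∀ r ∈ rels, (r.map g).prod = 1) (hH : ∀ r ∈ subs, (r.map g).prod ∈ H)
    (j u : ℕ) (hu : u < M) (h : dp_c_39 j u = true) : Good (fa g) T MG M (cP g H) Lt.c u := by
  unfold dp_c_39 at h
  rcases brec_true h with h | h
  · exact lS_good (T := T) (x := Lt.c) (by decide) hu [Lt.d, Lt.bi, Lt.di, Lt.b, Lt.di, Lt.ci, Lt.fi] (hole_rel hinv hr (by decide +kernel)) h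
  · exact lS_good (T := T) (x := Lt.c) (by decide) hu [Lt.d, Lt.bi, Lt.d, Lt.b, Lt.di, Lt.ci, Lt.f] (hole_rel hinv hr (by decide +kernel)) h
theorem dp_c_40_s (hinv : ∀ x, g (inv x) = (g x)⁻¹) (hr : ∀ r ∈ rels, (r.map g).prod = 1) (hH : ∀ r ∈ subs, (r.map g).prod ∈ H)
    (j u : ℕ) (hu : u < M) (h : dp_c_40 j u = true) : Good (fa g) T MG M (cP g H) Lt.c u := by
  unfold dp_c_40 at h
  rcases brec_true h with h | h
  · exact lF_good (T := T) (x := Lt.c) (by decide) [Lt.d, Lt.b, Lt.fi, Lt.bi, Lt.di, Lt.ci, Lt.di] (hole_rel hinv hr (by decide +kernel)) h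
  · exact dp_c_39_s hinv hr hH j u hu h
theorem dp_c_41_s (hinv : ∀ x, g (inv x) = (g x)⁻¹) (hr : ∀ r ∈ rels, (r.map g).prod = 1) (hH : ∀ r ∈ subs, (r.map g).prod ∈ H)
    (j u : ℕ) (hu : u < M) (h : dp_c_41 j u = true) : Good (fa g) T MG M (cP g H) Lt.c u := by
  unfold dp_c_41 at h
  rcases brec_true h with h | h
  · exact dp_c_38_s hinv hr hH j u hu h
  · exact dp_c_40_s hinv hr hH j u hu h
theorem dp_c_42_s (hinv : ∀ x, g (inv x) = (g x)⁻¹) (hr : ∀ r ∈ rels, (r.map g).prod = 1) (hH : ∀ r ∈ subs, (r.map g).prod ∈ H)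
    (j u : ℕ) (hu : u < M) (h : dp_c_42 j u = true) : Good (fa g) T MG M (cP g H) Lt.c u := by
  unfold dp_c_42 at h
  rcases brec_true h with h | h
  · exact lF_good (T := T) (x := Lt.c) (by decide) [Lt.d, Lt.ci, Lt.b, Lt.fi, Lt.b, Lt.b, Lt.di] (hole_rel hinv hr (by decide +kernel)) h
  · exact lS_good (T := T) (x := Lt.c) (by decide) hu [Lt.d, Lt.ci, Lt.b, Lt.fi, Lt.b, Lt.b, Lt.di] (hole_rel hinv hr (by decide +kernel)) h
theorem dp_c_43_s (hinv : ∀ x, g (inv x) = (g x)⁻¹) (hr : ∀ r ∈ rels, (r.map g).prod = 1) (hH : ∀ r ∈ subs, (r.map g).prod ∈ H)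
    (j u : ℕ) (hu : u < M) (h : dp_c_43 j u = true) : Good (fa g) T MG M (cP g H) Lt.c u := by
  unfold dp_c_43 at h
  rcases brec_true h with h | h
  · exact lF_good (T := T) (x := Lt.c) (by decide) [Lt.d, Lt.bi, Lt.di, Lt.b, Lt.di, Lt.ci, Lt.fi] (hole_rel hinv hr (by decide +kernel)) h
  · exact dp_c_42_s hinv hr hH j u hu h
theorem dp_c_44_s (hinv : ∀ x, g (inv x) = (g x)⁻¹) (hr : ∀ r ∈ rels, (r.map g).prod = 1) (hH : ∀ r ∈ subs, (r.map g).prod ∈ H)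
    (j u : ℕ) (hu : u < M) (h : dp_c_44 j u = true) : Good (fa g) T MG M (cP g H) Lt.c u := by
  unfold dp_c_44 at h
  rcases brec_true h with h | h
  · exact lS_good (T := T) (x := Lt.c) (by decide) hu [Lt.di, Lt.ci, Lt.d, Lt.ci, Lt.di, Lt.f, Lt.d] (hole_rel hinv hr (by decide +kernel)) h
  · exact lF_good (T := T) (x := Lt.c) (by decide) [Lt.di, Lt.ci, Lt.d, Lt.ci, Lt.di, Lt.f, Lt.d] (hole_rel hinv hr (by decide +kernel)) h
theorem dp_c_45_s (hinv : ∀ x, g (inv x) = (g x)⁻¹) (hr : ∀ r ∈ rels, (r.map g).prod = 1) (hH : ∀ r ∈ subs, (r.map g).prod ∈ H)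
    (j u : ℕ) (hu : u < M) (h : dp_c_45 j u = true) : Good (fa g) T MG M (cP g H) Lt.c u := by
  unfold dp_c_45 at h
  rcases brec_true h with h | h
  · exact lF_good (T := T) (x := Lt.c) (by decide) [Lt.fi, Lt.ci, Lt.e, Lt.b, Lt.fi, Lt.bi, Lt.ei] (hole_rel hinv hr (by decide +kernel)) h
  · exact dp_c_44_s hinv hr hH j u hu h
theorem dp_c_46_s (hinv : ∀ x, g (inv x) = (g x)⁻¹) (hr : ∀ r ∈ rels, (r.map g).prod = 1) (hH : ∀ r ∈ subs, (r.map g).prod ∈ H)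
    (j u : ℕ) (hu : u < M) (h : dp_c_46 j u = true) : Good (fa g) T MG M (cP g H) Lt.c u := by
  unfold dp_c_46 at h
  rcases brec_true h with h | h
  · exact lS_good (T := T) (x := Lt.c) (by decide) hu [Lt.f, Lt.bi, Lt.ei, Lt.b, Lt.e, Lt.bi, Lt.e, Lt.di, Lt.bi] (hole_rel hinv hr (by decide +kernel)) h
  · exact lF_good (T := T) (x := Lt.c) (by decide) [Lt.f, Lt.bi, Lt.f, Lt.ci, Lt.f, Lt.bi, Lt.bi, Lt.bi] (hole_rel hinv hr (by decide +kernel)) h
theorem dp_c_47_s (hinv : ∀ x, g (inv x) = (g x)⁻¹) (hr : ∀ r ∈ rels, (r.map g).prod = 1) (hH : ∀ r ∈ subs, (r.map g).prod ∈ H)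
    (j u : ℕ) (hu : u < M) (h : dp_c_47 j u = true) : Good (fa g) T MG M (cP g H) Lt.c u := by
  unfold dp_c_47 at h
  rcases brec_true h with h | h
  · exact lF_good (T := T) (x := Lt.c) (by decide) [Lt.fi, Lt.b, Lt.fi, Lt.ci, Lt.b, Lt.b, Lt.b, Lt.fi] (hole_rel hinv hr (by decide +kernel)) h
  · exact dp_c_46_s hinv hr hH j u hu h
theorem dp_c_48_s (hinv : ∀ x, g (inv x) = (g x)⁻¹) (hr : ∀ r ∈ rels, (r.map g).prod = 1) (hH : ∀ r ∈ subs, (r.map g).prod ∈ H)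
    (j u : ℕ) (hu : u < M) (h : dp_c_48 j u = true) : Good (fa g) T MG M (cP g H) Lt.c u := by
  unfold dp_c_48 at h
  rcases brec_true h with h | h
  · exact lS_good (T := T) (x := Lt.c) (by decide) hu [Lt.f, Lt.bi, Lt.f, Lt.ci, Lt.f, Lt.bi, Lt.bi, Lt.bi] (hole_rel hinv hr (by decide +kernel)) h
  · exact lS_good (T := T) (x := Lt.c) (by decide) hu [Lt.ei, Lt.b, Lt.ei, Lt.bi, Lt.e, Lt.c, Lt.f, Lt.b, Lt.di] (hole_rel hinv hr (by decide +kernel)) h
theorem dp_c_49_s (hinv : ∀ x, g (inv x) = (g x)⁻¹) (hr : ∀ r ∈ rels, (r.map g).prod = 1) (hH : ∀ r ∈ subs, (r.map g).prod ∈ H)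
    (j u : ℕ) (hu : u < M) (h : dp_c_49 j u = true) : Good (fa g) T MG M (cP g H) Lt.c u := by
  unfold dp_c_49 at h
  rcases brec_true h with h | h
  · exact lS_good (T := T) (x := Lt.c) (by decide) hu [Lt.fi, Lt.b, Lt.fi, Lt.ci, Lt.b, Lt.b, Lt.b, Lt.fi] (hole_rel hinv hr (by decide +kernel)) h
  · exact lH_good (T := T) (x := Lt.c) (by decide) [] [] (by rw [show cP g H 0 = _ from cc_zero]; exact sub_rel hinv (hH _ (by decide))) h
theorem dp_c_50_s (hinv : ∀ x, g (inv x) = (g x)⁻¹) (hr : ∀ r ∈ rels, (r.map g).prod = 1) (hH : ∀ r ∈ subs, (r.map g).prod ∈ H)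
    (j u : ℕ) (hu : u < M) (h : dp_c_50 j u = true) : Good (fa g) T MG M (cP g H) Lt.c u := by
  unfold dp_c_50 at h
  rcases brec_true h with h | h
  · exact lS_good (T := T) (x := Lt.c) (by decide) hu [Lt.d, Lt.bi, Lt.fi, Lt.c, Lt.f, Lt.d, Lt.bi, Lt.bi] (hole_rel hinv hr (by decide +kernel)) h
  · exact lF_good (T := T) (x := Lt.c) (by decide) [Lt.ei, Lt.b, Lt.ei, Lt.bi, Lt.e, Lt.c, Lt.f, Lt.b, Lt.di] (hole_rel hinv hr (by decide +kernel)) h
theorem dp_c_51_s (hinv : ∀ x, g (inv x) = (g x)⁻¹) (hr : ∀ r ∈ rels, (r.map g).prod = 1) (hH : ∀ r ∈ subs, (r.map g).prod ∈ H)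
    (j u : ℕ) (hu : u < M) (h : dp_c_51 j u = true) : Good (fa g) T MG M (cP g H) Lt.c u := by
  unfold dp_c_51 at h
  rcases brec_true h with h | h
  · exact lF_good (T := T) (x := Lt.c) (by decide) [Lt.b, Lt.c, Lt.f, Lt.ei, Lt.b, Lt.ei, Lt.bi, Lt.e, Lt.d] (hole_rel hinv hr (by decide +kernel)) h
  · exact dp_c_50_s hinv hr hH j u hu h
theorem dp_c_52_s (hinv : ∀ x, g (inv x) = (g x)⁻¹) (hr : ∀ r ∈ rels, (r.map g).prod = 1) (hH : ∀ r ∈ subs, (r.map g).prod ∈ H)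
    (j u : ℕ) (hu : u < M) (h : dp_c_52 j u = true) : Good (fa g) T MG M (cP g H) Lt.c u := by
  unfold dp_c_52 at h
  rcases brec_true h with h | h
  · exact dp_c_49_s hinv hr hH j u hu h
  · exact dp_c_51_s hinv hr hH j u hu h
theorem dp_c_53_s (hinv : ∀ x, g (inv x) = (g x)⁻¹) (hr : ∀ r ∈ rels, (r.map g).prod = 1) (hH : ∀ r ∈ subs, (r.map g).prod ∈ H)
    (j u : ℕ) (hu : u < M) (h : dp_c_53 j u = true) : Good (fa g) T MG M (cP g H) Lt.c u := by
  unfold dp_c_53 at h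
  rcases brec_true h with h | h
  · exact dp_c_48_s hinv hr hH j u hu h
  · exact dp_c_52_s hinv hr hH j u hu h
theorem dp_c_54_s (hinv : ∀ x, g (inv x) = (g x)⁻¹) (hr : ∀ r ∈ rels, (r.map g).prod = 1) (hH : ∀ r ∈ subs, (r.map g).prod ∈ H)
    (j u : ℕ) (hu : u < M) (h : dp_c_54 j u = true) : Good (fa g) T MG M (cP g H) Lt.c u := by
  unfold dp_c_54 at h
  rcases brec_true h with h | h
  · exact dp_c_47_s hinv hr hH j u hu h
  · exact dp_c_53_s hinv hr hH j u hu h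
theorem dp_c_55_s (hinv : ∀ x, g (inv x) = (g x)⁻¹) (hr : ∀ r ∈ rels, (r.map g).prod = 1) (hH : ∀ r ∈ subs, (r.map g).prod ∈ H)
    (j u : ℕ) (hu : u < M) (h : dp_c_55 j u = true) : Good (fa g) T MG M (cP g H) Lt.c u := by
  unfold dp_c_55 at h
  rcases brec_true h with h | h
  · exact dp_c_45_s hinv hr hH j u hu h
  · exact dp_c_54_s hinv hr hH j u hu h
theorem dp_c_56_s (hinv : ∀ x, g (inv x) = (g x)⁻¹) (hr : ∀ r ∈ rels, (r.map g).prod = 1) (hH : ∀ r ∈ subs, (r.map g).prod ∈ H)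
    (j u : ℕ) (hu : u < M) (h : dp_c_56 j u = true) : Good (fa g) T MG M (cP g H) Lt.c u := by
  unfold dp_c_56 at h
  rcases brec_true h with h | h
  · exact dp_c_43_s hinv hr hH j u hu h
  · exact dp_c_55_s hinv hr hH j u hu h
theorem dp_c_57_s (hinv : ∀ x, g (inv x) = (g x)⁻¹) (hr : ∀ r ∈ rels, (r.map g).prod = 1) (hH : ∀ r ∈ subs, (r.map g).prod ∈ H)
    (j u : ℕ) (hu : u < M) (h : dp_c_57 j u = true) : Good (fa g) T MG M (cP g H) Lt.c u := by
  unfold dp_c_57 at h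
  rcases brec_true h with h | h
  · exact dp_c_41_s hinv hr hH j u hu h
  · exact dp_c_56_s hinv hr hH j u hu h
theorem dp_c_58_s (hinv : ∀ x, g (inv x) = (g x)⁻¹) (hr : ∀ r ∈ rels, (r.map g).prod = 1) (hH : ∀ r ∈ subs, (r.map g).prod ∈ H)
    (j u : ℕ) (hu : u < M) (h : dp_c_58 j u = true) : Good (fa g) T MG M (cP g H) Lt.c u := by
  unfold dp_c_58 at h
  rcases brec_true h with h | h
  · exact dp_c_36_s hinv hr hH j u hu h
  · exact dp_c_57_s hinv hr hH j u hu h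
theorem dp_c_59_s (hinv : ∀ x, g (inv x) = (g x)⁻¹) (hr : ∀ r ∈ rels, (r.map g).prod = 1) (hH : ∀ r ∈ subs, (r.map g).prod ∈ H)
    (j u : ℕ) (hu : u < M) (h : dp_c_59 j u = true) : Good (fa g) T MG M (cP g H) Lt.c u := by
  unfold dp_c_59 at h
  rcases brec_true h with h | h
  · exact dp_c_29_s hinv hr hH j u hu h
  · exact dp_c_58_s hinv hr hH j u hu h
theorem dp_c_60_s (hinv : ∀ x, g (inv x) = (g x)⁻¹) (hr : ∀ r ∈ rels, (r.map g).prod = 1) (hH : ∀ r ∈ subs, (r.map g).prod ∈ H)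
    (j u : ℕ) (hu : u < M) (h : dp_c_60 j u = true) : Good (fa g) T MG M (cP g H) Lt.c u := by
  unfold dp_c_60 at h
  rcases brec_true h with h | h
  · exact dp_c_17_s hinv hr hH j u hu h
  · exact dp_c_59_s hinv hr hH j u hu h
theorem snd_c (hinv : ∀ x, g (inv x) = (g x)⁻¹) (hr : ∀ r ∈ rels, (r.map g).prod = 1) (hH : ∀ r ∈ subs, (r.map g).prod ∈ H)
    (j u : ℕ) (hu : u < M) (h : disp_c j u = true) : Good (fa g) T MG M (cP g H) Lt.c u := by
  unfold disp_c at h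
  rcases brec_true h with h | h
  · rcases brec_true h with h | h
    · exact lF1_good (T := T) (x := Lt.c) (by decide) .ci (hole_rel hinv hr (by decide +kernel)) h
    · exact lDef_good (T := T) (x := Lt.c) (by decide) rfl h
  · rcases brec_true h with h | h
    · rcases brec_true h with h | h
      · exact lPar_good (T := T) (x := Lt.c) (x' := Lt.ci) (by decide) rfl (inv_rel hinv _ _ rfl) h
      · exact lS_good (T := T) (x := Lt.c) (by decide) hu [Lt.ci] (hole_rel hinv hr (by decide +kernel)) h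
    · exact dp_c_60_s hinv hr hH j u hu h
theorem snc_c (hinv : ∀ x, g (inv x) = (g x)⁻¹) (hr : ∀ r ∈ rels, (r.map g).prod = 1) (hH : ∀ r ∈ subs, (r.map g).prod ∈ H)
    (j u : ℕ) (hu : u < M) (h : chk_c j u = true) : (T Lt.c u < A ∧ Good (fa g) T MG M (cP g H) Lt.c u) ∨ (A ≤ T Lt.c u ∧ MG u < A) := by
  unfold chk_c at h
  cases hb : Nat.ble A (T_c u) with
  | true => rw [hb] at h; exact Or.inr ⟨le_of_ble hb, le_of_ble h⟩
  | false => rw [hb] at h; exact Or.inl ⟨lt_of_ble_false hb, snd_c hinv hr hH j u hu h⟩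
theorem dp_ci_0_s (hinv : ∀ x, g (inv x) = (g x)⁻¹) (hr : ∀ r ∈ rels, (r.map g).prod = 1) (hH : ∀ r ∈ subs, (r.map g).prod ∈ H)
    (j u : ℕ) (hu : u < M) (h : dp_ci_0 j u = true) : Good (fa g) T MG M (cP g H) Lt.ci u := by
  unfold dp_ci_0 at h
  rcases brec_true h with h | h
  · exact lS_good (T := T) (x := Lt.ci) (by decide) hu [Lt.b, Lt.fi, Lt.b, Lt.b, Lt.di, Lt.c, Lt.d] (hole_rel hinv hr (by decide +kernel)) h
  · exact lS_good (T := T) (x := Lt.ci) (by decide) hu [Lt.f, Lt.bi, Lt.bi, Lt.f, Lt.d, Lt.c, Lt.bi] (hole_rel hinv hr (by decide +kernel)) h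
theorem dp_ci_1_s (hinv : ∀ x, g (inv x) = (g x)⁻¹) (hr : ∀ r ∈ rels, (r.map g).prod = 1) (hH : ∀ r ∈ subs, (r.map g).prod ∈ H)
    (j u : ℕ) (hu : u < M) (h : dp_ci_1 j u = true) : Good (fa g) T MG M (cP g H) Lt.ci u := by
  unfold dp_ci_1 at h
  rcases brec_true h with h | h
  · exact lF_good (T := T) (x := Lt.ci) (by decide) [Lt.b, Lt.fi, Lt.b, Lt.b, Lt.di, Lt.c, Lt.d] (hole_rel hinv hr (by decide +kernel)) h
  · exact lS_good (T := T) (x := Lt.ci) (by decide) hu [Lt.ei, Lt.c, Lt.fi, Lt.bi, Lt.ei, Lt.b, Lt.f] (hole_rel hinv hr (by decide +kernel)) h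
theorem dp_ci_2_s (hinv : ∀ x, g (inv x) = (g x)⁻¹) (hr : ∀ r ∈ rels, (r.map g).prod = 1) (hH : ∀ r ∈ subs, (r.map g).prod ∈ H)
    (j u : ℕ) (hu : u < M) (h : dp_ci_2 j u = true) : Good (fa g) T MG M (cP g H) Lt.ci u := by
  unfold dp_ci_2 at h
  rcases brec_true h with h | h
  · exact dp_ci_0_s hinv hr hH j u hu h
  · exact dp_ci_1_s hinv hr hH j u hu h
theorem dp_ci_3_s (hinv : ∀ x, g (inv x) = (g x)⁻¹) (hr : ∀ r ∈ rels, (r.map g).prod = 1) (hH : ∀ r ∈ subs, (r.map g).prod ∈ H)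
    (j u : ℕ) (hu : u < M) (h : dp_ci_3 j u = true) : Good (fa g) T MG M (cP g H) Lt.ci u := by
  unfold dp_ci_3 at h
  rcases brec_true h with h | h
  · exact lF_good (T := T) (x := Lt.ci) (by decide) [Lt.bi, Lt.ci, Lt.di, Lt.fi, Lt.d, Lt.bi, Lt.bi] (hole_rel hinv hr (by decide +kernel)) h
  · exact lS_good (T := T) (x := Lt.ci) (by decide) hu [Lt.bi, Lt.ci, Lt.di, Lt.fi, Lt.d, Lt.bi, Lt.bi] (hole_rel hinv hr (by decide +kernel)) h
theorem dp_ci_4_s (hinv : ∀ x, g (inv x) = (g x)⁻¹) (hr : ∀ r ∈ rels, (r.map g).prod = 1) (hH : ∀ r ∈ subs, (r.map g).prod ∈ H)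
    (j u : ℕ) (hu : u < M) (h : dp_ci_4 j u = true) : Good (fa g) T MG M (cP g H) Lt.ci u := by
  unfold dp_ci_4 at h
  rcases brec_true h with h | h
  · exact lS_good (T := T) (x := Lt.ci) (by decide) hu [Lt.e, Lt.b, Lt.fi, Lt.bi, Lt.ei, Lt.c, Lt.fi] (hole_rel hinv hr (by decide +kernel)) h
  · exact lS_good (T := T) (x := Lt.ci) (by decide) hu [Lt.di, Lt.fi, Lt.c, Lt.f, Lt.ci, Lt.f, Lt.d] (hole_rel hinv hr (by decide +kernel)) h
theorem dp_ci_5_s (hinv : ∀ x, g (inv x) = (g x)⁻¹) (hr : ∀ r ∈ rels, (r.map g).prod = 1) (hH : ∀ r ∈ subs, (r.map g).prod ∈ H)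
    (j u : ℕ) (hu : u < M) (h : dp_ci_5 j u = true) : Good (fa g) T MG M (cP g H) Lt.ci u := by
  unfold dp_ci_5 at h
  rcases brec_true h with h | h
  · exact lF_good (T := T) (x := Lt.ci) (by decide) [Lt.f, Lt.bi, Lt.bi, Lt.f, Lt.d, Lt.c, Lt.bi] (hole_rel hinv hr (by decide +kernel)) h
  · exact dp_ci_4_s hinv hr hH j u hu h
theorem dp_ci_6_s (hinv : ∀ x, g (inv x) = (g x)⁻¹) (hr : ∀ r ∈ rels, (r.map g).prod = 1) (hH : ∀ r ∈ subs, (r.map g).prod ∈ H)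
    (j u : ℕ) (hu : u < M) (h : dp_ci_6 j u = true) : Good (fa g) T MG M (cP g H) Lt.ci u := by
  unfold dp_ci_6 at h
  rcases brec_true h with h | h
  · exact dp_ci_3_s hinv hr hH j u hu h
  · exact dp_ci_5_s hinv hr hH j u hu h
theorem dp_ci_7_s (hinv : ∀ x, g (inv x) = (g x)⁻¹) (hr : ∀ r ∈ rels, (r.map g).prod = 1) (hH : ∀ r ∈ subs, (r.map g).prod ∈ H)
    (j u : ℕ) (hu : u < M) (h : dp_ci_7 j u = true) : Good (fa g) T MG M (cP g H) Lt.ci u := by
  unfold dp_ci_7 at h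
  rcases brec_true h with h | h
  · exact dp_ci_2_s hinv hr hH j u hu h
  · exact dp_ci_6_s hinv hr hH j u hu h
theorem dp_ci_8_s (hinv : ∀ x, g (inv x) = (g x)⁻¹) (hr : ∀ r ∈ rels, (r.map g).prod = 1) (hH : ∀ r ∈ subs, (r.map g).prod ∈ H)
    (j u : ℕ) (hu : u < M) (h : dp_ci_8 j u = true) : Good (fa g) T MG M (cP g H) Lt.ci u := by
  unfold dp_ci_8 at h
  rcases brec_true h with h | h
  · exact lF_good (T := T) (x := Lt.ci) (by decide) [Lt.fi, Lt.ci, Lt.f, Lt.c, Lt.d, Lt.c, Lt.di] (hole_rel hinv hr (by decide +kernel)) h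
  · exact lF_good (T := T) (x := Lt.ci) (by decide) [Lt.f, Lt.d, Lt.c, Lt.di, Lt.fi, Lt.c, Lt.fi] (hole_rel hinv hr (by decide +kernel)) h
theorem dp_ci_9_s (hinv : ∀ x, g (inv x) = (g x)⁻¹) (hr : ∀ r ∈ rels, (r.map g).prod = 1) (hH : ∀ r ∈ subs, (r.map g).prod ∈ H)
    (j u : ℕ) (hu : u < M) (h : dp_ci_9 j u = true) : Good (fa g) T MG M (cP g H) Lt.ci u := by
  unfold dp_ci_9 at h
  rcases brec_true h with h | h
  · exact lF_good (T := T) (x := Lt.ci) (by decide) [Lt.di, Lt.fi, Lt.c, Lt.f, Lt.ci, Lt.f, Lt.d] (hole_rel hinv hr (by decide +kernel)) h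
  · exact lF_good (T := T) (x := Lt.ci) (by decide) [Lt.f, Lt.b, Lt.b, Lt.fi, Lt.bi, Lt.bi, Lt.fi] (hole_rel hinv hr (by decide +kernel)) h
theorem dp_ci_10_s (hinv : ∀ x, g (inv x) = (g x)⁻¹) (hr : ∀ r ∈ rels, (r.map g).prod = 1) (hH : ∀ r ∈ subs, (r.map g).prod ∈ H)
    (j u : ℕ) (hu : u < M) (h : dp_ci_10 j u = true) : Good (fa g) T MG M (cP g H) Lt.ci u := by
  unfold dp_ci_10 at h
  rcases brec_true h with h | h
  · exact lF_good (T := T) (x := Lt.ci) (by decide) [Lt.di, Lt.f, Lt.d, Lt.c, Lt.di, Lt.ci, Lt.d] (hole_rel hinv hr (by decide +kernel)) h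
  · exact dp_ci_9_s hinv hr hH j u hu h
theorem dp_ci_11_s (hinv : ∀ x, g (inv x) = (g x)⁻¹) (hr : ∀ r ∈ rels, (r.map g).prod = 1) (hH : ∀ r ∈ subs, (r.map g).prod ∈ H)
    (j u : ℕ) (hu : u < M) (h : dp_ci_11 j u = true) : Good (fa g) T MG M (cP g H) Lt.ci u := by
  unfold dp_ci_11 at h
  rcases brec_true h with h | h
  · exact dp_ci_8_s hinv hr hH j u hu h
  · exact dp_ci_10_s hinv hr hH j u hu h
theorem dp_ci_12_s (hinv : ∀ x, g (inv x) = (g x)⁻¹) (hr : ∀ r ∈ rels, (r.map g).prod = 1) (hH : ∀ r ∈ subs, (r.map g).prod ∈ H)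
    (j u : ℕ) (hu : u < M) (h : dp_ci_12 j u = true) : Good (fa g) T MG M (cP g H) Lt.ci u := by
  unfold dp_ci_12 at h
  rcases brec_true h with h | h
  · exact lS_good (T := T) (x := Lt.ci) (by decide) hu [Lt.di, Lt.fi, Lt.b, Lt.b, Lt.fi, Lt.c, Lt.b] (hole_rel hinv hr (by decide +kernel)) h
  · exact lS_good (T := T) (x := Lt.ci) (by decide) hu [Lt.e, Lt.c, Lt.fi, Lt.bi, Lt.e, Lt.b, Lt.f] (hole_rel hinv hr (by decide +kernel)) h
theorem dp_ci_13_s (hinv : ∀ x, g (inv x) = (g x)⁻¹) (hr : ∀ r ∈ rels, (r.map g).prod = 1) (hH : ∀ r ∈ subs, (r.map g).prod ∈ H)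
    (j u : ℕ) (hu : u < M) (h : dp_ci_13 j u = true) : Good (fa g) T MG M (cP g H) Lt.ci u := by
  unfold dp_ci_13 at h
  rcases brec_true h with h | h
  · exact lF_good (T := T) (x := Lt.ci) (by decide) [Lt.e, Lt.b, Lt.fi, Lt.bi, Lt.ei, Lt.c, Lt.fi] (hole_rel hinv hr (by decide +kernel)) h
  · exact dp_ci_12_s hinv hr hH j u hu h
theorem dp_ci_14_s (hinv : ∀ x, g (inv x) = (g x)⁻¹) (hr : ∀ r ∈ rels, (r.map g).prod = 1) (hH : ∀ r ∈ subs, (r.map g).prod ∈ H)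
    (j u : ℕ) (hu : u < M) (h : dp_ci_14 j u = true) : Good (fa g) T MG M (cP g H) Lt.ci u := by
  unfold dp_ci_14 at h
  rcases brec_true h with h | h
  · exact lF_good (T := T) (x := Lt.ci) (by decide) [Lt.di, Lt.fi, Lt.b, Lt.b, Lt.fi, Lt.c, Lt.b] (hole_rel hinv hr (by decide +kernel)) h
  · exact lF_good (T := T) (x := Lt.ci) (by decide) [Lt.f, Lt.d, Lt.ci, Lt.di, Lt.fi, Lt.c, Lt.f] (hole_rel hinv hr (by decide +kernel)) h
theorem dp_ci_15_s (hinv : ∀ x, g (inv x) = (g x)⁻¹) (hr : ∀ r ∈ rels, (r.map g).prod = 1) (hH : ∀ r ∈ subs, (r.map g).prod ∈ H)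
    (j u : ℕ) (hu : u < M) (h : dp_ci_15 j u = true) : Good (fa g) T MG M (cP g H) Lt.ci u := by
  unfold dp_ci_15 at h
  rcases brec_true h with h | h
  · exact lS_good (T := T) (x := Lt.ci) (by decide) hu [Lt.f, Lt.di, Lt.bi, Lt.d, Lt.fi, Lt.bi, Lt.bi] (hole_rel hinv hr (by decide +kernel)) h
  · exact dp_ci_14_s hinv hr hH j u hu h
theorem dp_ci_16_s (hinv : ∀ x, g (inv x) = (g x)⁻¹) (hr : ∀ r ∈ rels, (r.map g).prod = 1) (hH : ∀ r ∈ subs, (r.map g).prod ∈ H)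
    (j u : ℕ) (hu : u < M) (h : dp_ci_16 j u = true) : Good (fa g) T MG M (cP g H) Lt.ci u := by
  unfold dp_ci_16 at h
  rcases brec_true h with h | h
  · exact dp_ci_13_s hinv hr hH j u hu h
  · exact dp_ci_15_s hinv hr hH j u hu h
theorem dp_ci_17_s (hinv : ∀ x, g (inv x) = (g x)⁻¹) (hr : ∀ r ∈ rels, (r.map g).prod = 1) (hH : ∀ r ∈ subs, (r.map g).prod ∈ H)
    (j u : ℕ) (hu : u < M) (h : dp_ci_17 j u = true) : Good (fa g) T MG M (cP g H) Lt.ci u := by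
  unfold dp_ci_17 at h
  rcases brec_true h with h | h
  · exact dp_ci_11_s hinv hr hH j u hu h
  · exact dp_ci_16_s hinv hr hH j u hu h
theorem dp_ci_18_s (hinv : ∀ x, g (inv x) = (g x)⁻¹) (hr : ∀ r ∈ rels, (r.map g).prod = 1) (hH : ∀ r ∈ subs, (r.map g).prod ∈ H)
    (j u : ℕ) (hu : u < M) (h : dp_ci_18 j u = true) : Good (fa g) T MG M (cP g H) Lt.ci u := by
  unfold dp_ci_18 at h
  rcases brec_true h with h | h
  · exact dp_ci_7_s hinv hr hH j u hu h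
  · exact dp_ci_17_s hinv hr hH j u hu h
theorem dp_ci_19_s (hinv : ∀ x, g (inv x) = (g x)⁻¹) (hr : ∀ r ∈ rels, (r.map g).prod = 1) (hH : ∀ r ∈ subs, (r.map g).prod ∈ H)
    (j u : ℕ) (hu : u < M) (h : dp_ci_19 j u = true) : Good (fa g) T MG M (cP g H) Lt.ci u := by
  unfold dp_ci_19 at h
  rcases brec_true h with h | h
  · exact lS_good (T := T) (x := Lt.ci) (by decide) hu [Lt.di, Lt.f, Lt.d, Lt.c, Lt.di, Lt.ci, Lt.d] (hole_rel hinv hr (by decide +kernel)) h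
  · exact lS_good (T := T) (x := Lt.ci) (by decide) hu [Lt.f, Lt.d, Lt.c, Lt.di, Lt.fi, Lt.c, Lt.fi] (hole_rel hinv hr (by decide +kernel)) h
theorem dp_ci_20_s (hinv : ∀ x, g (inv x) = (g x)⁻¹) (hr : ∀ r ∈ rels, (r.map g).prod = 1) (hH : ∀ r ∈ subs, (r.map g).prod ∈ H)
    (j u : ℕ) (hu : u < M) (h : dp_ci_20 j u = true) : Good (fa g) T MG M (cP g H) Lt.ci u := by
  unfold dp_ci_20 at h
  rcases brec_true h with h | h
  · exact lS_good (T := T) (x := Lt.ci) (by decide) hu [Lt.fi, Lt.ci, Lt.f, Lt.c, Lt.d, Lt.c, Lt.di] (hole_rel hinv hr (by decide +kernel)) h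
  · exact dp_ci_19_s hinv hr hH j u hu h
theorem dp_ci_21_s (hinv : ∀ x, g (inv x) = (g x)⁻¹) (hr : ∀ r ∈ rels, (r.map g).prod = 1) (hH : ∀ r ∈ subs, (r.map g).prod ∈ H)
    (j u : ℕ) (hu : u < M) (h : dp_ci_21 j u = true) : Good (fa g) T MG M (cP g H) Lt.ci u := by
  unfold dp_ci_21 at h
  rcases brec_true h with h | h
  · exact lS_good (T := T) (x := Lt.ci) (by decide) hu [Lt.f, Lt.b, Lt.b, Lt.fi, Lt.bi, Lt.bi, Lt.fi] (hole_rel hinv hr (by decide +kernel)) h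
  · exact lS_good (T := T) (x := Lt.ci) (by decide) hu [Lt.f, Lt.d, Lt.ci, Lt.di, Lt.fi, Lt.c, Lt.f] (hole_rel hinv hr (by decide +kernel)) h
theorem dp_ci_22_s (hinv : ∀ x, g (inv x) = (g x)⁻¹) (hr : ∀ r ∈ rels, (r.map g).prod = 1) (hH : ∀ r ∈ subs, (r.map g).prod ∈ H)
    (j u : ℕ) (hu : u < M) (h : dp_ci_22 j u = true) : Good (fa g) T MG M (cP g H) Lt.ci u := by
  unfold dp_ci_22 at h
  rcases brec_true h with h | h
  · exact lF_good (T := T) (x := Lt.ci) (by decide) [Lt.f, Lt.c, Lt.d, Lt.c, Lt.di, Lt.ci, Lt.fi] (hole_rel hinv hr (by decide +kernel)) h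
  · exact lF_good (T := T) (x := Lt.ci) (by decide) [Lt.di, Lt.c, Lt.d, Lt.b, Lt.fi, Lt.bi, Lt.di] (hole_rel hinv hr (by decide +kernel)) h
theorem dp_ci_23_s (hinv : ∀ x, g (inv x) = (g x)⁻¹) (hr : ∀ r ∈ rels, (r.map g).prod = 1) (hH : ∀ r ∈ subs, (r.map g).prod ∈ H)
    (j u : ℕ) (hu : u < M) (h : dp_ci_23 j u = true) : Good (fa g) T MG M (cP g H) Lt.ci u := by
  unfold dp_ci_23 at h
  rcases brec_true h with h | h
  · exact dp_ci_21_s hinv hr hH j u hu h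
  · exact dp_ci_22_s hinv hr hH j u hu h
theorem dp_ci_24_s (hinv : ∀ x, g (inv x) = (g x)⁻¹) (hr : ∀ r ∈ rels, (r.map g).prod = 1) (hH : ∀ r ∈ subs, (r.map g).prod ∈ H)
    (j u : ℕ) (hu : u < M) (h : dp_ci_24 j u = true) : Good (fa g) T MG M (cP g H) Lt.ci u := by
  unfold dp_ci_24 at h
  rcases brec_true h with h | h
  · exact dp_ci_20_s hinv hr hH j u hu h
  · exact dp_ci_23_s hinv hr hH j u hu h
theorem dp_ci_25_s (hinv : ∀ x, g (inv x) = (g x)⁻¹) (hr : ∀ r ∈ rels, (r.map g).prod = 1) (hH : ∀ r ∈ subs, (r.map g).prod ∈ H)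
    (j u : ℕ) (hu : u < M) (h : dp_ci_25 j u = true) : Good (fa g) T MG M (cP g H) Lt.ci u := by
  unfold dp_ci_25 at h
  rcases brec_true h with h | h
  · exact lF_good (T := T) (x := Lt.ci) (by decide) [Lt.fi, Lt.c, Lt.f, Lt.c, Lt.d, Lt.ci, Lt.di] (hole_rel hinv hr (by decide +kernel)) h
  · exact lF_good (T := T) (x := Lt.ci) (by decide) [Lt.d, Lt.bi, Lt.bi, Lt.f, Lt.bi, Lt.c, Lt.di] (hole_rel hinv hr (by decide +kernel)) h
theorem dp_ci_26_s (hinv : ∀ x, g (inv x) = (g x)⁻¹) (hr : ∀ r ∈ rels, (r.map g).prod = 1) (hH : ∀ r ∈ subs, (r.map g).prod ∈ H)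
    (j u : ℕ) (hu : u < M) (h : dp_ci_26 j u = true) : Good (fa g) T MG M (cP g H) Lt.ci u := by
  unfold dp_ci_26 at h
  rcases brec_true h with h | h
  · exact lF_good (T := T) (x := Lt.ci) (by decide) [Lt.ei, Lt.c, Lt.fi, Lt.bi, Lt.ei, Lt.b, Lt.f] (hole_rel hinv hr (by decide +kernel)) h
  · exact dp_ci_25_s hinv hr hH j u hu h
theorem dp_ci_27_s (hinv : ∀ x, g (inv x) = (g x)⁻¹) (hr : ∀ r ∈ rels, (r.map g).prod = 1) (hH : ∀ r ∈ subs, (r.map g).prod ∈ H)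
    (j u : ℕ) (hu : u < M) (h : dp_ci_27 j u = true) : Good (fa g) T MG M (cP g H) Lt.ci u := by
  unfold dp_ci_27 at h
  rcases brec_true h with h | h
  · exact lS_good (T := T) (x := Lt.ci) (by decide) hu [Lt.fi, Lt.c, Lt.f, Lt.c, Lt.d, Lt.ci, Lt.di] (hole_rel hinv hr (by decide +kernel)) h
  · exact lF_good (T := T) (x := Lt.ci) (by decide) [Lt.di, Lt.fi, Lt.d, Lt.bi, Lt.bi, Lt.ci, Lt.bi] (hole_rel hinv hr (by decide +kernel)) h
theorem dp_ci_28_s (hinv : ∀ x, g (inv x) = (g x)⁻¹) (hr : ∀ r ∈ rels, (r.map g).prod = 1) (hH : ∀ r ∈ subs, (r.map g).prod ∈ H)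
    (j u : ℕ) (hu : u < M) (h : dp_ci_28 j u = true) : Good (fa g) T MG M (cP g H) Lt.ci u := by
  unfold dp_ci_28 at h
  rcases brec_true h with h | h
  · exact lF_good (T := T) (x := Lt.ci) (by decide) [Lt.f, Lt.di, Lt.bi, Lt.d, Lt.fi, Lt.bi, Lt.bi] (hole_rel hinv hr (by decide +kernel)) h
  · exact lF_good (T := T) (x := Lt.ci) (by decide) [Lt.di, Lt.ci, Lt.fi, Lt.c, Lt.f, Lt.c, Lt.d] (hole_rel hinv hr (by decide +kernel)) h
theorem dp_ci_29_s (hinv : ∀ x, g (inv x) = (g x)⁻¹) (hr : ∀ r ∈ rels, (r.map g).prod = 1) (hH : ∀ r ∈ subs, (r.map g).prod ∈ H)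
    (j u : ℕ) (hu : u < M) (h : dp_ci_29 j u = true) : Good (fa g) T MG M (cP g H) Lt.ci u := by
  unfold dp_ci_29 at h
  rcases brec_true h with h | h
  · exact dp_ci_27_s hinv hr hH j u hu h
  · exact dp_ci_28_s hinv hr hH j u hu h
theorem dp_ci_30_s (hinv : ∀ x, g (inv x) = (g x)⁻¹) (hr : ∀ r ∈ rels, (r.map g).prod = 1) (hH : ∀ r ∈ subs, (r.map g).prod ∈ H)
    (j u : ℕ) (hu : u < M) (h : dp_ci_30 j u = true) : Good (fa g) T MG M (cP g H) Lt.ci u := by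
  unfold dp_ci_30 at h
  rcases brec_true h with h | h
  · exact dp_ci_26_s hinv hr hH j u hu h
  · exact dp_ci_29_s hinv hr hH j u hu h
theorem dp_ci_31_s (hinv : ∀ x, g (inv x) = (g x)⁻¹) (hr : ∀ r ∈ rels, (r.map g).prod = 1) (hH : ∀ r ∈ subs, (r.map g).prod ∈ H)
    (j u : ℕ) (hu : u < M) (h : dp_ci_31 j u = true) : Good (fa g) T MG M (cP g H) Lt.ci u := by
  unfold dp_ci_31 at h
  rcases brec_true h with h | h
  · exact dp_ci_24_s hinv hr hH j u hu h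
  · exact dp_ci_30_s hinv hr hH j u hu h
theorem dp_ci_32_s (hinv : ∀ x, g (inv x) = (g x)⁻¹) (hr : ∀ r ∈ rels, (r.map g).prod = 1) (hH : ∀ r ∈ subs, (r.map g).prod ∈ H)
    (j u : ℕ) (hu : u < M) (h : dp_ci_32 j u = true) : Good (fa g) T MG M (cP g H) Lt.ci u := by
  unfold dp_ci_32 at h
  rcases brec_true h with h | h
  · exact lF_good (T := T) (x := Lt.ci) (by decide) [Lt.f, Lt.c, Lt.d, Lt.bi, Lt.d, Lt.b, Lt.di] (hole_rel hinv hr (by decide +kernel)) h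
  · exact lF_good (T := T) (x := Lt.ci) (by decide) [Lt.d, Lt.c, Lt.d, Lt.b, Lt.f, Lt.bi, Lt.di] (hole_rel hinv hr (by decide +kernel)) h
theorem dp_ci_33_s (hinv : ∀ x, g (inv x) = (g x)⁻¹) (hr : ∀ r ∈ rels, (r.map g).prod = 1) (hH : ∀ r ∈ subs, (r.map g).prod ∈ H)
    (j u : ℕ) (hu : u < M) (h : dp_ci_33 j u = true) : Good (fa g) T MG M (cP g H) Lt.ci u := by
  unfold dp_ci_33 at h
  rcases brec_true h with h | h
  · exact lS_good (T := T) (x := Lt.ci) (by decide) hu [Lt.e, Lt.b, Lt.f, Lt.bi, Lt.ei, Lt.c, Lt.f] (hole_rel hinv hr (by decide +kernel)) h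
  · exact lS_good (T := T) (x := Lt.ci) (by decide) hu [Lt.d, Lt.bi, Lt.bi, Lt.f, Lt.bi, Lt.c, Lt.di] (hole_rel hinv hr (by decide +kernel)) h
theorem dp_ci_34_s (hinv : ∀ x, g (inv x) = (g x)⁻¹) (hr : ∀ r ∈ rels, (r.map g).prod = 1) (hH : ∀ r ∈ subs, (r.map g).prod ∈ H)
    (j u : ℕ) (hu : u < M) (h : dp_ci_34 j u = true) : Good (fa g) T MG M (cP g H) Lt.ci u := by
  unfold dp_ci_34 at h
  rcases brec_true h with h | h
  · exact dp_ci_32_s hinv hr hH j u hu h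
  · exact dp_ci_33_s hinv hr hH j u hu h
theorem dp_ci_35_s (hinv : ∀ x, g (inv x) = (g x)⁻¹) (hr : ∀ r ∈ rels, (r.map g).prod = 1) (hH : ∀ r ∈ subs, (r.map g).prod ∈ H)
    (j u : ℕ) (hu : u < M) (h : dp_ci_35 j u = true) : Good (fa g) T MG M (cP g H) Lt.ci u := by
  unfold dp_ci_35 at h
  rcases brec_true h with h | h
  · exact lS_good (T := T) (x := Lt.ci) (by decide) hu [Lt.di, Lt.fi, Lt.d, Lt.bi, Lt.bi, Lt.ci, Lt.bi] (hole_rel hinv hr (by decide +kernel)) h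
  · exact lS_good (T := T) (x := Lt.ci) (by decide) hu [Lt.d, Lt.c, Lt.d, Lt.b, Lt.f, Lt.bi, Lt.di] (hole_rel hinv hr (by decide +kernel)) h
theorem dp_ci_36_s (hinv : ∀ x, g (inv x) = (g x)⁻¹) (hr : ∀ r ∈ rels, (r.map g).prod = 1) (hH : ∀ r ∈ subs, (r.map g).prod ∈ H)
    (j u : ℕ) (hu : u < M) (h : dp_ci_36 j u = true) : Good (fa g) T MG M (cP g H) Lt.ci u := by
  unfold dp_ci_36 at h
  rcases brec_true h with h | h
  · exact lF_good (T := T) (x := Lt.ci) (by decide) [Lt.e, Lt.c, Lt.fi, Lt.bi, Lt.e, Lt.b, Lt.f] (hole_rel hinv hr (by decide +kernel)) h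
  · exact lS_good (T := T) (x := Lt.ci) (by decide) hu [Lt.fi, Lt.c, Lt.d, Lt.bi, Lt.di, Lt.b, Lt.di] (hole_rel hinv hr (by decide +kernel)) h
theorem dp_ci_37_s (hinv : ∀ x, g (inv x) = (g x)⁻¹) (hr : ∀ r ∈ rels, (r.map g).prod = 1) (hH : ∀ r ∈ subs, (r.map g).prod ∈ H)
    (j u : ℕ) (hu : u < M) (h : dp_ci_37 j u = true) : Good (fa g) T MG M (cP g H) Lt.ci u := by
  unfold dp_ci_37 at h
  rcases brec_true h with h | h
  · exact dp_ci_35_s hinv hr hH j u hu h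
  · exact dp_ci_36_s hinv hr hH j u hu h
theorem dp_ci_38_s (hinv : ∀ x, g (inv x) = (g x)⁻¹) (hr : ∀ r ∈ rels, (r.map g).prod = 1) (hH : ∀ r ∈ subs, (r.map g).prod ∈ H)
    (j u : ℕ) (hu : u < M) (h : dp_ci_38 j u = true) : Good (fa g) T MG M (cP g H) Lt.ci u := by
  unfold dp_ci_38 at h
  rcases brec_true h with h | h
  · exact dp_ci_34_s hinv hr hH j u hu h
  · exact dp_ci_37_s hinv hr hH j u hu h
theorem dp_ci_39_s (hinv : ∀ x, g (inv x) = (g x)⁻¹) (hr : ∀ r ∈ rels, (r.map g).prod = 1) (hH : ∀ r ∈ subs, (r.map g).prod ∈ H)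
    (j u : ℕ) (hu : u < M) (h : dp_ci_39 j u = true) : Good (fa g) T MG M (cP g H) Lt.ci u := by
  unfold dp_ci_39 at h
  rcases brec_true h with h | h
  · exact lS_good (T := T) (x := Lt.ci) (by decide) hu [Lt.di, Lt.c, Lt.d, Lt.b, Lt.fi, Lt.bi, Lt.di] (hole_rel hinv hr (by decide +kernel)) h
  · exact lF_good (T := T) (x := Lt.ci) (by decide) [Lt.d, Lt.ci, Lt.di, Lt.f, Lt.d, Lt.c, Lt.di] (hole_rel hinv hr (by decide +kernel)) h
theorem dp_ci_40_s (hinv : ∀ x, g (inv x) = (g x)⁻¹) (hr : ∀ r ∈ rels, (r.map g).prod = 1) (hH : ∀ r ∈ subs, (r.map g).prod ∈ H)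
    (j u : ℕ) (hu : u < M) (h : dp_ci_40 j u = true) : Good (fa g) T MG M (cP g H) Lt.ci u := by
  unfold dp_ci_40 at h
  rcases brec_true h with h | h
  · exact lS_good (T := T) (x := Lt.ci) (by decide) hu [Lt.f, Lt.c, Lt.d, Lt.c, Lt.di, Lt.ci, Lt.fi] (hole_rel hinv hr (by decide +kernel)) h
  · exact lS_good (T := T) (x := Lt.ci) (by decide) hu [Lt.f, Lt.c, Lt.d, Lt.bi, Lt.d, Lt.b, Lt.di] (hole_rel hinv hr (by decide +kernel)) h
theorem dp_ci_41_s (hinv : ∀ x, g (inv x) = (g x)⁻¹) (hr : ∀ r ∈ rels, (r.map g).prod = 1) (hH : ∀ r ∈ subs, (r.map g).prod ∈ H)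
    (j u : ℕ) (hu : u < M) (h : dp_ci_41 j u = true) : Good (fa g) T MG M (cP g H) Lt.ci u := by
  unfold dp_ci_41 at h
  rcases brec_true h with h | h
  · exact lS_good (T := T) (x := Lt.ci) (by decide) hu [Lt.di, Lt.ci, Lt.fi, Lt.c, Lt.f, Lt.c, Lt.d] (hole_rel hinv hr (by decide +kernel)) h
  · exact dp_ci_40_s hinv hr hH j u hu h
theorem dp_ci_42_s (hinv : ∀ x, g (inv x) = (g x)⁻¹) (hr : ∀ r ∈ rels, (r.map g).prod = 1) (hH : ∀ r ∈ subs, (r.map g).prod ∈ H)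
    (j u : ℕ) (hu : u < M) (h : dp_ci_42 j u = true) : Good (fa g) T MG M (cP g H) Lt.ci u := by
  unfold dp_ci_42 at h
  rcases brec_true h with h | h
  · exact dp_ci_39_s hinv hr hH j u hu h
  · exact dp_ci_41_s hinv hr hH j u hu h
theorem dp_ci_43_s (hinv : ∀ x, g (inv x) = (g x)⁻¹) (hr : ∀ r ∈ rels, (r.map g).prod = 1) (hH : ∀ r ∈ subs, (r.map g).prod ∈ H)
    (j u : ℕ) (hu : u < M) (h : dp_ci_43 j u = true) : Good (fa g) T MG M (cP g H) Lt.ci u := by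
  unfold dp_ci_43 at h
  rcases brec_true h with h | h
  · exact lF_good (T := T) (x := Lt.ci) (by decide) [Lt.e, Lt.b, Lt.f, Lt.bi, Lt.ei, Lt.c, Lt.f] (hole_rel hinv hr (by decide +kernel)) h
  · exact lF_good (T := T) (x := Lt.ci) (by decide) [Lt.fi, Lt.c, Lt.d, Lt.bi, Lt.di, Lt.b, Lt.di] (hole_rel hinv hr (by decide +kernel)) h
theorem dp_ci_44_s (hinv : ∀ x, g (inv x) = (g x)⁻¹) (hr : ∀ r ∈ rels, (r.map g).prod = 1) (hH : ∀ r ∈ subs, (r.map g).prod ∈ H)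
    (j u : ℕ) (hu : u < M) (h : dp_ci_44 j u = true) : Good (fa g) T MG M (cP g H) Lt.ci u := by
  unfold dp_ci_44 at h
  rcases brec_true h with h | h
  · exact lS_good (T := T) (x := Lt.ci) (by decide) hu [Lt.d, Lt.ci, Lt.di, Lt.f, Lt.d, Lt.c, Lt.di] (hole_rel hinv hr (by decide +kernel)) h
  · exact dp_ci_43_s hinv hr hH j u hu h
theorem dp_ci_45_s (hinv : ∀ x, g (inv x) = (g x)⁻¹) (hr : ∀ r ∈ rels, (r.map g).prod = 1) (hH : ∀ r ∈ subs, (r.map g).prod ∈ H)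
    (j u : ℕ) (hu : u < M) (h : dp_ci_45 j u = true) : Good (fa g) T MG M (cP g H) Lt.ci u := by
  unfold dp_ci_45 at h
  rcases brec_true h with h | h
  · exact lS_good (T := T) (x := Lt.ci) (by decide) hu [Lt.di, Lt.ei, Lt.b, Lt.e, Lt.bi, Lt.e, Lt.fi, Lt.ci, Lt.bi] (hole_rel hinv hr (by decide +kernel)) h
  · exact lS_good (T := T) (x := Lt.ci) (by decide) hu [Lt.ei, Lt.b, Lt.e, Lt.bi, Lt.e, Lt.ci, Lt.d, Lt.bi, Lt.fi] (hole_rel hinv hr (by decide +kernel)) h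
theorem dp_ci_46_s (hinv : ∀ x, g (inv x) = (g x)⁻¹) (hr : ∀ r ∈ rels, (r.map g).prod = 1) (hH : ∀ r ∈ subs, (r.map g).prod ∈ H)
    (j u : ℕ) (hu : u < M) (h : dp_ci_46 j u = true) : Good (fa g) T MG M (cP g H) Lt.ci u := by
  unfold dp_ci_46 at h
  rcases brec_true h with h | h
  · exact lS_good (T := T) (x := Lt.ci) (by decide) hu [Lt.di, Lt.fi, Lt.d, Lt.c, Lt.di, Lt.c, Lt.d] (hole_rel hinv hr (by decide +kernel)) h
  · exact dp_ci_45_s hinv hr hH j u hu h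
theorem dp_ci_47_s (hinv : ∀ x, g (inv x) = (g x)⁻¹) (hr : ∀ r ∈ rels, (r.map g).prod = 1) (hH : ∀ r ∈ subs, (r.map g).prod ∈ H)
    (j u : ℕ) (hu : u < M) (h : dp_ci_47 j u = true) : Good (fa g) T MG M (cP g H) Lt.ci u := by
  unfold dp_ci_47 at h
  rcases brec_true h with h | h
  · exact lF_good (T := T) (x := Lt.ci) (by decide) [Lt.di, Lt.fi, Lt.d, Lt.c, Lt.di, Lt.c, Lt.d] (hole_rel hinv hr (by decide +kernel)) h
  · exact dp_ci_46_s hinv hr hH j u hu h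
theorem dp_ci_48_s (hinv : ∀ x, g (inv x) = (g x)⁻¹) (hr : ∀ r ∈ rels, (r.map g).prod = 1) (hH : ∀ r ∈ subs, (r.map g).prod ∈ H)
    (j u : ℕ) (hu : u < M) (h : dp_ci_48 j u = true) : Good (fa g) T MG M (cP g H) Lt.ci u := by
  unfold dp_ci_48 at h
  rcases brec_true h with h | h
  · exact lF_good (T := T) (x := Lt.ci) (by decide) [Lt.fi, Lt.di, Lt.ci, Lt.fi, Lt.di, Lt.ci, Lt.fi, Lt.di] (hole_rel hinv hr (by decide +kernel)) h
  · exact lF_good (T := T) (x := Lt.ci) (by decide) [Lt.b, Lt.b, Lt.b, Lt.fi, Lt.c, Lt.fi, Lt.b, Lt.fi] (hole_rel hinv hr (by decide +kernel)) h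
theorem dp_ci_49_s (hinv : ∀ x, g (inv x) = (g x)⁻¹) (hr : ∀ r ∈ rels, (r.map g).prod = 1) (hH : ∀ r ∈ subs, (r.map g).prod ∈ H)
    (j u : ℕ) (hu : u < M) (h : dp_ci_49 j u = true) : Good (fa g) T MG M (cP g H) Lt.ci u := by
  unfold dp_ci_49 at h
  rcases brec_true h with h | h
  · exact lF_good (T := T) (x := Lt.ci) (by decide) [Lt.f, Lt.bi, Lt.bi, Lt.bi, Lt.c, Lt.f, Lt.bi, Lt.f] (hole_rel hinv hr (by decide +kernel)) h
  · exact lS_good (T := T) (x := Lt.ci) (by decide) hu [Lt.b, Lt.b, Lt.di, Lt.fi, Lt.ci, Lt.f, Lt.b, Lt.di] (hole_rel hinv hr (by decide +kernel)) h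
theorem dp_ci_50_s (hinv : ∀ x, g (inv x) = (g x)⁻¹) (hr : ∀ r ∈ rels, (r.map g).prod = 1) (hH : ∀ r ∈ subs, (r.map g).prod ∈ H)
    (j u : ℕ) (hu : u < M) (h : dp_ci_50 j u = true) : Good (fa g) T MG M (cP g H) Lt.ci u := by
  unfold dp_ci_50 at h
  rcases brec_true h with h | h
  · exact dp_ci_48_s hinv hr hH j u hu h
  · exact dp_ci_49_s hinv hr hH j u hu h
theorem dp_ci_51_s (hinv : ∀ x, g (inv x) = (g x)⁻¹) (hr : ∀ r ∈ rels, (r.map g).prod = 1) (hH : ∀ r ∈ subs, (r.map g).prod ∈ H)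
    (j u : ℕ) (hu : u < M) (h : dp_ci_51 j u = true) : Good (fa g) T MG M (cP g H) Lt.ci u := by
  unfold dp_ci_51 at h
  rcases brec_true h with h | h
  · exact lF_good (T := T) (x := Lt.ci) (by decide) [Lt.b, Lt.b, Lt.di, Lt.fi, Lt.ci, Lt.f, Lt.b, Lt.di] (hole_rel hinv hr (by decide +kernel)) h
  · exact lF_good (T := T) (x := Lt.ci) (by decide) [Lt.bi, Lt.ci, Lt.di, Lt.ei, Lt.b, Lt.e, Lt.bi, Lt.e, Lt.fi] (hole_rel hinv hr (by decide +kernel)) h
theorem dp_ci_52_s (hinv : ∀ x, g (inv x) = (g x)⁻¹) (hr : ∀ r ∈ rels, (r.map g).prod = 1) (hH : ∀ r ∈ subs, (r.map g).prod ∈ H)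
    (j u : ℕ) (hu : u < M) (h : dp_ci_52 j u = true) : Good (fa g) T MG M (cP g H) Lt.ci u := by
  unfold dp_ci_52 at h
  rcases brec_true h with h | h
  · exact lS_good (T := T) (x := Lt.ci) (by decide) hu [Lt.d, Lt.bi, Lt.fi, Lt.ci, Lt.ei, Lt.b, Lt.e, Lt.bi, Lt.e] (hole_rel hinv hr (by decide +kernel)) h
  · exact dp_ci_51_s hinv hr hH j u hu h
theorem dp_ci_53_s (hinv : ∀ x, g (inv x) = (g x)⁻¹) (hr : ∀ r ∈ rels, (r.map g).prod = 1) (hH : ∀ r ∈ subs, (r.map g).prod ∈ H)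
    (j u : ℕ) (hu : u < M) (h : dp_ci_53 j u = true) : Good (fa g) T MG M (cP g H) Lt.ci u := by
  unfold dp_ci_53 at h
  rcases brec_true h with h | h
  · exact lS_good (T := T) (x := Lt.ci) (by decide) hu [Lt.bi, Lt.c, Lt.f, Lt.ci, Lt.b, Lt.b, Lt.b, Lt.c, Lt.fi] (hole_rel hinv hr (by decide +kernel)) h
  · exact lF_good (T := T) (x := Lt.ci) (by decide) [Lt.f, Lt.b, Lt.di, Lt.ci, Lt.b, Lt.b, Lt.di, Lt.fi] (hole_rel hinv hr (by decide +kernel)) h
theorem dp_ci_54_s (hinv : ∀ x, g (inv x) = (g x)⁻¹) (hr : ∀ r ∈ rels, (r.map g).prod = 1) (hH : ∀ r ∈ subs, (r.map g).prod ∈ H)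
    (j u : ℕ) (hu : u < M) (h : dp_ci_54 j u = true) : Good (fa g) T MG M (cP g H) Lt.ci u := by
  unfold dp_ci_54 at h
  rcases brec_true h with h | h
  · exact lF_good (T := T) (x := Lt.ci) (by decide) [Lt.bi, Lt.c, Lt.f, Lt.ci, Lt.b, Lt.b, Lt.b, Lt.c, Lt.fi] (hole_rel hinv hr (by decide +kernel)) h
  · exact lS_good (T := T) (x := Lt.ci) (by decide) hu [Lt.f, Lt.bi, Lt.bi, Lt.bi, Lt.c, Lt.f, Lt.bi, Lt.f] (hole_rel hinv hr (by decide +kernel)) h
theorem dp_ci_55_s (hinv : ∀ x, g (inv x) = (g x)⁻¹) (hr : ∀ r ∈ rels, (r.map g).prod = 1) (hH : ∀ r ∈ subs, (r.map g).prod ∈ H)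
    (j u : ℕ) (hu : u < M) (h : dp_ci_55 j u = true) : Good (fa g) T MG M (cP g H) Lt.ci u := by
  unfold dp_ci_55 at h
  rcases brec_true h with h | h
  · exact lS_good (T := T) (x := Lt.ci) (by decide) hu [Lt.bi, Lt.bi, Lt.bi, Lt.c, Lt.fi, Lt.ci, Lt.b, Lt.c, Lt.f] (hole_rel hinv hr (by decide +kernel)) h
  · exact dp_ci_54_s hinv hr hH j u hu h
theorem dp_ci_56_s (hinv : ∀ x, g (inv x) = (g x)⁻¹) (hr : ∀ r ∈ rels, (r.map g).prod = 1) (hH : ∀ r ∈ subs, (r.map g).prod ∈ H)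
    (j u : ℕ) (hu : u < M) (h : dp_ci_56 j u = true) : Good (fa g) T MG M (cP g H) Lt.ci u := by
  unfold dp_ci_56 at h
  rcases brec_true h with h | h
  · exact dp_ci_53_s hinv hr hH j u hu h
  · exact dp_ci_55_s hinv hr hH j u hu h
theorem dp_ci_57_s (hinv : ∀ x, g (inv x) = (g x)⁻¹) (hr : ∀ r ∈ rels, (r.map g).prod = 1) (hH : ∀ r ∈ subs, (r.map g).prod ∈ H)
    (j u : ℕ) (hu : u < M) (h : dp_ci_57 j u = true) : Good (fa g) T MG M (cP g H) Lt.ci u := by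
  unfold dp_ci_57 at h
  rcases brec_true h with h | h
  · exact dp_ci_52_s hinv hr hH j u hu h
  · exact dp_ci_56_s hinv hr hH j u hu h
theorem dp_ci_58_s (hinv : ∀ x, g (inv x) = (g x)⁻¹) (hr : ∀ r ∈ rels, (r.map g).prod = 1) (hH : ∀ r ∈ subs, (r.map g).prod ∈ H)
    (j u : ℕ) (hu : u < M) (h : dp_ci_58 j u = true) : Good (fa g) T MG M (cP g H) Lt.ci u := by
  unfold dp_ci_58 at h
  rcases brec_true h with h | h
  · exact dp_ci_50_s hinv hr hH j u hu h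
  · exact dp_ci_57_s hinv hr hH j u hu h
theorem dp_ci_59_s (hinv : ∀ x, g (inv x) = (g x)⁻¹) (hr : ∀ r ∈ rels, (r.map g).prod = 1) (hH : ∀ r ∈ subs, (r.map g).prod ∈ H)
    (j u : ℕ) (hu : u < M) (h : dp_ci_59 j u = true) : Good (fa g) T MG M (cP g H) Lt.ci u := by
  unfold dp_ci_59 at h
  rcases brec_true h with h | h
  · exact dp_ci_47_s hinv hr hH j u hu h
  · exact dp_ci_58_s hinv hr hH j u hu h
theorem dp_ci_60_s (hinv : ∀ x, g (inv x) = (g x)⁻¹) (hr : ∀ r ∈ rels, (r.map g).prod = 1) (hH : ∀ r ∈ subs, (r.map g).prod ∈ H)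
    (j u : ℕ) (hu : u < M) (h : dp_ci_60 j u = true) : Good (fa g) T MG M (cP g H) Lt.ci u := by
  unfold dp_ci_60 at h
  rcases brec_true h with h | h
  · exact dp_ci_44_s hinv hr hH j u hu h
  · exact dp_ci_59_s hinv hr hH j u hu h
theorem dp_ci_61_s (hinv : ∀ x, g (inv x) = (g x)⁻¹) (hr : ∀ r ∈ rels, (r.map g).prod = 1) (hH : ∀ r ∈ subs, (r.map g).prod ∈ H)
    (j u : ℕ) (hu : u < M) (h : dp_ci_61 j u = true) : Good (fa g) T MG M (cP g H) Lt.ci u := by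
  unfold dp_ci_61 at h
  rcases brec_true h with h | h
  · exact dp_ci_42_s hinv hr hH j u hu h
  · exact dp_ci_60_s hinv hr hH j u hu h
theorem dp_ci_62_s (hinv : ∀ x, g (inv x) = (g x)⁻¹) (hr : ∀ r ∈ rels, (r.map g).prod = 1) (hH : ∀ r ∈ subs, (r.map g).prod ∈ H)
    (j u : ℕ) (hu : u < M) (h : dp_ci_62 j u = true) : Good (fa g) T MG M (cP g H) Lt.ci u := by
  unfold dp_ci_62 at h
  rcases brec_true h with h | h
  · exact dp_ci_38_s hinv hr hH j u hu h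
  · exact dp_ci_61_s hinv hr hH j u hu h
theorem dp_ci_63_s (hinv : ∀ x, g (inv x) = (g x)⁻¹) (hr : ∀ r ∈ rels, (r.map g).prod = 1) (hH : ∀ r ∈ subs, (r.map g).prod ∈ H)
    (j u : ℕ) (hu : u < M) (h : dp_ci_63 j u = true) : Good (fa g) T MG M (cP g H) Lt.ci u := by
  unfold dp_ci_63 at h
  rcases brec_true h with h | h
  · exact dp_ci_31_s hinv hr hH j u hu h
  · exact dp_ci_62_s hinv hr hH j u hu h
theorem dp_ci_64_s (hinv : ∀ x, g (inv x) = (g x)⁻¹) (hr : ∀ r ∈ rels, (r.map g).prod = 1) (hH : ∀ r ∈ subs, (r.map g).prod ∈ H)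
    (j u : ℕ) (hu : u < M) (h : dp_ci_64 j u = true) : Good (fa g) T MG M (cP g H) Lt.ci u := by
  unfold dp_ci_64 at h
  rcases brec_true h with h | h
  · exact dp_ci_18_s hinv hr hH j u hu h
  · exact dp_ci_63_s hinv hr hH j u hu h
theorem snd_ci (hinv : ∀ x, g (inv x) = (g x)⁻¹) (hr : ∀ r ∈ rels, (r.map g).prod = 1) (hH : ∀ r ∈ subs, (r.map g).prod ∈ H)
    (j u : ℕ) (hu : u < M) (h : disp_ci j u = true) : Good (fa g) T MG M (cP g H) Lt.ci u := by
  unfold disp_ci at h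
  rcases brec_true h with h | h
  · rcases brec_true h with h | h
    · exact lF1_good (T := T) (x := Lt.ci) (by decide) .c (hole_rel hinv hr (by decide +kernel)) h
    · exact lPar_good (T := T) (x := Lt.ci) (x' := Lt.c) (by decide) rfl (inv_rel hinv _ _ rfl) h
  · rcases brec_true h with h | h
    · rcases brec_true h with h | h
      · exact lDef_good (T := T) (x := Lt.ci) (by decide) rfl h
      · exact lS_good (T := T) (x := Lt.ci) (by decide) hu [Lt.c] (hole_rel hinv hr (by decide +kernel)) h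
    · exact dp_ci_64_s hinv hr hH j u hu h
theorem snc_ci (hinv : ∀ x, g (inv x) = (g x)⁻¹) (hr : ∀ r ∈ rels, (r.map g).prod = 1) (hH : ∀ r ∈ subs, (r.map g).prod ∈ H)
    (j u : ℕ) (hu : u < M) (h : chk_ci j u = true) : (T Lt.ci u < A ∧ Good (fa g) T MG M (cP g H) Lt.ci u) ∨ (A ≤ T Lt.ci u ∧ MG u < A) := by
  unfold chk_ci at h
  cases hb : Nat.ble A (T_ci u) with
  | true => rw [hb] at h; exact Or.inr ⟨le_of_ble hb, le_of_ble h⟩
  | false => rw [hb] at h; exact Or.inl ⟨lt_of_ble_false hb, snd_ci hinv hr hH j u hu h⟩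
theorem dp_f_0_s (hinv : ∀ x, g (inv x) = (g x)⁻¹) (hr : ∀ r ∈ rels, (r.map g).prod = 1) (hH : ∀ r ∈ subs, (r.map g).prod ∈ H)
    (j u : ℕ) (hu : u < M) (h : dp_f_0 j u = true) : Good (fa g) T MG M (cP g H) Lt.f u := by
  unfold dp_f_0 at h
  rcases brec_true h with h | h
  · exact lS_good (T := T) (x := Lt.f) (by decide) hu [Lt.ci, Lt.f, Lt.d, Lt.ci, Lt.di, Lt.fi, Lt.c] (hole_rel hinv hr (by decide +kernel)) h
  · exact lF_good (T := T) (x := Lt.f) (by decide) [Lt.d, Lt.c, Lt.bi, Lt.ci, Lt.f, Lt.bi, Lt.bi] (hole_rel hinv hr (by decide +kernel)) h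
theorem dp_f_1_s (hinv : ∀ x, g (inv x) = (g x)⁻¹) (hr : ∀ r ∈ rels, (r.map g).prod = 1) (hH : ∀ r ∈ subs, (r.map g).prod ∈ H)
    (j u : ℕ) (hu : u < M) (h : dp_f_1 j u = true) : Good (fa g) T MG M (cP g H) Lt.f u := by
  unfold dp_f_1 at h
  rcases brec_true h with h | h
  · exact lF_good (T := T) (x := Lt.f) (by decide) [Lt.bi, Lt.c, Lt.di, Lt.ci, Lt.d, Lt.bi, Lt.bi] (hole_rel hinv hr (by decide +kernel)) h
  · exact dp_f_0_s hinv hr hH j u hu h
theorem dp_f_2_s (hinv : ∀ x, g (inv x) = (g x)⁻¹) (hr : ∀ r ∈ rels, (r.map g).prod = 1) (hH : ∀ r ∈ subs, (r.map g).prod ∈ H)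
    (j u : ℕ) (hu : u < M) (h : dp_f_2 j u = true) : Good (fa g) T MG M (cP g H) Lt.f u := by
  unfold dp_f_2 at h
  rcases brec_true h with h | h
  · exact lS_good (T := T) (x := Lt.f) (by decide) hu [Lt.d, Lt.c, Lt.bi, Lt.ci, Lt.f, Lt.bi, Lt.bi] (hole_rel hinv hr (by decide +kernel)) h
  · exact lS_good (T := T) (x := Lt.f) (by decide) hu [Lt.bi, Lt.c, Lt.di, Lt.ci, Lt.d, Lt.bi, Lt.bi] (hole_rel hinv hr (by decide +kernel)) h
theorem dp_f_3_s (hinv : ∀ x, g (inv x) = (g x)⁻¹) (hr : ∀ r ∈ rels, (r.map g).prod = 1) (hH : ∀ r ∈ subs, (r.map g).prod ∈ H)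
    (j u : ℕ) (hu : u < M) (h : dp_f_3 j u = true) : Good (fa g) T MG M (cP g H) Lt.f u := by
  unfold dp_f_3 at h
  rcases brec_true h with h | h
  · exact lS_good (T := T) (x := Lt.f) (by decide) hu [Lt.b, Lt.b, Lt.f, Lt.bi, Lt.bi, Lt.fi, Lt.c] (hole_rel hinv hr (by decide +kernel)) h
  · exact lF_good (T := T) (x := Lt.f) (by decide) [Lt.di, Lt.b, Lt.b, Lt.d, Lt.bi, Lt.bi, Lt.d] (hole_rel hinv hr (by decide +kernel)) h
theorem dp_f_4_s (hinv : ∀ x, g (inv x) = (g x)⁻¹) (hr : ∀ r ∈ rels, (r.map g).prod = 1) (hH : ∀ r ∈ subs, (r.map g).prod ∈ H)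
    (j u : ℕ) (hu : u < M) (h : dp_f_4 j u = true) : Good (fa g) T MG M (cP g H) Lt.f u := by
  unfold dp_f_4 at h
  rcases brec_true h with h | h
  · exact dp_f_2_s hinv hr hH j u hu h
  · exact dp_f_3_s hinv hr hH j u hu h
theorem dp_f_5_s (hinv : ∀ x, g (inv x) = (g x)⁻¹) (hr : ∀ r ∈ rels, (r.map g).prod = 1) (hH : ∀ r ∈ subs, (r.map g).prod ∈ H)
    (j u : ℕ) (hu : u < M) (h : dp_f_5 j u = true) : Good (fa g) T MG M (cP g H) Lt.f u := by
  unfold dp_f_5 at h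
  rcases brec_true h with h | h
  · exact dp_f_1_s hinv hr hH j u hu h
  · exact dp_f_4_s hinv hr hH j u hu h
theorem dp_f_6_s (hinv : ∀ x, g (inv x) = (g x)⁻¹) (hr : ∀ r ∈ rels, (r.map g).prod = 1) (hH : ∀ r ∈ subs, (r.map g).prod ∈ H)
    (j u : ℕ) (hu : u < M) (h : dp_f_6 j u = true) : Good (fa g) T MG M (cP g H) Lt.f u := by
  unfold dp_f_6 at h
  rcases brec_true h with h | h
  · exact lS_good (T := T) (x := Lt.f) (by decide) hu [Lt.bi, Lt.ei, Lt.c, Lt.f, Lt.ci, Lt.e, Lt.b] (hole_rel hinv hr (by decide +kernel)) h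
  · exact lF_good (T := T) (x := Lt.f) (by decide) [Lt.ci, Lt.f, Lt.d, Lt.ci, Lt.di, Lt.fi, Lt.c] (hole_rel hinv hr (by decide +kernel)) h
theorem dp_f_7_s (hinv : ∀ x, g (inv x) = (g x)⁻¹) (hr : ∀ r ∈ rels, (r.map g).prod = 1) (hH : ∀ r ∈ subs, (r.map g).prod ∈ H)
    (j u : ℕ) (hu : u < M) (h : dp_f_7 j u = true) : Good (fa g) T MG M (cP g H) Lt.f u := by
  unfold dp_f_7 at h
  rcases brec_true h with h | h
  · exact lF_good (T := T) (x := Lt.f) (by decide) [Lt.bi, Lt.bi, Lt.f, Lt.d, Lt.c, Lt.bi, Lt.ci] (hole_rel hinv hr (by decide +kernel)) h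
  · exact lF_good (T := T) (x := Lt.f) (by decide) [Lt.b, Lt.b, Lt.fi, Lt.bi, Lt.bi, Lt.fi, Lt.ci] (hole_rel hinv hr (by decide +kernel)) h
theorem dp_f_8_s (hinv : ∀ x, g (inv x) = (g x)⁻¹) (hr : ∀ r ∈ rels, (r.map g).prod = 1) (hH : ∀ r ∈ subs, (r.map g).prod ∈ H)
    (j u : ℕ) (hu : u < M) (h : dp_f_8 j u = true) : Good (fa g) T MG M (cP g H) Lt.f u := by
  unfold dp_f_8 at h
  rcases brec_true h with h | h
  · exact dp_f_6_s hinv hr hH j u hu h
  · exact dp_f_7_s hinv hr hH j u hu h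
theorem dp_f_9_s (hinv : ∀ x, g (inv x) = (g x)⁻¹) (hr : ∀ r ∈ rels, (r.map g).prod = 1) (hH : ∀ r ∈ subs, (r.map g).prod ∈ H)
    (j u : ℕ) (hu : u < M) (h : dp_f_9 j u = true) : Good (fa g) T MG M (cP g H) Lt.f u := by
  unfold dp_f_9 at h
  rcases brec_true h with h | h
  · exact lS_good (T := T) (x := Lt.f) (by decide) hu [Lt.c, Lt.d, Lt.c, Lt.di, Lt.ci, Lt.fi, Lt.ci] (hole_rel hinv hr (by decide +kernel)) h
  · exact lF_good (T := T) (x := Lt.f) (by decide) [Lt.bi, Lt.bi, Lt.fi, Lt.c, Lt.f, Lt.b, Lt.b] (hole_rel hinv hr (by decide +kernel)) h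
theorem dp_f_10_s (hinv : ∀ x, g (inv x) = (g x)⁻¹) (hr : ∀ r ∈ rels, (r.map g).prod = 1) (hH : ∀ r ∈ subs, (r.map g).prod ∈ H)
    (j u : ℕ) (hu : u < M) (h : dp_f_10 j u = true) : Good (fa g) T MG M (cP g H) Lt.f u := by
  unfold dp_f_10 at h
  rcases brec_true h with h | h
  · exact lS_good (T := T) (x := Lt.f) (by decide) hu [Lt.bi, Lt.bi, Lt.f, Lt.d, Lt.c, Lt.bi, Lt.ci] (hole_rel hinv hr (by decide +kernel)) h
  · exact lF_good (T := T) (x := Lt.f) (by decide) [Lt.c, Lt.d, Lt.ci, Lt.di, Lt.ci, Lt.fi, Lt.c] (hole_rel hinv hr (by decide +kernel)) h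
theorem dp_f_11_s (hinv : ∀ x, g (inv x) = (g x)⁻¹) (hr : ∀ r ∈ rels, (r.map g).prod = 1) (hH : ∀ r ∈ subs, (r.map g).prod ∈ H)
    (j u : ℕ) (hu : u < M) (h : dp_f_11 j u = true) : Good (fa g) T MG M (cP g H) Lt.f u := by
  unfold dp_f_11 at h
  rcases brec_true h with h | h
  · exact lF_good (T := T) (x := Lt.f) (by decide) [Lt.c, Lt.d, Lt.c, Lt.di, Lt.ci, Lt.fi, Lt.ci] (hole_rel hinv hr (by decide +kernel)) h
  · exact dp_f_10_s hinv hr hH j u hu h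
theorem dp_f_12_s (hinv : ∀ x, g (inv x) = (g x)⁻¹) (hr : ∀ r ∈ rels, (r.map g).prod = 1) (hH : ∀ r ∈ subs, (r.map g).prod ∈ H)
    (j u : ℕ) (hu : u < M) (h : dp_f_12 j u = true) : Good (fa g) T MG M (cP g H) Lt.f u := by
  unfold dp_f_12 at h
  rcases brec_true h with h | h
  · exact dp_f_9_s hinv hr hH j u hu h
  · exact dp_f_11_s hinv hr hH j u hu h
theorem dp_f_13_s (hinv : ∀ x, g (inv x) = (g x)⁻¹) (hr : ∀ r ∈ rels, (r.map g).prod = 1) (hH : ∀ r ∈ subs, (r.map g).prod ∈ H)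
    (j u : ℕ) (hu : u < M) (h : dp_f_13 j u = true) : Good (fa g) T MG M (cP g H) Lt.f u := by
  unfold dp_f_13 at h
  rcases brec_true h with h | h
  · exact dp_f_8_s hinv hr hH j u hu h
  · exact dp_f_12_s hinv hr hH j u hu h
theorem dp_f_14_s (hinv : ∀ x, g (inv x) = (g x)⁻¹) (hr : ∀ r ∈ rels, (r.map g).prod = 1) (hH : ∀ r ∈ subs, (r.map g).prod ∈ H)
    (j u : ℕ) (hu : u < M) (h : dp_f_14 j u = true) : Good (fa g) T MG M (cP g H) Lt.f u := by
  unfold dp_f_14 at h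
  rcases brec_true h with h | h
  · exact dp_f_5_s hinv hr hH j u hu h
  · exact dp_f_13_s hinv hr hH j u hu h
theorem dp_f_15_s (hinv : ∀ x, g (inv x) = (g x)⁻¹) (hr : ∀ r ∈ rels, (r.map g).prod = 1) (hH : ∀ r ∈ subs, (r.map g).prod ∈ H)
    (j u : ℕ) (hu : u < M) (h : dp_f_15 j u = true) : Good (fa g) T MG M (cP g H) Lt.f u := by
  unfold dp_f_15 at h
  rcases brec_true h with h | h
  · exact lF_good (T := T) (x := Lt.f) (by decide) [Lt.b, Lt.b, Lt.f, Lt.bi, Lt.bi, Lt.fi, Lt.c] (hole_rel hinv hr (by decide +kernel)) h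
  · exact lF_good (T := T) (x := Lt.f) (by decide) [Lt.d, Lt.ci, Lt.di, Lt.fi, Lt.c, Lt.f, Lt.ci] (hole_rel hinv hr (by decide +kernel)) h
theorem dp_f_16_s (hinv : ∀ x, g (inv x) = (g x)⁻¹) (hr : ∀ r ∈ rels, (r.map g).prod = 1) (hH : ∀ r ∈ subs, (r.map g).prod ∈ H)
    (j u : ℕ) (hu : u < M) (h : dp_f_16 j u = true) : Good (fa g) T MG M (cP g H) Lt.f u := by
  unfold dp_f_16 at h
  rcases brec_true h with h | h
  · exact lS_good (T := T) (x := Lt.f) (by decide) hu [Lt.d, Lt.ci, Lt.di, Lt.fi, Lt.c, Lt.f, Lt.ci] (hole_rel hinv hr (by decide +kernel)) h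
  · exact lF_good (T := T) (x := Lt.f) (by decide) [Lt.di, Lt.b, Lt.d, Lt.fi, Lt.c, Lt.b, Lt.b] (hole_rel hinv hr (by decide +kernel)) h
theorem dp_f_17_s (hinv : ∀ x, g (inv x) = (g x)⁻¹) (hr : ∀ r ∈ rels, (r.map g).prod = 1) (hH : ∀ r ∈ subs, (r.map g).prod ∈ H)
    (j u : ℕ) (hu : u < M) (h : dp_f_17 j u = true) : Good (fa g) T MG M (cP g H) Lt.f u := by
  unfold dp_f_17 at h
  rcases brec_true h with h | h
  · exact lS_good (T := T) (x := Lt.f) (by decide) hu [Lt.ci, Lt.e, Lt.b, Lt.f, Lt.bi, Lt.ei, Lt.c] (hole_rel hinv hr (by decide +kernel)) h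
  · exact dp_f_16_s hinv hr hH j u hu h
theorem dp_f_18_s (hinv : ∀ x, g (inv x) = (g x)⁻¹) (hr : ∀ r ∈ rels, (r.map g).prod = 1) (hH : ∀ r ∈ subs, (r.map g).prod ∈ H)
    (j u : ℕ) (hu : u < M) (h : dp_f_18 j u = true) : Good (fa g) T MG M (cP g H) Lt.f u := by
  unfold dp_f_18 at h
  rcases brec_true h with h | h
  · exact dp_f_15_s hinv hr hH j u hu h
  · exact dp_f_17_s hinv hr hH j u hu h
theorem dp_f_19_s (hinv : ∀ x, g (inv x) = (g x)⁻¹) (hr : ∀ r ∈ rels, (r.map g).prod = 1) (hH : ∀ r ∈ subs, (r.map g).prod ∈ H)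
    (j u : ℕ) (hu : u < M) (h : dp_f_19 j u = true) : Good (fa g) T MG M (cP g H) Lt.f u := by
  unfold dp_f_19 at h
  rcases brec_true h with h | h
  · exact lS_good (T := T) (x := Lt.f) (by decide) hu [Lt.ci, Lt.ei, Lt.c, Lt.fi, Lt.bi, Lt.ei, Lt.b] (hole_rel hinv hr (by decide +kernel)) h
  · exact lF_good (T := T) (x := Lt.f) (by decide) [Lt.ci, Lt.ei, Lt.c, Lt.fi, Lt.bi, Lt.ei, Lt.b] (hole_rel hinv hr (by decide +kernel)) h
theorem dp_f_20_s (hinv : ∀ x, g (inv x) = (g x)⁻¹) (hr : ∀ r ∈ rels, (r.map g).prod = 1) (hH : ∀ r ∈ subs, (r.map g).prod ∈ H)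
    (j u : ℕ) (hu : u < M) (h : dp_f_20 j u = true) : Good (fa g) T MG M (cP g H) Lt.f u := by
  unfold dp_f_20 at h
  rcases brec_true h with h | h
  · exact lS_good (T := T) (x := Lt.f) (by decide) hu [Lt.c, Lt.d, Lt.ci, Lt.di, Lt.ci, Lt.fi, Lt.c] (hole_rel hinv hr (by decide +kernel)) h
  · exact dp_f_19_s hinv hr hH j u hu h
theorem dp_f_21_s (hinv : ∀ x, g (inv x) = (g x)⁻¹) (hr : ∀ r ∈ rels, (r.map g).prod = 1) (hH : ∀ r ∈ subs, (r.map g).prod ∈ H)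
    (j u : ℕ) (hu : u < M) (h : dp_f_21 j u = true) : Good (fa g) T MG M (cP g H) Lt.f u := by
  unfold dp_f_21 at h
  rcases brec_true h with h | h
  · exact lF_good (T := T) (x := Lt.f) (by decide) [Lt.bi, Lt.di, Lt.ci, Lt.d, Lt.c, Lt.d, Lt.b] (hole_rel hinv hr (by decide +kernel)) h
  · exact lS_good (T := T) (x := Lt.f) (by decide) hu [Lt.bi, Lt.di, Lt.ci, Lt.d, Lt.c, Lt.d, Lt.b] (hole_rel hinv hr (by decide +kernel)) h
theorem dp_f_22_s (hinv : ∀ x, g (inv x) = (g x)⁻¹) (hr : ∀ r ∈ rels, (r.map g).prod = 1) (hH : ∀ r ∈ subs, (r.map g).prod ∈ H)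
    (j u : ℕ) (hu : u < M) (h : dp_f_22 j u = true) : Good (fa g) T MG M (cP g H) Lt.f u := by
  unfold dp_f_22 at h
  rcases brec_true h with h | h
  · exact lF_good (T := T) (x := Lt.f) (by decide) [Lt.d, Lt.c, Lt.di, Lt.ci, Lt.d, Lt.ci, Lt.di] (hole_rel hinv hr (by decide +kernel)) h
  · exact dp_f_21_s hinv hr hH j u hu h
theorem dp_f_23_s (hinv : ∀ x, g (inv x) = (g x)⁻¹) (hr : ∀ r ∈ rels, (r.map g).prod = 1) (hH : ∀ r ∈ subs, (r.map g).prod ∈ H)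
    (j u : ℕ) (hu : u < M) (h : dp_f_23 j u = true) : Good (fa g) T MG M (cP g H) Lt.f u := by
  unfold dp_f_23 at h
  rcases brec_true h with h | h
  · exact dp_f_20_s hinv hr hH j u hu h
  · exact dp_f_22_s hinv hr hH j u hu h
theorem dp_f_24_s (hinv : ∀ x, g (inv x) = (g x)⁻¹) (hr : ∀ r ∈ rels, (r.map g).prod = 1) (hH : ∀ r ∈ subs, (r.map g).prod ∈ H)
    (j u : ℕ) (hu : u < M) (h : dp_f_24 j u = true) : Good (fa g) T MG M (cP g H) Lt.f u := by
  unfold dp_f_24 at h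
  rcases brec_true h with h | h
  · exact dp_f_18_s hinv hr hH j u hu h
  · exact dp_f_23_s hinv hr hH j u hu h
theorem dp_f_25_s (hinv : ∀ x, g (inv x) = (g x)⁻¹) (hr : ∀ r ∈ rels, (r.map g).prod = 1) (hH : ∀ r ∈ subs, (r.map g).prod ∈ H)
    (j u : ℕ) (hu : u < M) (h : dp_f_25 j u = true) : Good (fa g) T MG M (cP g H) Lt.f u := by
  unfold dp_f_25 at h
  rcases brec_true h with h | h
  · exact lS_good (T := T) (x := Lt.f) (by decide) hu [Lt.b, Lt.b, Lt.fi, Lt.bi, Lt.bi, Lt.fi, Lt.ci] (hole_rel hinv hr (by decide +kernel)) h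
  · exact lS_good (T := T) (x := Lt.f) (by decide) hu [Lt.d, Lt.c, Lt.b, Lt.c, Lt.b, Lt.b, Lt.di] (hole_rel hinv hr (by decide +kernel)) h
theorem dp_f_26_s (hinv : ∀ x, g (inv x) = (g x)⁻¹) (hr : ∀ r ∈ rels, (r.map g).prod = 1) (hH : ∀ r ∈ subs, (r.map g).prod ∈ H)
    (j u : ℕ) (hu : u < M) (h : dp_f_26 j u = true) : Good (fa g) T MG M (cP g H) Lt.f u := by
  unfold dp_f_26 at h
  rcases brec_true h with h | h
  · exact lS_good (T := T) (x := Lt.f) (by decide) hu [Lt.di, Lt.b, Lt.b, Lt.d, Lt.bi, Lt.bi, Lt.d] (hole_rel hinv hr (by decide +kernel)) h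
  · exact dp_f_25_s hinv hr hH j u hu h
theorem dp_f_27_s (hinv : ∀ x, g (inv x) = (g x)⁻¹) (hr : ∀ r ∈ rels, (r.map g).prod = 1) (hH : ∀ r ∈ subs, (r.map g).prod ∈ H)
    (j u : ℕ) (hu : u < M) (h : dp_f_27 j u = true) : Good (fa g) T MG M (cP g H) Lt.f u := by
  unfold dp_f_27 at h
  rcases brec_true h with h | h
  · exact lS_good (T := T) (x := Lt.f) (by decide) hu [Lt.d, Lt.c, Lt.di, Lt.ci, Lt.d, Lt.ci, Lt.di] (hole_rel hinv hr (by decide +kernel)) h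
  · exact lS_good (T := T) (x := Lt.f) (by decide) hu [Lt.ci, Lt.e, Lt.c, Lt.fi, Lt.bi, Lt.e, Lt.b] (hole_rel hinv hr (by decide +kernel)) h
theorem dp_f_28_s (hinv : ∀ x, g (inv x) = (g x)⁻¹) (hr : ∀ r ∈ rels, (r.map g).prod = 1) (hH : ∀ r ∈ subs, (r.map g).prod ∈ H)
    (j u : ℕ) (hu : u < M) (h : dp_f_28 j u = true) : Good (fa g) T MG M (cP g H) Lt.f u := by
  unfold dp_f_28 at h
  rcases brec_true h with h | h
  · exact lF_good (T := T) (x := Lt.f) (by decide) [Lt.bi, Lt.ei, Lt.c, Lt.f, Lt.ci, Lt.e, Lt.b] (hole_rel hinv hr (by decide +kernel)) h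
  · exact lF_good (T := T) (x := Lt.f) (by decide) [Lt.c, Lt.d, Lt.bi, Lt.d, Lt.b, Lt.di, Lt.ci] (hole_rel hinv hr (by decide +kernel)) h
theorem dp_f_29_s (hinv : ∀ x, g (inv x) = (g x)⁻¹) (hr : ∀ r ∈ rels, (r.map g).prod = 1) (hH : ∀ r ∈ subs, (r.map g).prod ∈ H)
    (j u : ℕ) (hu : u < M) (h : dp_f_29 j u = true) : Good (fa g) T MG M (cP g H) Lt.f u := by
  unfold dp_f_29 at h
  rcases brec_true h with h | h
  · exact dp_f_27_s hinv hr hH j u hu h
  · exact dp_f_28_s hinv hr hH j u hu h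
theorem dp_f_30_s (hinv : ∀ x, g (inv x) = (g x)⁻¹) (hr : ∀ r ∈ rels, (r.map g).prod = 1) (hH : ∀ r ∈ subs, (r.map g).prod ∈ H)
    (j u : ℕ) (hu : u < M) (h : dp_f_30 j u = true) : Good (fa g) T MG M (cP g H) Lt.f u := by
  unfold dp_f_30 at h
  rcases brec_true h with h | h
  · exact dp_f_26_s hinv hr hH j u hu h
  · exact dp_f_29_s hinv hr hH j u hu h
theorem dp_f_31_s (hinv : ∀ x, g (inv x) = (g x)⁻¹) (hr : ∀ r ∈ rels, (r.map g).prod = 1) (hH : ∀ r ∈ subs, (r.map g).prod ∈ H)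
    (j u : ℕ) (hu : u < M) (h : dp_f_31 j u = true) : Good (fa g) T MG M (cP g H) Lt.f u := by
  unfold dp_f_31 at h
  rcases brec_true h with h | h
  · exact lS_good (T := T) (x := Lt.f) (by decide) hu [Lt.bi, Lt.bi, Lt.fi, Lt.c, Lt.f, Lt.b, Lt.b] (hole_rel hinv hr (by decide +kernel)) h
  · exact lS_good (T := T) (x := Lt.f) (by decide) hu [Lt.c, Lt.d, Lt.bi, Lt.d, Lt.b, Lt.di, Lt.ci] (hole_rel hinv hr (by decide +kernel)) h
theorem dp_f_32_s (hinv : ∀ x, g (inv x) = (g x)⁻¹) (hr : ∀ r ∈ rels, (r.map g).prod = 1) (hH : ∀ r ∈ subs, (r.map g).prod ∈ H)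
    (j u : ℕ) (hu : u < M) (h : dp_f_32 j u = true) : Good (fa g) T MG M (cP g H) Lt.f u := by
  unfold dp_f_32 at h
  rcases brec_true h with h | h
  · exact lF_good (T := T) (x := Lt.f) (by decide) [Lt.d, Lt.c, Lt.b, Lt.c, Lt.b, Lt.b, Lt.di] (hole_rel hinv hr (by decide +kernel)) h
  · exact lS_good (T := T) (x := Lt.f) (by decide) hu [Lt.di, Lt.b, Lt.d, Lt.fi, Lt.c, Lt.b, Lt.b] (hole_rel hinv hr (by decide +kernel)) h
theorem dp_f_33_s (hinv : ∀ x, g (inv x) = (g x)⁻¹) (hr : ∀ r ∈ rels, (r.map g).prod = 1) (hH : ∀ r ∈ subs, (r.map g).prod ∈ H)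
    (j u : ℕ) (hu : u < M) (h : dp_f_33 j u = true) : Good (fa g) T MG M (cP g H) Lt.f u := by
  unfold dp_f_33 at h
  rcases brec_true h with h | h
  · exact dp_f_31_s hinv hr hH j u hu h
  · exact dp_f_32_s hinv hr hH j u hu h
theorem dp_f_34_s (hinv : ∀ x, g (inv x) = (g x)⁻¹) (hr : ∀ r ∈ rels, (r.map g).prod = 1) (hH : ∀ r ∈ subs, (r.map g).prod ∈ H)
    (j u : ℕ) (hu : u < M) (h : dp_f_34 j u = true) : Good (fa g) T MG M (cP g H) Lt.f u := by
  unfold dp_f_34 at h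
  rcases brec_true h with h | h
  · exact lF_good (T := T) (x := Lt.f) (by decide) [Lt.di, Lt.bi, Lt.d, Lt.fi, Lt.bi, Lt.bi, Lt.ci] (hole_rel hinv hr (by decide +kernel)) h
  · exact lS_good (T := T) (x := Lt.f) (by decide) hu [Lt.di, Lt.bi, Lt.d, Lt.fi, Lt.bi, Lt.bi, Lt.ci] (hole_rel hinv hr (by decide +kernel)) h
theorem dp_f_35_s (hinv : ∀ x, g (inv x) = (g x)⁻¹) (hr : ∀ r ∈ rels, (r.map g).prod = 1) (hH : ∀ r ∈ subs, (r.map g).prod ∈ H)
    (j u : ℕ) (hu : u < M) (h : dp_f_35 j u = true) : Good (fa g) T MG M (cP g H) Lt.f u := by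
  unfold dp_f_35 at h
  rcases brec_true h with h | h
  · exact lS_good (T := T) (x := Lt.f) (by decide) hu [Lt.d, Lt.c, Lt.di, Lt.fi, Lt.c, Lt.fi, Lt.ci] (hole_rel hinv hr (by decide +kernel)) h
  · exact dp_f_34_s hinv hr hH j u hu h
theorem dp_f_36_s (hinv : ∀ x, g (inv x) = (g x)⁻¹) (hr : ∀ r ∈ rels, (r.map g).prod = 1) (hH : ∀ r ∈ subs, (r.map g).prod ∈ H)
    (j u : ℕ) (hu : u < M) (h : dp_f_36 j u = true) : Good (fa g) T MG M (cP g H) Lt.f u := by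
  unfold dp_f_36 at h
  rcases brec_true h with h | h
  · exact lF_good (T := T) (x := Lt.f) (by decide) [Lt.ci, Lt.e, Lt.b, Lt.f, Lt.bi, Lt.ei, Lt.c] (hole_rel hinv hr (by decide +kernel)) h
  · exact lF_good (T := T) (x := Lt.f) (by decide) [Lt.ci, Lt.e, Lt.c, Lt.fi, Lt.bi, Lt.e, Lt.b] (hole_rel hinv hr (by decide +kernel)) h
theorem dp_f_37_s (hinv : ∀ x, g (inv x) = (g x)⁻¹) (hr : ∀ r ∈ rels, (r.map g).prod = 1) (hH : ∀ r ∈ subs, (r.map g).prod ∈ H)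
    (j u : ℕ) (hu : u < M) (h : dp_f_37 j u = true) : Good (fa g) T MG M (cP g H) Lt.f u := by
  unfold dp_f_37 at h
  rcases brec_true h with h | h
  · exact lF_good (T := T) (x := Lt.f) (by decide) [Lt.d, Lt.c, Lt.di, Lt.fi, Lt.c, Lt.fi, Lt.ci] (hole_rel hinv hr (by decide +kernel)) h
  · exact lS_good (T := T) (x := Lt.f) (by decide) hu [Lt.ci, Lt.f, Lt.bi, Lt.bi, Lt.bi, Lt.c, Lt.f, Lt.bi] (hole_rel hinv hr (by decide +kernel)) h
theorem dp_f_38_s (hinv : ∀ x, g (inv x) = (g x)⁻¹) (hr : ∀ r ∈ rels, (r.map g).prod = 1) (hH : ∀ r ∈ subs, (r.map g).prod ∈ H)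
    (j u : ℕ) (hu : u < M) (h : dp_f_38 j u = true) : Good (fa g) T MG M (cP g H) Lt.f u := by
  unfold dp_f_38 at h
  rcases brec_true h with h | h
  · exact lH_good (T := T) (x := Lt.f) (by decide) [] [] (by rw [show cP g H 0 = _ from cc_zero]; exact sub_rel hinv (hH _ (by decide))) h
  · exact lF_good (T := T) (x := Lt.f) (by decide) [Lt.b, Lt.di, Lt.c, Lt.ei, Lt.b, Lt.ei, Lt.bi, Lt.e, Lt.c] (hole_rel hinv hr (by decide +kernel)) h
theorem dp_f_39_s (hinv : ∀ x, g (inv x) = (g x)⁻¹) (hr : ∀ r ∈ rels, (r.map g).prod = 1) (hH : ∀ r ∈ subs, (r.map g).prod ∈ H)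
    (j u : ℕ) (hu : u < M) (h : dp_f_39 j u = true) : Good (fa g) T MG M (cP g H) Lt.f u := by
  unfold dp_f_39 at h
  rcases brec_true h with h | h
  · exact lS_good (T := T) (x := Lt.f) (by decide) hu [Lt.bi, Lt.bi, Lt.bi, Lt.c, Lt.f, Lt.bi, Lt.f, Lt.ci] (hole_rel hinv hr (by decide +kernel)) h
  · exact dp_f_38_s hinv hr hH j u hu h
theorem dp_f_40_s (hinv : ∀ x, g (inv x) = (g x)⁻¹) (hr : ∀ r ∈ rels, (r.map g).prod = 1) (hH : ∀ r ∈ subs, (r.map g).prod ∈ H)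
    (j u : ℕ) (hu : u < M) (h : dp_f_40 j u = true) : Good (fa g) T MG M (cP g H) Lt.f u := by
  unfold dp_f_40 at h
  rcases brec_true h with h | h
  · exact lF_good (T := T) (x := Lt.f) (by decide) [Lt.bi, Lt.f, Lt.ci, Lt.f, Lt.bi, Lt.bi, Lt.bi, Lt.c] (hole_rel hinv hr (by decide +kernel)) h
  · exact dp_f_39_s hinv hr hH j u hu h
theorem dp_f_41_s (hinv : ∀ x, g (inv x) = (g x)⁻¹) (hr : ∀ r ∈ rels, (r.map g).prod = 1) (hH : ∀ r ∈ subs, (r.map g).prod ∈ H)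
    (j u : ℕ) (hu : u < M) (h : dp_f_41 j u = true) : Good (fa g) T MG M (cP g H) Lt.f u := by
  unfold dp_f_41 at h
  rcases brec_true h with h | h
  · exact lS_good (T := T) (x := Lt.f) (by decide) hu [Lt.ei, Lt.b, Lt.ei, Lt.bi, Lt.e, Lt.d, Lt.c, Lt.b, Lt.c] (hole_rel hinv hr (by decide +kernel)) h
  · exact lF_good (T := T) (x := Lt.f) (by decide) [Lt.c, Lt.d, Lt.f, Lt.c, Lt.d, Lt.f, Lt.c, Lt.d] (hole_rel hinv hr (by decide +kernel)) h
theorem dp_f_42_s (hinv : ∀ x, g (inv x) = (g x)⁻¹) (hr : ∀ r ∈ rels, (r.map g).prod = 1) (hH : ∀ r ∈ subs, (r.map g).prod ∈ H)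
    (j u : ℕ) (hu : u < M) (h : dp_f_42 j u = true) : Good (fa g) T MG M (cP g H) Lt.f u := by
  unfold dp_f_42 at h
  rcases brec_true h with h | h
  · exact lS_good (T := T) (x := Lt.f) (by decide) hu [Lt.ci, Lt.b, Lt.b, Lt.b, Lt.c, Lt.fi, Lt.ci, Lt.bi, Lt.c] (hole_rel hinv hr (by decide +kernel)) h
  · exact dp_f_41_s hinv hr hH j u hu h
theorem dp_f_43_s (hinv : ∀ x, g (inv x) = (g x)⁻¹) (hr : ∀ r ∈ rels, (r.map g).prod = 1) (hH : ∀ r ∈ subs, (r.map g).prod ∈ H)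
    (j u : ℕ) (hu : u < M) (h : dp_f_43 j u = true) : Good (fa g) T MG M (cP g H) Lt.f u := by
  unfold dp_f_43 at h
  rcases brec_true h with h | h
  · exact lF_good (T := T) (x := Lt.f) (by decide) [Lt.bi, Lt.bi, Lt.bi, Lt.c, Lt.f, Lt.bi, Lt.f, Lt.ci] (hole_rel hinv hr (by decide +kernel)) h
  · exact lS_good (T := T) (x := Lt.f) (by decide) hu [Lt.d, Lt.bi, Lt.bi, Lt.c, Lt.d, Lt.bi, Lt.fi, Lt.c] (hole_rel hinv hr (by decide +kernel)) h
theorem dp_f_44_s (hinv : ∀ x, g (inv x) = (g x)⁻¹) (hr : ∀ r ∈ rels, (r.map g).prod = 1) (hH : ∀ r ∈ subs, (r.map g).prod ∈ H)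
    (j u : ℕ) (hu : u < M) (h : dp_f_44 j u = true) : Good (fa g) T MG M (cP g H) Lt.f u := by
  unfold dp_f_44 at h
  rcases brec_true h with h | h
  · exact lS_good (T := T) (x := Lt.f) (by decide) hu [Lt.ci, Lt.bi, Lt.bi, Lt.bi, Lt.c, Lt.fi, Lt.ci, Lt.b, Lt.c] (hole_rel hinv hr (by decide +kernel)) h
  · exact lF_good (T := T) (x := Lt.f) (by decide) [Lt.ci, Lt.f, Lt.bi, Lt.bi, Lt.bi, Lt.c, Lt.f, Lt.bi] (hole_rel hinv hr (by decide +kernel)) h
theorem dp_f_45_s (hinv : ∀ x, g (inv x) = (g x)⁻¹) (hr : ∀ r ∈ rels, (r.map g).prod = 1) (hH : ∀ r ∈ subs, (r.map g).prod ∈ H)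
    (j u : ℕ) (hu : u < M) (h : dp_f_45 j u = true) : Good (fa g) T MG M (cP g H) Lt.f u := by
  unfold dp_f_45 at h
  rcases brec_true h with h | h
  · exact dp_f_43_s hinv hr hH j u hu h
  · exact dp_f_44_s hinv hr hH j u hu h
theorem dp_f_46_s (hinv : ∀ x, g (inv x) = (g x)⁻¹) (hr : ∀ r ∈ rels, (r.map g).prod = 1) (hH : ∀ r ∈ subs, (r.map g).prod ∈ H)
    (j u : ℕ) (hu : u < M) (h : dp_f_46 j u = true) : Good (fa g) T MG M (cP g H) Lt.f u := by
  unfold dp_f_46 at h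
  rcases brec_true h with h | h
  · exact dp_f_42_s hinv hr hH j u hu h
  · exact dp_f_45_s hinv hr hH j u hu h
theorem dp_f_47_s (hinv : ∀ x, g (inv x) = (g x)⁻¹) (hr : ∀ r ∈ rels, (r.map g).prod = 1) (hH : ∀ r ∈ subs, (r.map g).prod ∈ H)
    (j u : ℕ) (hu : u < M) (h : dp_f_47 j u = true) : Good (fa g) T MG M (cP g H) Lt.f u := by
  unfold dp_f_47 at h
  rcases brec_true h with h | h
  · exact dp_f_40_s hinv hr hH j u hu h
  · exact dp_f_46_s hinv hr hH j u hu h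
theorem dp_f_48_s (hinv : ∀ x, g (inv x) = (g x)⁻¹) (hr : ∀ r ∈ rels, (r.map g).prod = 1) (hH : ∀ r ∈ subs, (r.map g).prod ∈ H)
    (j u : ℕ) (hu : u < M) (h : dp_f_48 j u = true) : Good (fa g) T MG M (cP g H) Lt.f u := by
  unfold dp_f_48 at h
  rcases brec_true h with h | h
  · exact dp_f_37_s hinv hr hH j u hu h
  · exact dp_f_47_s hinv hr hH j u hu h
theorem dp_f_49_s (hinv : ∀ x, g (inv x) = (g x)⁻¹) (hr : ∀ r ∈ rels, (r.map g).prod = 1) (hH : ∀ r ∈ subs, (r.map g).prod ∈ H)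
    (j u : ℕ) (hu : u < M) (h : dp_f_49 j u = true) : Good (fa g) T MG M (cP g H) Lt.f u := by
  unfold dp_f_49 at h
  rcases brec_true h with h | h
  · exact dp_f_36_s hinv hr hH j u hu h
  · exact dp_f_48_s hinv hr hH j u hu h
theorem dp_f_50_s (hinv : ∀ x, g (inv x) = (g x)⁻¹) (hr : ∀ r ∈ rels, (r.map g).prod = 1) (hH : ∀ r ∈ subs, (r.map g).prod ∈ H)
    (j u : ℕ) (hu : u < M) (h : dp_f_50 j u = true) : Good (fa g) T MG M (cP g H) Lt.f u := by
  unfold dp_f_50 at h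
  rcases brec_true h with h | h
  · exact dp_f_35_s hinv hr hH j u hu h
  · exact dp_f_49_s hinv hr hH j u hu h
theorem dp_f_51_s (hinv : ∀ x, g (inv x) = (g x)⁻¹) (hr : ∀ r ∈ rels, (r.map g).prod = 1) (hH : ∀ r ∈ subs, (r.map g).prod ∈ H)
    (j u : ℕ) (hu : u < M) (h : dp_f_51 j u = true) : Good (fa g) T MG M (cP g H) Lt.f u := by
  unfold dp_f_51 at h
  rcases brec_true h with h | h
  · exact dp_f_33_s hinv hr hH j u hu h
  · exact dp_f_50_s hinv hr hH j u hu h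
theorem dp_f_52_s (hinv : ∀ x, g (inv x) = (g x)⁻¹) (hr : ∀ r ∈ rels, (r.map g).prod = 1) (hH : ∀ r ∈ subs, (r.map g).prod ∈ H)
    (j u : ℕ) (hu : u < M) (h : dp_f_52 j u = true) : Good (fa g) T MG M (cP g H) Lt.f u := by
  unfold dp_f_52 at h
  rcases brec_true h with h | h
  · exact dp_f_30_s hinv hr hH j u hu h
  · exact dp_f_51_s hinv hr hH j u hu h
theorem dp_f_53_s (hinv : ∀ x, g (inv x) = (g x)⁻¹) (hr : ∀ r ∈ rels, (r.map g).prod = 1) (hH : ∀ r ∈ subs, (r.map g).prod ∈ H)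
    (j u : ℕ) (hu : u < M) (h : dp_f_53 j u = true) : Good (fa g) T MG M (cP g H) Lt.f u := by
  unfold dp_f_53 at h
  rcases brec_true h with h | h
  · exact dp_f_24_s hinv hr hH j u hu h
  · exact dp_f_52_s hinv hr hH j u hu h
theorem dp_f_54_s (hinv : ∀ x, g (inv x) = (g x)⁻¹) (hr : ∀ r ∈ rels, (r.map g).prod = 1) (hH : ∀ r ∈ subs, (r.map g).prod ∈ H)
    (j u : ℕ) (hu : u < M) (h : dp_f_54 j u = true) : Good (fa g) T MG M (cP g H) Lt.f u := by
  unfold dp_f_54 at h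
  rcases brec_true h with h | h
  · exact dp_f_14_s hinv hr hH j u hu h
  · exact dp_f_53_s hinv hr hH j u hu h
theorem snd_f (hinv : ∀ x, g (inv x) = (g x)⁻¹) (hr : ∀ r ∈ rels, (r.map g).prod = 1) (hH : ∀ r ∈ subs, (r.map g).prod ∈ H)
    (j u : ℕ) (hu : u < M) (h : disp_f j u = true) : Good (fa g) T MG M (cP g H) Lt.f u := by
  unfold disp_f at h
  rcases brec_true h with h | h
  · rcases brec_true h with h | h
    · exact lF1_good (T := T) (x := Lt.f) (by decide) .fi (hole_rel hinv hr (by decide +kernel)) h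
    · exact lDef_good (T := T) (x := Lt.f) (by decide) rfl h
  · rcases brec_true h with h | h
    · rcases brec_true h with h | h
      · exact lPar_good (T := T) (x := Lt.f) (x' := Lt.fi) (by decide) rfl (inv_rel hinv _ _ rfl) h
      · exact lS_good (T := T) (x := Lt.f) (by decide) hu [Lt.fi] (hole_rel hinv hr (by decide +kernel)) h
    · exact dp_f_54_s hinv hr hH j u hu h
theorem snc_f (hinv : ∀ x, g (inv x) = (g x)⁻¹) (hr : ∀ r ∈ rels, (r.map g).prod = 1) (hH : ∀ r ∈ subs, (r.map g).prod ∈ H)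
    (j u : ℕ) (hu : u < M) (h : chk_f j u = true) : (T Lt.f u < A ∧ Good (fa g) T MG M (cP g H) Lt.f u) ∨ (A ≤ T Lt.f u ∧ MG u < A) := by
  unfold chk_f at h
  cases hb : Nat.ble A (T_f u) with
  | true => rw [hb] at h; exact Or.inr ⟨le_of_ble hb, le_of_ble h⟩
  | false => rw [hb] at h; exact Or.inl ⟨lt_of_ble_false hb, snd_f hinv hr hH j u hu h⟩
theorem dp_fi_0_s (hinv : ∀ x, g (inv x) = (g x)⁻¹) (hr : ∀ r ∈ rels, (r.map g).prod = 1) (hH : ∀ r ∈ subs, (r.map g).prod ∈ H)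
    (j u : ℕ) (hu : u < M) (h : dp_fi_0 j u = true) : Good (fa g) T MG M (cP g H) Lt.fi u := by
  unfold dp_fi_0 at h
  rcases brec_true h with h | h
  · exact lF_good (T := T) (x := Lt.fi) (by decide) [Lt.b, Lt.b, Lt.di, Lt.c, Lt.d, Lt.ci, Lt.b] (hole_rel hinv hr (by decide +kernel)) h
  · exact lS_good (T := T) (x := Lt.fi) (by decide) hu [Lt.b, Lt.b, Lt.di, Lt.c, Lt.d, Lt.ci, Lt.b] (hole_rel hinv hr (by decide +kernel)) h
theorem dp_fi_1_s (hinv : ∀ x, g (inv x) = (g x)⁻¹) (hr : ∀ r ∈ rels, (r.map g).prod = 1) (hH : ∀ r ∈ subs, (r.map g).prod ∈ H)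
    (j u : ℕ) (hu : u < M) (h : dp_fi_1 j u = true) : Good (fa g) T MG M (cP g H) Lt.fi u := by
  unfold dp_fi_1 at h
  rcases brec_true h with h | h
  · exact lF_good (T := T) (x := Lt.fi) (by decide) [Lt.di, Lt.b, Lt.b, Lt.di, Lt.bi, Lt.bi, Lt.d] (hole_rel hinv hr (by decide +kernel)) h
  · exact dp_fi_0_s hinv hr hH j u hu h
theorem dp_fi_2_s (hinv : ∀ x, g (inv x) = (g x)⁻¹) (hr : ∀ r ∈ rels, (r.map g).prod = 1) (hH : ∀ r ∈ subs, (r.map g).prod ∈ H)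
    (j u : ℕ) (hu : u < M) (h : dp_fi_2 j u = true) : Good (fa g) T MG M (cP g H) Lt.fi u := by
  unfold dp_fi_2 at h
  rcases brec_true h with h | h
  · exact lF_good (T := T) (x := Lt.fi) (by decide) [Lt.ci, Lt.f, Lt.c, Lt.d, Lt.c, Lt.di, Lt.ci] (hole_rel hinv hr (by decide +kernel)) h
  · exact lS_good (T := T) (x := Lt.fi) (by decide) hu [Lt.b, Lt.b, Lt.fi, Lt.c, Lt.b, Lt.ci, Lt.di] (hole_rel hinv hr (by decide +kernel)) h
theorem dp_fi_3_s (hinv : ∀ x, g (inv x) = (g x)⁻¹) (hr : ∀ r ∈ rels, (r.map g).prod = 1) (hH : ∀ r ∈ subs, (r.map g).prod ∈ H)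
    (j u : ℕ) (hu : u < M) (h : dp_fi_3 j u = true) : Good (fa g) T MG M (cP g H) Lt.fi u := by
  unfold dp_fi_3 at h
  rcases brec_true h with h | h
  · exact lF_good (T := T) (x := Lt.fi) (by decide) [Lt.ci, Lt.f, Lt.d, Lt.c, Lt.di, Lt.fi, Lt.c] (hole_rel hinv hr (by decide +kernel)) h
  · exact lS_good (T := T) (x := Lt.fi) (by decide) hu [Lt.ci, Lt.f, Lt.c, Lt.d, Lt.c, Lt.di, Lt.ci] (hole_rel hinv hr (by decide +kernel)) h
theorem dp_fi_4_s (hinv : ∀ x, g (inv x) = (g x)⁻¹) (hr : ∀ r ∈ rels, (r.map g).prod = 1) (hH : ∀ r ∈ subs, (r.map g).prod ∈ H)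
    (j u : ℕ) (hu : u < M) (h : dp_fi_4 j u = true) : Good (fa g) T MG M (cP g H) Lt.fi u := by
  unfold dp_fi_4 at h
  rcases brec_true h with h | h
  · exact dp_fi_2_s hinv hr hH j u hu h
  · exact dp_fi_3_s hinv hr hH j u hu h
theorem dp_fi_5_s (hinv : ∀ x, g (inv x) = (g x)⁻¹) (hr : ∀ r ∈ rels, (r.map g).prod = 1) (hH : ∀ r ∈ subs, (r.map g).prod ∈ H)
    (j u : ℕ) (hu : u < M) (h : dp_fi_5 j u = true) : Good (fa g) T MG M (cP g H) Lt.fi u := by
  unfold dp_fi_5 at h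
  rcases brec_true h with h | h
  · exact dp_fi_1_s hinv hr hH j u hu h
  · exact dp_fi_4_s hinv hr hH j u hu h
theorem dp_fi_6_s (hinv : ∀ x, g (inv x) = (g x)⁻¹) (hr : ∀ r ∈ rels, (r.map g).prod = 1) (hH : ∀ r ∈ subs, (r.map g).prod ∈ H)
    (j u : ℕ) (hu : u < M) (h : dp_fi_6 j u = true) : Good (fa g) T MG M (cP g H) Lt.fi u := by
  unfold dp_fi_6 at h
  rcases brec_true h with h | h
  · exact lS_good (T := T) (x := Lt.fi) (by decide) hu [Lt.c, Lt.f, Lt.b, Lt.b, Lt.f, Lt.bi, Lt.bi] (hole_rel hinv hr (by decide +kernel)) h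
  · exact lF_good (T := T) (x := Lt.fi) (by decide) [Lt.c, Lt.f, Lt.b, Lt.b, Lt.f, Lt.bi, Lt.bi] (hole_rel hinv hr (by decide +kernel)) h
theorem dp_fi_7_s (hinv : ∀ x, g (inv x) = (g x)⁻¹) (hr : ∀ r ∈ rels, (r.map g).prod = 1) (hH : ∀ r ∈ subs, (r.map g).prod ∈ H)
    (j u : ℕ) (hu : u < M) (h : dp_fi_7 j u = true) : Good (fa g) T MG M (cP g H) Lt.fi u := by
  unfold dp_fi_7 at h
  rcases brec_true h with h | h
  · exact lS_good (T := T) (x := Lt.fi) (by decide) hu [Lt.ci, Lt.e, Lt.b, Lt.fi, Lt.bi, Lt.ei, Lt.c] (hole_rel hinv hr (by decide +kernel)) h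
  · exact lS_good (T := T) (x := Lt.fi) (by decide) hu [Lt.bi, Lt.e, Lt.b, Lt.f, Lt.ci, Lt.e, Lt.c] (hole_rel hinv hr (by decide +kernel)) h
theorem dp_fi_8_s (hinv : ∀ x, g (inv x) = (g x)⁻¹) (hr : ∀ r ∈ rels, (r.map g).prod = 1) (hH : ∀ r ∈ subs, (r.map g).prod ∈ H)
    (j u : ℕ) (hu : u < M) (h : dp_fi_8 j u = true) : Good (fa g) T MG M (cP g H) Lt.fi u := by
  unfold dp_fi_8 at h
  rcases brec_true h with h | h
  · exact lF_good (T := T) (x := Lt.fi) (by decide) [Lt.b, Lt.b, Lt.fi, Lt.c, Lt.b, Lt.ci, Lt.di] (hole_rel hinv hr (by decide +kernel)) h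
  · exact dp_fi_7_s hinv hr hH j u hu h
theorem dp_fi_9_s (hinv : ∀ x, g (inv x) = (g x)⁻¹) (hr : ∀ r ∈ rels, (r.map g).prod = 1) (hH : ∀ r ∈ subs, (r.map g).prod ∈ H)
    (j u : ℕ) (hu : u < M) (h : dp_fi_9 j u = true) : Good (fa g) T MG M (cP g H) Lt.fi u := by
  unfold dp_fi_9 at h
  rcases brec_true h with h | h
  · exact dp_fi_6_s hinv hr hH j u hu h
  · exact dp_fi_8_s hinv hr hH j u hu h
theorem dp_fi_10_s (hinv : ∀ x, g (inv x) = (g x)⁻¹) (hr : ∀ r ∈ rels, (r.map g).prod = 1) (hH : ∀ r ∈ subs, (r.map g).prod ∈ H)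
    (j u : ℕ) (hu : u < M) (h : dp_fi_10 j u = true) : Good (fa g) T MG M (cP g H) Lt.fi u := by
  unfold dp_fi_10 at h
  rcases brec_true h with h | h
  · exact lS_good (T := T) (x := Lt.fi) (by decide) hu [Lt.ci, Lt.f, Lt.d, Lt.c, Lt.di, Lt.fi, Lt.c] (hole_rel hinv hr (by decide +kernel)) h
  · exact lF_good (T := T) (x := Lt.fi) (by decide) [Lt.bi, Lt.di, Lt.ci, Lt.di, Lt.c, Lt.d, Lt.b] (hole_rel hinv hr (by decide +kernel)) h
theorem dp_fi_11_s (hinv : ∀ x, g (inv x) = (g x)⁻¹) (hr : ∀ r ∈ rels, (r.map g).prod = 1) (hH : ∀ r ∈ subs, (r.map g).prod ∈ H)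
    (j u : ℕ) (hu : u < M) (h : dp_fi_11 j u = true) : Good (fa g) T MG M (cP g H) Lt.fi u := by
  unfold dp_fi_11 at h
  rcases brec_true h with h | h
  · exact lF_good (T := T) (x := Lt.fi) (by decide) [Lt.c, Lt.f, Lt.c, Lt.d, Lt.ci, Lt.di, Lt.ci] (hole_rel hinv hr (by decide +kernel)) h
  · exact lF_good (T := T) (x := Lt.fi) (by decide) [Lt.bi, Lt.bi, Lt.fi, Lt.ci, Lt.f, Lt.b, Lt.b] (hole_rel hinv hr (by decide +kernel)) h
theorem dp_fi_12_s (hinv : ∀ x, g (inv x) = (g x)⁻¹) (hr : ∀ r ∈ rels, (r.map g).prod = 1) (hH : ∀ r ∈ subs, (r.map g).prod ∈ H)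
    (j u : ℕ) (hu : u < M) (h : dp_fi_12 j u = true) : Good (fa g) T MG M (cP g H) Lt.fi u := by
  unfold dp_fi_12 at h
  rcases brec_true h with h | h
  · exact lS_good (T := T) (x := Lt.fi) (by decide) hu [Lt.c, Lt.b, Lt.ci, Lt.di, Lt.fi, Lt.b, Lt.b] (hole_rel hinv hr (by decide +kernel)) h
  · exact dp_fi_11_s hinv hr hH j u hu h
theorem dp_fi_13_s (hinv : ∀ x, g (inv x) = (g x)⁻¹) (hr : ∀ r ∈ rels, (r.map g).prod = 1) (hH : ∀ r ∈ subs, (r.map g).prod ∈ H)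
    (j u : ℕ) (hu : u < M) (h : dp_fi_13 j u = true) : Good (fa g) T MG M (cP g H) Lt.fi u := by
  unfold dp_fi_13 at h
  rcases brec_true h with h | h
  · exact dp_fi_10_s hinv hr hH j u hu h
  · exact dp_fi_12_s hinv hr hH j u hu h
theorem dp_fi_14_s (hinv : ∀ x, g (inv x) = (g x)⁻¹) (hr : ∀ r ∈ rels, (r.map g).prod = 1) (hH : ∀ r ∈ subs, (r.map g).prod ∈ H)
    (j u : ℕ) (hu : u < M) (h : dp_fi_14 j u = true) : Good (fa g) T MG M (cP g H) Lt.fi u := by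
  unfold dp_fi_14 at h
  rcases brec_true h with h | h
  · exact dp_fi_9_s hinv hr hH j u hu h
  · exact dp_fi_13_s hinv hr hH j u hu h
theorem dp_fi_15_s (hinv : ∀ x, g (inv x) = (g x)⁻¹) (hr : ∀ r ∈ rels, (r.map g).prod = 1) (hH : ∀ r ∈ subs, (r.map g).prod ∈ H)
    (j u : ℕ) (hu : u < M) (h : dp_fi_15 j u = true) : Good (fa g) T MG M (cP g H) Lt.fi u := by
  unfold dp_fi_15 at h
  rcases brec_true h with h | h
  · exact dp_fi_5_s hinv hr hH j u hu h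
  · exact dp_fi_14_s hinv hr hH j u hu h
theorem dp_fi_16_s (hinv : ∀ x, g (inv x) = (g x)⁻¹) (hr : ∀ r ∈ rels, (r.map g).prod = 1) (hH : ∀ r ∈ subs, (r.map g).prod ∈ H)
    (j u : ℕ) (hu : u < M) (h : dp_fi_16 j u = true) : Good (fa g) T MG M (cP g H) Lt.fi u := by
  unfold dp_fi_16 at h
  rcases brec_true h with h | h
  · exact lS_good (T := T) (x := Lt.fi) (by decide) hu [Lt.d, Lt.c, Lt.di, Lt.c, Lt.d, Lt.ci, Lt.di] (hole_rel hinv hr (by decide +kernel)) h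
  · exact lF_good (T := T) (x := Lt.fi) (by decide) [Lt.d, Lt.c, Lt.di, Lt.c, Lt.d, Lt.ci, Lt.di] (hole_rel hinv hr (by decide +kernel)) h
theorem dp_fi_17_s (hinv : ∀ x, g (inv x) = (g x)⁻¹) (hr : ∀ r ∈ rels, (r.map g).prod = 1) (hH : ∀ r ∈ subs, (r.map g).prod ∈ H)
    (j u : ℕ) (hu : u < M) (h : dp_fi_17 j u = true) : Good (fa g) T MG M (cP g H) Lt.fi u := by
  unfold dp_fi_17 at h
  rcases brec_true h with h | h
  · exact lS_good (T := T) (x := Lt.fi) (by decide) hu [Lt.di, Lt.b, Lt.b, Lt.di, Lt.bi, Lt.bi, Lt.d] (hole_rel hinv hr (by decide +kernel)) h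
  · exact dp_fi_16_s hinv hr hH j u hu h
theorem dp_fi_18_s (hinv : ∀ x, g (inv x) = (g x)⁻¹) (hr : ∀ r ∈ rels, (r.map g).prod = 1) (hH : ∀ r ∈ subs, (r.map g).prod ∈ H)
    (j u : ℕ) (hu : u < M) (h : dp_fi_18 j u = true) : Good (fa g) T MG M (cP g H) Lt.fi u := by
  unfold dp_fi_18 at h
  rcases brec_true h with h | h
  · exact lF_good (T := T) (x := Lt.fi) (by decide) [Lt.d, Lt.bi, Lt.bi, Lt.ci, Lt.bi, Lt.ci, Lt.di] (hole_rel hinv hr (by decide +kernel)) h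
  · exact lS_good (T := T) (x := Lt.fi) (by decide) hu [Lt.bi, Lt.bi, Lt.ci, Lt.f, Lt.di, Lt.bi, Lt.d] (hole_rel hinv hr (by decide +kernel)) h
theorem dp_fi_19_s (hinv : ∀ x, g (inv x) = (g x)⁻¹) (hr : ∀ r ∈ rels, (r.map g).prod = 1) (hH : ∀ r ∈ subs, (r.map g).prod ∈ H)
    (j u : ℕ) (hu : u < M) (h : dp_fi_19 j u = true) : Good (fa g) T MG M (cP g H) Lt.fi u := by
  unfold dp_fi_19 at h
  rcases brec_true h with h | h
  · exact lF_good (T := T) (x := Lt.fi) (by decide) [Lt.c, Lt.fi, Lt.ci, Lt.f, Lt.d, Lt.c, Lt.di] (hole_rel hinv hr (by decide +kernel)) h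
  · exact dp_fi_18_s hinv hr hH j u hu h
theorem dp_fi_20_s (hinv : ∀ x, g (inv x) = (g x)⁻¹) (hr : ∀ r ∈ rels, (r.map g).prod = 1) (hH : ∀ r ∈ subs, (r.map g).prod ∈ H)
    (j u : ℕ) (hu : u < M) (h : dp_fi_20 j u = true) : Good (fa g) T MG M (cP g H) Lt.fi u := by
  unfold dp_fi_20 at h
  rcases brec_true h with h | h
  · exact dp_fi_17_s hinv hr hH j u hu h
  · exact dp_fi_19_s hinv hr hH j u hu h
theorem dp_fi_21_s (hinv : ∀ x, g (inv x) = (g x)⁻¹) (hr : ∀ r ∈ rels, (r.map g).prod = 1) (hH : ∀ r ∈ subs, (r.map g).prod ∈ H)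
    (j u : ℕ) (hu : u < M) (h : dp_fi_21 j u = true) : Good (fa g) T MG M (cP g H) Lt.fi u := by
  unfold dp_fi_21 at h
  rcases brec_true h with h | h
  · exact lS_good (T := T) (x := Lt.fi) (by decide) hu [Lt.bi, Lt.bi, Lt.fi, Lt.ci, Lt.f, Lt.b, Lt.b] (hole_rel hinv hr (by decide +kernel)) h
  · exact lF_good (T := T) (x := Lt.fi) (by decide) [Lt.c, Lt.d, Lt.bi, Lt.di, Lt.b, Lt.di, Lt.ci] (hole_rel hinv hr (by decide +kernel)) h
theorem dp_fi_22_s (hinv : ∀ x, g (inv x) = (g x)⁻¹) (hr : ∀ r ∈ rels, (r.map g).prod = 1) (hH : ∀ r ∈ subs, (r.map g).prod ∈ H)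
    (j u : ℕ) (hu : u < M) (h : dp_fi_22 j u = true) : Good (fa g) T MG M (cP g H) Lt.fi u := by
  unfold dp_fi_22 at h
  rcases brec_true h with h | h
  · exact lS_good (T := T) (x := Lt.fi) (by decide) hu [Lt.c, Lt.f, Lt.c, Lt.d, Lt.ci, Lt.di, Lt.ci] (hole_rel hinv hr (by decide +kernel)) h
  · exact dp_fi_21_s hinv hr hH j u hu h
theorem dp_fi_23_s (hinv : ∀ x, g (inv x) = (g x)⁻¹) (hr : ∀ r ∈ rels, (r.map g).prod = 1) (hH : ∀ r ∈ subs, (r.map g).prod ∈ H)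
    (j u : ℕ) (hu : u < M) (h : dp_fi_23 j u = true) : Good (fa g) T MG M (cP g H) Lt.fi u := by
  unfold dp_fi_23 at h
  rcases brec_true h with h | h
  · exact lS_good (T := T) (x := Lt.fi) (by decide) hu [Lt.c, Lt.fi, Lt.ci, Lt.f, Lt.d, Lt.c, Lt.di] (hole_rel hinv hr (by decide +kernel)) h
  · exact lF_good (T := T) (x := Lt.fi) (by decide) [Lt.c, Lt.b, Lt.b, Lt.f, Lt.di, Lt.b, Lt.d] (hole_rel hinv hr (by decide +kernel)) h
theorem dp_fi_24_s (hinv : ∀ x, g (inv x) = (g x)⁻¹) (hr : ∀ r ∈ rels, (r.map g).prod = 1) (hH : ∀ r ∈ subs, (r.map g).prod ∈ H)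
    (j u : ℕ) (hu : u < M) (h : dp_fi_24 j u = true) : Good (fa g) T MG M (cP g H) Lt.fi u := by
  unfold dp_fi_24 at h
  rcases brec_true h with h | h
  · exact lS_good (T := T) (x := Lt.fi) (by decide) hu [Lt.c, Lt.b, Lt.b, Lt.f, Lt.di, Lt.b, Lt.d] (hole_rel hinv hr (by decide +kernel)) h
  · exact dp_fi_23_s hinv hr hH j u hu h
theorem dp_fi_25_s (hinv : ∀ x, g (inv x) = (g x)⁻¹) (hr : ∀ r ∈ rels, (r.map g).prod = 1) (hH : ∀ r ∈ subs, (r.map g).prod ∈ H)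
    (j u : ℕ) (hu : u < M) (h : dp_fi_25 j u = true) : Good (fa g) T MG M (cP g H) Lt.fi u := by
  unfold dp_fi_25 at h
  rcases brec_true h with h | h
  · exact dp_fi_22_s hinv hr hH j u hu h
  · exact dp_fi_24_s hinv hr hH j u hu h
theorem dp_fi_26_s (hinv : ∀ x, g (inv x) = (g x)⁻¹) (hr : ∀ r ∈ rels, (r.map g).prod = 1) (hH : ∀ r ∈ subs, (r.map g).prod ∈ H)
    (j u : ℕ) (hu : u < M) (h : dp_fi_26 j u = true) : Good (fa g) T MG M (cP g H) Lt.fi u := by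
  unfold dp_fi_26 at h
  rcases brec_true h with h | h
  · exact dp_fi_20_s hinv hr hH j u hu h
  · exact dp_fi_25_s hinv hr hH j u hu h
theorem dp_fi_27_s (hinv : ∀ x, g (inv x) = (g x)⁻¹) (hr : ∀ r ∈ rels, (r.map g).prod = 1) (hH : ∀ r ∈ subs, (r.map g).prod ∈ H)
    (j u : ℕ) (hu : u < M) (h : dp_fi_27 j u = true) : Good (fa g) T MG M (cP g H) Lt.fi u := by
  unfold dp_fi_27 at h
  rcases brec_true h with h | h
  · exact lS_good (T := T) (x := Lt.fi) (by decide) hu [Lt.bi, Lt.ei, Lt.c, Lt.fi, Lt.ci, Lt.e, Lt.b] (hole_rel hinv hr (by decide +kernel)) h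
  · exact lF_good (T := T) (x := Lt.fi) (by decide) [Lt.c, Lt.b, Lt.ci, Lt.di, Lt.fi, Lt.b, Lt.b] (hole_rel hinv hr (by decide +kernel)) h
theorem dp_fi_28_s (hinv : ∀ x, g (inv x) = (g x)⁻¹) (hr : ∀ r ∈ rels, (r.map g).prod = 1) (hH : ∀ r ∈ subs, (r.map g).prod ∈ H)
    (j u : ℕ) (hu : u < M) (h : dp_fi_28 j u = true) : Good (fa g) T MG M (cP g H) Lt.fi u := by
  unfold dp_fi_28 at h
  rcases brec_true h with h | h
  · exact lF_good (T := T) (x := Lt.fi) (by decide) [Lt.bi, Lt.bi, Lt.ci, Lt.f, Lt.di, Lt.bi, Lt.d] (hole_rel hinv hr (by decide +kernel)) h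
  · exact dp_fi_27_s hinv hr hH j u hu h
theorem dp_fi_29_s (hinv : ∀ x, g (inv x) = (g x)⁻¹) (hr : ∀ r ∈ rels, (r.map g).prod = 1) (hH : ∀ r ∈ subs, (r.map g).prod ∈ H)
    (j u : ℕ) (hu : u < M) (h : dp_fi_29 j u = true) : Good (fa g) T MG M (cP g H) Lt.fi u := by
  unfold dp_fi_29 at h
  rcases brec_true h with h | h
  · exact lS_good (T := T) (x := Lt.fi) (by decide) hu [Lt.bi, Lt.di, Lt.ci, Lt.di, Lt.c, Lt.d, Lt.b] (hole_rel hinv hr (by decide +kernel)) h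
  · exact lF_good (T := T) (x := Lt.fi) (by decide) [Lt.bi, Lt.ei, Lt.c, Lt.fi, Lt.ci, Lt.e, Lt.b] (hole_rel hinv hr (by decide +kernel)) h
theorem dp_fi_30_s (hinv : ∀ x, g (inv x) = (g x)⁻¹) (hr : ∀ r ∈ rels, (r.map g).prod = 1) (hH : ∀ r ∈ subs, (r.map g).prod ∈ H)
    (j u : ℕ) (hu : u < M) (h : dp_fi_30 j u = true) : Good (fa g) T MG M (cP g H) Lt.fi u := by
  unfold dp_fi_30 at h
  rcases brec_true h with h | h
  · exact lF_good (T := T) (x := Lt.fi) (by decide) [Lt.ci, Lt.f, Lt.b, Lt.b, Lt.fi, Lt.bi, Lt.bi] (hole_rel hinv hr (by decide +kernel)) h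
  · exact lF_good (T := T) (x := Lt.fi) (by decide) [Lt.bi, Lt.e, Lt.b, Lt.f, Lt.ci, Lt.e, Lt.c] (hole_rel hinv hr (by decide +kernel)) h
theorem dp_fi_31_s (hinv : ∀ x, g (inv x) = (g x)⁻¹) (hr : ∀ r ∈ rels, (r.map g).prod = 1) (hH : ∀ r ∈ subs, (r.map g).prod ∈ H)
    (j u : ℕ) (hu : u < M) (h : dp_fi_31 j u = true) : Good (fa g) T MG M (cP g H) Lt.fi u := by
  unfold dp_fi_31 at h
  rcases brec_true h with h | h
  · exact dp_fi_29_s hinv hr hH j u hu h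
  · exact dp_fi_30_s hinv hr hH j u hu h
theorem dp_fi_32_s (hinv : ∀ x, g (inv x) = (g x)⁻¹) (hr : ∀ r ∈ rels, (r.map g).prod = 1) (hH : ∀ r ∈ subs, (r.map g).prod ∈ H)
    (j u : ℕ) (hu : u < M) (h : dp_fi_32 j u = true) : Good (fa g) T MG M (cP g H) Lt.fi u := by
  unfold dp_fi_32 at h
  rcases brec_true h with h | h
  · exact dp_fi_28_s hinv hr hH j u hu h
  · exact dp_fi_31_s hinv hr hH j u hu h
theorem dp_fi_33_s (hinv : ∀ x, g (inv x) = (g x)⁻¹) (hr : ∀ r ∈ rels, (r.map g).prod = 1) (hH : ∀ r ∈ subs, (r.map g).prod ∈ H)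
    (j u : ℕ) (hu : u < M) (h : dp_fi_33 j u = true) : Good (fa g) T MG M (cP g H) Lt.fi u := by
  unfold dp_fi_33 at h
  rcases brec_true h with h | h
  · exact lS_good (T := T) (x := Lt.fi) (by decide) hu [Lt.c, Lt.d, Lt.bi, Lt.di, Lt.b, Lt.di, Lt.ci] (hole_rel hinv hr (by decide +kernel)) h
  · exact lS_good (T := T) (x := Lt.fi) (by decide) hu [Lt.ci, Lt.f, Lt.b, Lt.b, Lt.fi, Lt.bi, Lt.bi] (hole_rel hinv hr (by decide +kernel)) h
theorem dp_fi_34_s (hinv : ∀ x, g (inv x) = (g x)⁻¹) (hr : ∀ r ∈ rels, (r.map g).prod = 1) (hH : ∀ r ∈ subs, (r.map g).prod ∈ H)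
    (j u : ℕ) (hu : u < M) (h : dp_fi_34 j u = true) : Good (fa g) T MG M (cP g H) Lt.fi u := by
  unfold dp_fi_34 at h
  rcases brec_true h with h | h
  · exact lS_good (T := T) (x := Lt.fi) (by decide) hu [Lt.c, Lt.f, Lt.ci, Lt.f, Lt.d, Lt.ci, Lt.di] (hole_rel hinv hr (by decide +kernel)) h
  · exact lS_good (T := T) (x := Lt.fi) (by decide) hu [Lt.d, Lt.bi, Lt.bi, Lt.ci, Lt.bi, Lt.ci, Lt.di] (hole_rel hinv hr (by decide +kernel)) h
theorem dp_fi_35_s (hinv : ∀ x, g (inv x) = (g x)⁻¹) (hr : ∀ r ∈ rels, (r.map g).prod = 1) (hH : ∀ r ∈ subs, (r.map g).prod ∈ H)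
    (j u : ℕ) (hu : u < M) (h : dp_fi_35 j u = true) : Good (fa g) T MG M (cP g H) Lt.fi u := by
  unfold dp_fi_35 at h
  rcases brec_true h with h | h
  · exact dp_fi_33_s hinv hr hH j u hu h
  · exact dp_fi_34_s hinv hr hH j u hu h
theorem dp_fi_36_s (hinv : ∀ x, g (inv x) = (g x)⁻¹) (hr : ∀ r ∈ rels, (r.map g).prod = 1) (hH : ∀ r ∈ subs, (r.map g).prod ∈ H)
    (j u : ℕ) (hu : u < M) (h : dp_fi_36 j u = true) : Good (fa g) T MG M (cP g H) Lt.fi u := by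
  unfold dp_fi_36 at h
  rcases brec_true h with h | h
  · exact lF_good (T := T) (x := Lt.fi) (by decide) [Lt.ci, Lt.e, Lt.b, Lt.fi, Lt.bi, Lt.ei, Lt.c] (hole_rel hinv hr (by decide +kernel)) h
  · exact lF_good (T := T) (x := Lt.fi) (by decide) [Lt.c, Lt.f, Lt.ci, Lt.f, Lt.d, Lt.ci, Lt.di] (hole_rel hinv hr (by decide +kernel)) h
theorem dp_fi_37_s (hinv : ∀ x, g (inv x) = (g x)⁻¹) (hr : ∀ r ∈ rels, (r.map g).prod = 1) (hH : ∀ r ∈ subs, (r.map g).prod ∈ H)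
    (j u : ℕ) (hu : u < M) (h : dp_fi_37 j u = true) : Good (fa g) T MG M (cP g H) Lt.fi u := by
  unfold dp_fi_37 at h
  rcases brec_true h with h | h
  · exact lS_good (T := T) (x := Lt.fi) (by decide) hu [Lt.bi, Lt.ei, Lt.b, Lt.f, Lt.ci, Lt.ei, Lt.c] (hole_rel hinv hr (by decide +kernel)) h
  · exact lF_good (T := T) (x := Lt.fi) (by decide) [Lt.bi, Lt.ei, Lt.b, Lt.f, Lt.ci, Lt.ei, Lt.c] (hole_rel hinv hr (by decide +kernel)) h
theorem dp_fi_38_s (hinv : ∀ x, g (inv x) = (g x)⁻¹) (hr : ∀ r ∈ rels, (r.map g).prod = 1) (hH : ∀ r ∈ subs, (r.map g).prod ∈ H)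
    (j u : ℕ) (hu : u < M) (h : dp_fi_38 j u = true) : Good (fa g) T MG M (cP g H) Lt.fi u := by
  unfold dp_fi_38 at h
  rcases brec_true h with h | h
  · exact lF_good (T := T) (x := Lt.fi) (by decide) [Lt.b, Lt.fi, Lt.ci, Lt.b, Lt.b, Lt.b, Lt.fi, Lt.c] (hole_rel hinv hr (by decide +kernel)) h
  · exact lF_good (T := T) (x := Lt.fi) (by decide) [Lt.ci, Lt.b, Lt.b, Lt.b, Lt.fi, Lt.c, Lt.fi, Lt.b] (hole_rel hinv hr (by decide +kernel)) h
theorem dp_fi_39_s (hinv : ∀ x, g (inv x) = (g x)⁻¹) (hr : ∀ r ∈ rels, (r.map g).prod = 1) (hH : ∀ r ∈ subs, (r.map g).prod ∈ H)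
    (j u : ℕ) (hu : u < M) (h : dp_fi_39 j u = true) : Good (fa g) T MG M (cP g H) Lt.fi u := by
  unfold dp_fi_39 at h
  rcases brec_true h with h | h
  · exact lS_good (T := T) (x := Lt.fi) (by decide) hu [Lt.di, Lt.ci, Lt.fi, Lt.di, Lt.ci, Lt.fi, Lt.di, Lt.ci] (hole_rel hinv hr (by decide +kernel)) h
  · exact lF_good (T := T) (x := Lt.fi) (by decide) [Lt.ci, Lt.b, Lt.d, Lt.ei, Lt.b, Lt.ei, Lt.bi, Lt.e, Lt.b] (hole_rel hinv hr (by decide +kernel)) h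
theorem dp_fi_40_s (hinv : ∀ x, g (inv x) = (g x)⁻¹) (hr : ∀ r ∈ rels, (r.map g).prod = 1) (hH : ∀ r ∈ subs, (r.map g).prod ∈ H)
    (j u : ℕ) (hu : u < M) (h : dp_fi_40 j u = true) : Good (fa g) T MG M (cP g H) Lt.fi u := by
  unfold dp_fi_40 at h
  rcases brec_true h with h | h
  · exact lS_good (T := T) (x := Lt.fi) (by decide) hu [Lt.c, Lt.f, Lt.d, Lt.bi, Lt.bi, Lt.c, Lt.d, Lt.bi] (hole_rel hinv hr (by decide +kernel)) h
  · exact lF_good (T := T) (x := Lt.fi) (by decide) [Lt.di, Lt.ci, Lt.fi, Lt.di, Lt.ci, Lt.fi, Lt.di, Lt.ci] (hole_rel hinv hr (by decide +kernel)) h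
theorem dp_fi_41_s (hinv : ∀ x, g (inv x) = (g x)⁻¹) (hr : ∀ r ∈ rels, (r.map g).prod = 1) (hH : ∀ r ∈ subs, (r.map g).prod ∈ H)
    (j u : ℕ) (hu : u < M) (h : dp_fi_41 j u = true) : Good (fa g) T MG M (cP g H) Lt.fi u := by
  unfold dp_fi_41 at h
  rcases brec_true h with h | h
  · exact lS_good (T := T) (x := Lt.fi) (by decide) hu [Lt.ci, Lt.b, Lt.d, Lt.ei, Lt.b, Lt.ei, Lt.bi, Lt.e, Lt.b] (hole_rel hinv hr (by decide +kernel)) h
  · exact lS_good (T := T) (x := Lt.fi) (by decide) hu [Lt.b, Lt.fi, Lt.ci, Lt.b, Lt.b, Lt.b, Lt.fi, Lt.c] (hole_rel hinv hr (by decide +kernel)) h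
theorem dp_fi_42_s (hinv : ∀ x, g (inv x) = (g x)⁻¹) (hr : ∀ r ∈ rels, (r.map g).prod = 1) (hH : ∀ r ∈ subs, (r.map g).prod ∈ H)
    (j u : ℕ) (hu : u < M) (h : dp_fi_42 j u = true) : Good (fa g) T MG M (cP g H) Lt.fi u := by
  unfold dp_fi_42 at h
  rcases brec_true h with h | h
  · exact dp_fi_40_s hinv hr hH j u hu h
  · exact dp_fi_41_s hinv hr hH j u hu h
theorem dp_fi_43_s (hinv : ∀ x, g (inv x) = (g x)⁻¹) (hr : ∀ r ∈ rels, (r.map g).prod = 1) (hH : ∀ r ∈ subs, (r.map g).prod ∈ H)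
    (j u : ℕ) (hu : u < M) (h : dp_fi_43 j u = true) : Good (fa g) T MG M (cP g H) Lt.fi u := by
  unfold dp_fi_43 at h
  rcases brec_true h with h | h
  · exact dp_fi_39_s hinv hr hH j u hu h
  · exact dp_fi_42_s hinv hr hH j u hu h
theorem dp_fi_44_s (hinv : ∀ x, g (inv x) = (g x)⁻¹) (hr : ∀ r ∈ rels, (r.map g).prod = 1) (hH : ∀ r ∈ subs, (r.map g).prod ∈ H)
    (j u : ℕ) (hu : u < M) (h : dp_fi_44 j u = true) : Good (fa g) T MG M (cP g H) Lt.fi u := by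
  unfold dp_fi_44 at h
  rcases brec_true h with h | h
  · exact dp_fi_38_s hinv hr hH j u hu h
  · exact dp_fi_43_s hinv hr hH j u hu h
theorem dp_fi_45_s (hinv : ∀ x, g (inv x) = (g x)⁻¹) (hr : ∀ r ∈ rels, (r.map g).prod = 1) (hH : ∀ r ∈ subs, (r.map g).prod ∈ H)
    (j u : ℕ) (hu : u < M) (h : dp_fi_45 j u = true) : Good (fa g) T MG M (cP g H) Lt.fi u := by
  unfold dp_fi_45 at h
  rcases brec_true h with h | h
  · exact dp_fi_37_s hinv hr hH j u hu h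
  · exact dp_fi_44_s hinv hr hH j u hu h
theorem dp_fi_46_s (hinv : ∀ x, g (inv x) = (g x)⁻¹) (hr : ∀ r ∈ rels, (r.map g).prod = 1) (hH : ∀ r ∈ subs, (r.map g).prod ∈ H)
    (j u : ℕ) (hu : u < M) (h : dp_fi_46 j u = true) : Good (fa g) T MG M (cP g H) Lt.fi u := by
  unfold dp_fi_46 at h
  rcases brec_true h with h | h
  · exact dp_fi_36_s hinv hr hH j u hu h
  · exact dp_fi_45_s hinv hr hH j u hu h
theorem dp_fi_47_s (hinv : ∀ x, g (inv x) = (g x)⁻¹) (hr : ∀ r ∈ rels, (r.map g).prod = 1) (hH : ∀ r ∈ subs, (r.map g).prod ∈ H)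
    (j u : ℕ) (hu : u < M) (h : dp_fi_47 j u = true) : Good (fa g) T MG M (cP g H) Lt.fi u := by
  unfold dp_fi_47 at h
  rcases brec_true h with h | h
  · exact dp_fi_35_s hinv hr hH j u hu h
  · exact dp_fi_46_s hinv hr hH j u hu h
theorem dp_fi_48_s (hinv : ∀ x, g (inv x) = (g x)⁻¹) (hr : ∀ r ∈ rels, (r.map g).prod = 1) (hH : ∀ r ∈ subs, (r.map g).prod ∈ H)
    (j u : ℕ) (hu : u < M) (h : dp_fi_48 j u = true) : Good (fa g) T MG M (cP g H) Lt.fi u := by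
  unfold dp_fi_48 at h
  rcases brec_true h with h | h
  · exact dp_fi_32_s hinv hr hH j u hu h
  · exact dp_fi_47_s hinv hr hH j u hu h
theorem dp_fi_49_s (hinv : ∀ x, g (inv x) = (g x)⁻¹) (hr : ∀ r ∈ rels, (r.map g).prod = 1) (hH : ∀ r ∈ subs, (r.map g).prod ∈ H)
    (j u : ℕ) (hu : u < M) (h : dp_fi_49 j u = true) : Good (fa g) T MG M (cP g H) Lt.fi u := by
  unfold dp_fi_49 at h
  rcases brec_true h with h | h
  · exact dp_fi_26_s hinv hr hH j u hu h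
  · exact dp_fi_48_s hinv hr hH j u hu h
theorem dp_fi_50_s (hinv : ∀ x, g (inv x) = (g x)⁻¹) (hr : ∀ r ∈ rels, (r.map g).prod = 1) (hH : ∀ r ∈ subs, (r.map g).prod ∈ H)
    (j u : ℕ) (hu : u < M) (h : dp_fi_50 j u = true) : Good (fa g) T MG M (cP g H) Lt.fi u := by
  unfold dp_fi_50 at h
  rcases brec_true h with h | h
  · exact dp_fi_15_s hinv hr hH j u hu h
  · exact dp_fi_49_s hinv hr hH j u hu h
theorem snd_fi (hinv : ∀ x, g (inv x) = (g x)⁻¹) (hr : ∀ r ∈ rels, (r.map g).prod = 1) (hH : ∀ r ∈ subs, (r.map g).prod ∈ H)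
    (j u : ℕ) (hu : u < M) (h : disp_fi j u = true) : Good (fa g) T MG M (cP g H) Lt.fi u := by
  unfold disp_fi at h
  rcases brec_true h with h | h
  · rcases brec_true h with h | h
    · exact lF1_good (T := T) (x := Lt.fi) (by decide) .f (hole_rel hinv hr (by decide +kernel)) h
    · exact lPar_good (T := T) (x := Lt.fi) (x' := Lt.f) (by decide) rfl (inv_rel hinv _ _ rfl) h
  · rcases brec_true h with h | h
    · rcases brec_true h with h | h
      · exact lDef_good (T := T) (x := Lt.fi) (by decide) rfl h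
      · exact lS_good (T := T) (x := Lt.fi) (by decide) hu [Lt.f] (hole_rel hinv hr (by decide +kernel)) h
    · exact dp_fi_50_s hinv hr hH j u hu h
theorem snc_fi (hinv : ∀ x, g (inv x) = (g x)⁻¹) (hr : ∀ r ∈ rels, (r.map g).prod = 1) (hH : ∀ r ∈ subs, (r.map g).prod ∈ H)
    (j u : ℕ) (hu : u < M) (h : chk_fi j u = true) : (T Lt.fi u < A ∧ Good (fa g) T MG M (cP g H) Lt.fi u) ∨ (A ≤ T Lt.fi u ∧ MG u < A) := by
  unfold chk_fi at h
  cases hb : Nat.ble A (T_fi u) with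
  | true => rw [hb] at h; exact Or.inr ⟨le_of_ble hb, le_of_ble h⟩
  | false => rw [hb] at h; exact Or.inl ⟨lt_of_ble_false hb, snd_fi hinv hr hH j u hu h⟩
theorem dp_e_0_s (hinv : ∀ x, g (inv x) = (g x)⁻¹) (hr : ∀ r ∈ rels, (r.map g).prod = 1) (hH : ∀ r ∈ subs, (r.map g).prod ∈ H)
    (j u : ℕ) (hu : u < M) (h : dp_e_0 j u = true) : Good (fa g) T MG M (cP g H) Lt.e u := by
  unfold dp_e_0 at h
  rcases brec_true h with h | h
  · exact lS_good (T := T) (x := Lt.e) (by decide) hu [Lt.b, Lt.fi, Lt.bi, Lt.ei, Lt.c, Lt.fi, Lt.ci] (hole_rel hinv hr (by decide +kernel)) h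
  · exact lS_good (T := T) (x := Lt.e) (by decide) hu [Lt.b, Lt.f, Lt.bi, Lt.ei, Lt.c, Lt.f, Lt.ci] (hole_rel hinv hr (by decide +kernel)) h
theorem dp_e_1_s (hinv : ∀ x, g (inv x) = (g x)⁻¹) (hr : ∀ r ∈ rels, (r.map g).prod = 1) (hH : ∀ r ∈ subs, (r.map g).prod ∈ H)
    (j u : ℕ) (hu : u < M) (h : dp_e_1 j u = true) : Good (fa g) T MG M (cP g H) Lt.e u := by
  unfold dp_e_1 at h
  rcases brec_true h with h | h
  · exact lF_good (T := T) (x := Lt.e) (by decide) [Lt.b, Lt.fi, Lt.bi, Lt.ei, Lt.c, Lt.fi, Lt.ci] (hole_rel hinv hr (by decide +kernel)) h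
  · exact lS_good (T := T) (x := Lt.e) (by decide) hu [Lt.c, Lt.fi, Lt.bi, Lt.e, Lt.b, Lt.f, Lt.ci] (hole_rel hinv hr (by decide +kernel)) h
theorem dp_e_2_s (hinv : ∀ x, g (inv x) = (g x)⁻¹) (hr : ∀ r ∈ rels, (r.map g).prod = 1) (hH : ∀ r ∈ subs, (r.map g).prod ∈ H)
    (j u : ℕ) (hu : u < M) (h : dp_e_2 j u = true) : Good (fa g) T MG M (cP g H) Lt.e u := by
  unfold dp_e_2 at h
  rcases brec_true h with h | h
  · exact lS_good (T := T) (x := Lt.e) (by decide) hu [Lt.b, Lt.f, Lt.ci, Lt.e, Lt.c, Lt.fi, Lt.bi] (hole_rel hinv hr (by decide +kernel)) h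
  · exact dp_e_1_s hinv hr hH j u hu h
theorem dp_e_3_s (hinv : ∀ x, g (inv x) = (g x)⁻¹) (hr : ∀ r ∈ rels, (r.map g).prod = 1) (hH : ∀ r ∈ subs, (r.map g).prod ∈ H)
    (j u : ℕ) (hu : u < M) (h : dp_e_3 j u = true) : Good (fa g) T MG M (cP g H) Lt.e u := by
  unfold dp_e_3 at h
  rcases brec_true h with h | h
  · exact dp_e_0_s hinv hr hH j u hu h
  · exact dp_e_2_s hinv hr hH j u hu h
theorem dp_e_4_s (hinv : ∀ x, g (inv x) = (g x)⁻¹) (hr : ∀ r ∈ rels, (r.map g).prod = 1) (hH : ∀ r ∈ subs, (r.map g).prod ∈ H)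
    (j u : ℕ) (hu : u < M) (h : dp_e_4 j u = true) : Good (fa g) T MG M (cP g H) Lt.e u := by
  unfold dp_e_4 at h
  rcases brec_true h with h | h
  · exact lS_good (T := T) (x := Lt.e) (by decide) hu [Lt.bi, Lt.e, Lt.di, Lt.bi, Lt.c, Lt.f, Lt.bi, Lt.ei, Lt.b] (hole_rel hinv hr (by decide +kernel)) h
  · exact lF_good (T := T) (x := Lt.e) (by decide) [Lt.c, Lt.fi, Lt.bi, Lt.e, Lt.b, Lt.f, Lt.ci] (hole_rel hinv hr (by decide +kernel)) h
theorem dp_e_5_s (hinv : ∀ x, g (inv x) = (g x)⁻¹) (hr : ∀ r ∈ rels, (r.map g).prod = 1) (hH : ∀ r ∈ subs, (r.map g).prod ∈ H)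
    (j u : ℕ) (hu : u < M) (h : dp_e_5 j u = true) : Good (fa g) T MG M (cP g H) Lt.e u := by
  unfold dp_e_5 at h
  rcases brec_true h with h | h
  · exact lF_good (T := T) (x := Lt.e) (by decide) [Lt.b, Lt.f, Lt.bi, Lt.ei, Lt.c, Lt.f, Lt.ci] (hole_rel hinv hr (by decide +kernel)) h
  · exact dp_e_4_s hinv hr hH j u hu h
theorem dp_e_6_s (hinv : ∀ x, g (inv x) = (g x)⁻¹) (hr : ∀ r ∈ rels, (r.map g).prod = 1) (hH : ∀ r ∈ subs, (r.map g).prod ∈ H)
    (j u : ℕ) (hu : u < M) (h : dp_e_6 j u = true) : Good (fa g) T MG M (cP g H) Lt.e u := by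
  unfold dp_e_6 at h
  rcases brec_true h with h | h
  · exact lF_good (T := T) (x := Lt.e) (by decide) [Lt.b, Lt.f, Lt.ci, Lt.e, Lt.c, Lt.fi, Lt.bi] (hole_rel hinv hr (by decide +kernel)) h
  · exact lS_good (T := T) (x := Lt.e) (by decide) hu [Lt.bi, Lt.e, Lt.ci, Lt.d, Lt.bi, Lt.fi, Lt.ci, Lt.ei, Lt.b] (hole_rel hinv hr (by decide +kernel)) h
theorem dp_e_7_s (hinv : ∀ x, g (inv x) = (g x)⁻¹) (hr : ∀ r ∈ rels, (r.map g).prod = 1) (hH : ∀ r ∈ subs, (r.map g).prod ∈ H)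
    (j u : ℕ) (hu : u < M) (h : dp_e_7 j u = true) : Good (fa g) T MG M (cP g H) Lt.e u := by
  unfold dp_e_7 at h
  rcases brec_true h with h | h
  · exact lS_good (T := T) (x := Lt.e) (by decide) hu [Lt.di, Lt.bi, Lt.c, Lt.f, Lt.bi, Lt.ei, Lt.b, Lt.e, Lt.bi] (hole_rel hinv hr (by decide +kernel)) h
  · exact lF_good (T := T) (x := Lt.e) (by decide) [Lt.bi, Lt.e, Lt.di, Lt.bi, Lt.c, Lt.f, Lt.bi, Lt.ei, Lt.b] (hole_rel hinv hr (by decide +kernel)) h
theorem dp_e_8_s (hinv : ∀ x, g (inv x) = (g x)⁻¹) (hr : ∀ r ∈ rels, (r.map g).prod = 1) (hH : ∀ r ∈ subs, (r.map g).prod ∈ H)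
    (j u : ℕ) (hu : u < M) (h : dp_e_8 j u = true) : Good (fa g) T MG M (cP g H) Lt.e u := by
  unfold dp_e_8 at h
  rcases brec_true h with h | h
  · exact lS_good (T := T) (x := Lt.e) (by decide) hu [Lt.bi, Lt.e, Lt.fi, Lt.ci, Lt.bi, Lt.ci, Lt.di, Lt.ei, Lt.b] (hole_rel hinv hr (by decide +kernel)) h
  · exact dp_e_7_s hinv hr hH j u hu h
theorem dp_e_9_s (hinv : ∀ x, g (inv x) = (g x)⁻¹) (hr : ∀ r ∈ rels, (r.map g).prod = 1) (hH : ∀ r ∈ subs, (r.map g).prod ∈ H)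
    (j u : ℕ) (hu : u < M) (h : dp_e_9 j u = true) : Good (fa g) T MG M (cP g H) Lt.e u := by
  unfold dp_e_9 at h
  rcases brec_true h with h | h
  · exact lF_good (T := T) (x := Lt.e) (by decide) [Lt.bi, Lt.e, Lt.fi, Lt.ci, Lt.bi, Lt.ci, Lt.di, Lt.ei, Lt.b] (hole_rel hinv hr (by decide +kernel)) h
  · exact lS_good (T := T) (x := Lt.e) (by decide) hu [Lt.c, Lt.f, Lt.b, Lt.di, Lt.c, Lt.ei, Lt.b, Lt.ei, Lt.bi] (hole_rel hinv hr (by decide +kernel)) h
theorem dp_e_10_s (hinv : ∀ x, g (inv x) = (g x)⁻¹) (hr : ∀ r ∈ rels, (r.map g).prod = 1) (hH : ∀ r ∈ subs, (r.map g).prod ∈ H)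
    (j u : ℕ) (hu : u < M) (h : dp_e_10 j u = true) : Good (fa g) T MG M (cP g H) Lt.e u := by
  unfold dp_e_10 at h
  rcases brec_true h with h | h
  · exact lS_good (T := T) (x := Lt.e) (by decide) hu [Lt.b, Lt.fi, Lt.ci, Lt.b, Lt.d, Lt.ei, Lt.b, Lt.ei, Lt.bi] (hole_rel hinv hr (by decide +kernel)) h
  · exact dp_e_9_s hinv hr hH j u hu h
theorem dp_e_11_s (hinv : ∀ x, g (inv x) = (g x)⁻¹) (hr : ∀ r ∈ rels, (r.map g).prod = 1) (hH : ∀ r ∈ subs, (r.map g).prod ∈ H)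
    (j u : ℕ) (hu : u < M) (h : dp_e_11 j u = true) : Good (fa g) T MG M (cP g H) Lt.e u := by
  unfold dp_e_11 at h
  rcases brec_true h with h | h
  · exact lS_good (T := T) (x := Lt.e) (by decide) hu [Lt.ci, Lt.d, Lt.bi, Lt.fi, Lt.ci, Lt.ei, Lt.b, Lt.e, Lt.bi] (hole_rel hinv hr (by decide +kernel)) h
  · exact lF_good (T := T) (x := Lt.e) (by decide) [Lt.bi, Lt.e, Lt.ci, Lt.d, Lt.bi, Lt.fi, Lt.ci, Lt.ei, Lt.b] (hole_rel hinv hr (by decide +kernel)) h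
theorem dp_e_12_s (hinv : ∀ x, g (inv x) = (g x)⁻¹) (hr : ∀ r ∈ rels, (r.map g).prod = 1) (hH : ∀ r ∈ subs, (r.map g).prod ∈ H)
    (j u : ℕ) (hu : u < M) (h : dp_e_12 j u = true) : Good (fa g) T MG M (cP g H) Lt.e u := by
  unfold dp_e_12 at h
  rcases brec_true h with h | h
  · exact lF_good (T := T) (x := Lt.e) (by decide) [Lt.ci, Lt.d, Lt.bi, Lt.fi, Lt.ci, Lt.ei, Lt.b, Lt.e, Lt.bi] (hole_rel hinv hr (by decide +kernel)) h
  · exact lF_good (T := T) (x := Lt.e) (by decide) [Lt.b, Lt.fi, Lt.ci, Lt.b, Lt.d, Lt.ei, Lt.b, Lt.ei, Lt.bi] (hole_rel hinv hr (by decide +kernel)) h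
theorem dp_e_13_s (hinv : ∀ x, g (inv x) = (g x)⁻¹) (hr : ∀ r ∈ rels, (r.map g).prod = 1) (hH : ∀ r ∈ subs, (r.map g).prod ∈ H)
    (j u : ℕ) (hu : u < M) (h : dp_e_13 j u = true) : Good (fa g) T MG M (cP g H) Lt.e u := by
  unfold dp_e_13 at h
  rcases brec_true h with h | h
  · exact lF_good (T := T) (x := Lt.e) (by decide) [Lt.di, Lt.bi, Lt.c, Lt.f, Lt.bi, Lt.ei, Lt.b, Lt.e, Lt.bi] (hole_rel hinv hr (by decide +kernel)) h
  · exact dp_e_12_s hinv hr hH j u hu h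
theorem dp_e_14_s (hinv : ∀ x, g (inv x) = (g x)⁻¹) (hr : ∀ r ∈ rels, (r.map g).prod = 1) (hH : ∀ r ∈ subs, (r.map g).prod ∈ H)
    (j u : ℕ) (hu : u < M) (h : dp_e_14 j u = true) : Good (fa g) T MG M (cP g H) Lt.e u := by
  unfold dp_e_14 at h
  rcases brec_true h with h | h
  · exact lS_good (T := T) (x := Lt.e) (by decide) hu [Lt.fi, Lt.ci, Lt.bi, Lt.ci, Lt.di, Lt.ei, Lt.b, Lt.e, Lt.bi] (hole_rel hinv hr (by decide +kernel)) h
  · exact dp_e_13_s hinv hr hH j u hu h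
theorem dp_e_15_s (hinv : ∀ x, g (inv x) = (g x)⁻¹) (hr : ∀ r ∈ rels, (r.map g).prod = 1) (hH : ∀ r ∈ subs, (r.map g).prod ∈ H)
    (j u : ℕ) (hu : u < M) (h : dp_e_15 j u = true) : Good (fa g) T MG M (cP g H) Lt.e u := by
  unfold dp_e_15 at h
  rcases brec_true h with h | h
  · exact lS_good (T := T) (x := Lt.e) (by decide) hu [Lt.d, Lt.c, Lt.b, Lt.c, Lt.f, Lt.ei, Lt.b, Lt.ei, Lt.bi] (hole_rel hinv hr (by decide +kernel)) h
  · exact dp_e_14_s hinv hr hH j u hu h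
theorem dp_e_16_s (hinv : ∀ x, g (inv x) = (g x)⁻¹) (hr : ∀ r ∈ rels, (r.map g).prod = 1) (hH : ∀ r ∈ subs, (r.map g).prod ∈ H)
    (j u : ℕ) (hu : u < M) (h : dp_e_16 j u = true) : Good (fa g) T MG M (cP g H) Lt.e u := by
  unfold dp_e_16 at h
  rcases brec_true h with h | h
  · exact dp_e_11_s hinv hr hH j u hu h
  · exact dp_e_15_s hinv hr hH j u hu h
theorem dp_e_17_s (hinv : ∀ x, g (inv x) = (g x)⁻¹) (hr : ∀ r ∈ rels, (r.map g).prod = 1) (hH : ∀ r ∈ subs, (r.map g).prod ∈ H)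
    (j u : ℕ) (hu : u < M) (h : dp_e_17 j u = true) : Good (fa g) T MG M (cP g H) Lt.e u := by
  unfold dp_e_17 at h
  rcases brec_true h with h | h
  · exact dp_e_10_s hinv hr hH j u hu h
  · exact dp_e_16_s hinv hr hH j u hu h
theorem dp_e_18_s (hinv : ∀ x, g (inv x) = (g x)⁻¹) (hr : ∀ r ∈ rels, (r.map g).prod = 1) (hH : ∀ r ∈ subs, (r.map g).prod ∈ H)
    (j u : ℕ) (hu : u < M) (h : dp_e_18 j u = true) : Good (fa g) T MG M (cP g H) Lt.e u := by
  unfold dp_e_18 at h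
  rcases brec_true h with h | h
  · exact dp_e_8_s hinv hr hH j u hu h
  · exact dp_e_17_s hinv hr hH j u hu h
theorem dp_e_19_s (hinv : ∀ x, g (inv x) = (g x)⁻¹) (hr : ∀ r ∈ rels, (r.map g).prod = 1) (hH : ∀ r ∈ subs, (r.map g).prod ∈ H)
    (j u : ℕ) (hu : u < M) (h : dp_e_19 j u = true) : Good (fa g) T MG M (cP g H) Lt.e u := by
  unfold dp_e_19 at h
  rcases brec_true h with h | h
  · exact dp_e_6_s hinv hr hH j u hu h
  · exact dp_e_18_s hinv hr hH j u hu h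
theorem dp_e_20_s (hinv : ∀ x, g (inv x) = (g x)⁻¹) (hr : ∀ r ∈ rels, (r.map g).prod = 1) (hH : ∀ r ∈ subs, (r.map g).prod ∈ H)
    (j u : ℕ) (hu : u < M) (h : dp_e_20 j u = true) : Good (fa g) T MG M (cP g H) Lt.e u := by
  unfold dp_e_20 at h
  rcases brec_true h with h | h
  · exact dp_e_5_s hinv hr hH j u hu h
  · exact dp_e_19_s hinv hr hH j u hu h
theorem dp_e_21_s (hinv : ∀ x, g (inv x) = (g x)⁻¹) (hr : ∀ r ∈ rels, (r.map g).prod = 1) (hH : ∀ r ∈ subs, (r.map g).prod ∈ H)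
    (j u : ℕ) (hu : u < M) (h : dp_e_21 j u = true) : Good (fa g) T MG M (cP g H) Lt.e u := by
  unfold dp_e_21 at h
  rcases brec_true h with h | h
  · exact dp_e_3_s hinv hr hH j u hu h
  · exact dp_e_20_s hinv hr hH j u hu h
theorem dp_e_22_s (hinv : ∀ x, g (inv x) = (g x)⁻¹) (hr : ∀ r ∈ rels, (r.map g).prod = 1) (hH : ∀ r ∈ subs, (r.map g).prod ∈ H)
    (j u : ℕ) (hu : u < M) (h : dp_e_22 j u = true) : Good (fa g) T MG M (cP g H) Lt.e u := by
  unfold dp_e_22 at h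
  rcases brec_true h with h | h
  · rcases brec_true h with h | h
    · exact lF1_good (T := T) (x := Lt.e) (by decide) .ei (hole_rel hinv hr (by decide +kernel)) h
    · exact lS_good (T := T) (x := Lt.e) (by decide) hu [Lt.ei] (hole_rel hinv hr (by decide +kernel)) h
  · exact dp_e_21_s hinv hr hH j u hu h
theorem snd_e (hinv : ∀ x, g (inv x) = (g x)⁻¹) (hr : ∀ r ∈ rels, (r.map g).prod = 1) (hH : ∀ r ∈ subs, (r.map g).prod ∈ H)
    (j u : ℕ) (hu : u < M) (h : disp_e j u = true) : Good (fa g) T MG M (cP g H) Lt.e u := by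
  unfold disp_e at h
  rcases brec_true h with h | h
  · rcases brec_true h with h | h
    · exact lPar_good (T := T) (x := Lt.e) (x' := Lt.ei) (by decide) rfl (inv_rel hinv _ _ rfl) h
    · exact lDef_good (T := T) (x := Lt.e) (by decide) rfl h
  · exact dp_e_22_s hinv hr hH j u hu h
theorem snc_e (hinv : ∀ x, g (inv x) = (g x)⁻¹) (hr : ∀ r ∈ rels, (r.map g).prod = 1) (hH : ∀ r ∈ subs, (r.map g).prod ∈ H)
    (j u : ℕ) (hu : u < M) (h : chk_e j u = true) : (T Lt.e u < A ∧ Good (fa g) T MG M (cP g H) Lt.e u) ∨ (A ≤ T Lt.e u ∧ MG u < A) := by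
  unfold chk_e at h
  cases hb : Nat.ble A (T_e u) with
  | true => rw [hb] at h; exact Or.inr ⟨le_of_ble hb, le_of_ble h⟩
  | false => rw [hb] at h; exact Or.inl ⟨lt_of_ble_false hb, snd_e hinv hr hH j u hu h⟩
theorem dp_ei_0_s (hinv : ∀ x, g (inv x) = (g x)⁻¹) (hr : ∀ r ∈ rels, (r.map g).prod = 1) (hH : ∀ r ∈ subs, (r.map g).prod ∈ H)
    (j u : ℕ) (hu : u < M) (h : dp_ei_0 j u = true) : Good (fa g) T MG M (cP g H) Lt.ei u := by
  unfold dp_ei_0 at h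
  rcases brec_true h with h | h
  · exact lS_good (T := T) (x := Lt.ei) (by decide) hu [Lt.c, Lt.f, Lt.ci, Lt.e, Lt.b, Lt.f, Lt.bi] (hole_rel hinv hr (by decide +kernel)) h
  · exact lS_good (T := T) (x := Lt.ei) (by decide) hu [Lt.c, Lt.fi, Lt.bi, Lt.ei, Lt.b, Lt.f, Lt.ci] (hole_rel hinv hr (by decide +kernel)) h
theorem dp_ei_1_s (hinv : ∀ x, g (inv x) = (g x)⁻¹) (hr : ∀ r ∈ rels, (r.map g).prod = 1) (hH : ∀ r ∈ subs, (r.map g).prod ∈ H)
    (j u : ℕ) (hu : u < M) (h : dp_ei_1 j u = true) : Good (fa g) T MG M (cP g H) Lt.ei u := by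
  unfold dp_ei_1 at h
  rcases brec_true h with h | h
  · exact lS_good (T := T) (x := Lt.ei) (by decide) hu [Lt.c, Lt.fi, Lt.ci, Lt.e, Lt.b, Lt.fi, Lt.bi] (hole_rel hinv hr (by decide +kernel)) h
  · exact lF_good (T := T) (x := Lt.ei) (by decide) [Lt.c, Lt.fi, Lt.bi, Lt.ei, Lt.b, Lt.f, Lt.ci] (hole_rel hinv hr (by decide +kernel)) h
theorem dp_ei_2_s (hinv : ∀ x, g (inv x) = (g x)⁻¹) (hr : ∀ r ∈ rels, (r.map g).prod = 1) (hH : ∀ r ∈ subs, (r.map g).prod ∈ H)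
    (j u : ℕ) (hu : u < M) (h : dp_ei_2 j u = true) : Good (fa g) T MG M (cP g H) Lt.ei u := by
  unfold dp_ei_2 at h
  rcases brec_true h with h | h
  · exact dp_ei_0_s hinv hr hH j u hu h
  · exact dp_ei_1_s hinv hr hH j u hu h
theorem dp_ei_3_s (hinv : ∀ x, g (inv x) = (g x)⁻¹) (hr : ∀ r ∈ rels, (r.map g).prod = 1) (hH : ∀ r ∈ subs, (r.map g).prod ∈ H)
    (j u : ℕ) (hu : u < M) (h : dp_ei_3 j u = true) : Good (fa g) T MG M (cP g H) Lt.ei u := by
  unfold dp_ei_3 at h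
  rcases brec_true h with h | h
  · exact lS_good (T := T) (x := Lt.ei) (by decide) hu [Lt.b, Lt.f, Lt.ci, Lt.ei, Lt.c, Lt.fi, Lt.bi] (hole_rel hinv hr (by decide +kernel)) h
  · exact lS_good (T := T) (x := Lt.ei) (by decide) hu [Lt.bi, Lt.e, Lt.b, Lt.fi, Lt.ci, Lt.b, Lt.d, Lt.ei, Lt.b] (hole_rel hinv hr (by decide +kernel)) h
theorem dp_ei_4_s (hinv : ∀ x, g (inv x) = (g x)⁻¹) (hr : ∀ r ∈ rels, (r.map g).prod = 1) (hH : ∀ r ∈ subs, (r.map g).prod ∈ H)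
    (j u : ℕ) (hu : u < M) (h : dp_ei_4 j u = true) : Good (fa g) T MG M (cP g H) Lt.ei u := by
  unfold dp_ei_4 at h
  rcases brec_true h with h | h
  · exact lF_good (T := T) (x := Lt.ei) (by decide) [Lt.c, Lt.f, Lt.ci, Lt.e, Lt.b, Lt.f, Lt.bi] (hole_rel hinv hr (by decide +kernel)) h
  · exact lF_good (T := T) (x := Lt.ei) (by decide) [Lt.c, Lt.fi, Lt.ci, Lt.e, Lt.b, Lt.fi, Lt.bi] (hole_rel hinv hr (by decide +kernel)) h
theorem dp_ei_5_s (hinv : ∀ x, g (inv x) = (g x)⁻¹) (hr : ∀ r ∈ rels, (r.map g).prod = 1) (hH : ∀ r ∈ subs, (r.map g).prod ∈ H)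
    (j u : ℕ) (hu : u < M) (h : dp_ei_5 j u = true) : Good (fa g) T MG M (cP g H) Lt.ei u := by
  unfold dp_ei_5 at h
  rcases brec_true h with h | h
  · exact dp_ei_3_s hinv hr hH j u hu h
  · exact dp_ei_4_s hinv hr hH j u hu h
theorem dp_ei_6_s (hinv : ∀ x, g (inv x) = (g x)⁻¹) (hr : ∀ r ∈ rels, (r.map g).prod = 1) (hH : ∀ r ∈ subs, (r.map g).prod ∈ H)
    (j u : ℕ) (hu : u < M) (h : dp_ei_6 j u = true) : Good (fa g) T MG M (cP g H) Lt.ei u := by
  unfold dp_ei_6 at h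
  rcases brec_true h with h | h
  · exact lS_good (T := T) (x := Lt.ei) (by decide) hu [Lt.bi, Lt.e, Lt.c, Lt.f, Lt.b, Lt.di, Lt.c, Lt.ei, Lt.b] (hole_rel hinv hr (by decide +kernel)) h
  · exact lF_good (T := T) (x := Lt.ei) (by decide) [Lt.bi, Lt.e, Lt.b, Lt.fi, Lt.ci, Lt.b, Lt.d, Lt.ei, Lt.b] (hole_rel hinv hr (by decide +kernel)) h
theorem dp_ei_7_s (hinv : ∀ x, g (inv x) = (g x)⁻¹) (hr : ∀ r ∈ rels, (r.map g).prod = 1) (hH : ∀ r ∈ subs, (r.map g).prod ∈ H)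
    (j u : ℕ) (hu : u < M) (h : dp_ei_7 j u = true) : Good (fa g) T MG M (cP g H) Lt.ei u := by
  unfold dp_ei_7 at h
  rcases brec_true h with h | h
  · exact lF_good (T := T) (x := Lt.ei) (by decide) [Lt.b, Lt.f, Lt.ci, Lt.ei, Lt.c, Lt.fi, Lt.bi] (hole_rel hinv hr (by decide +kernel)) h
  · exact dp_ei_6_s hinv hr hH j u hu h
theorem dp_ei_8_s (hinv : ∀ x, g (inv x) = (g x)⁻¹) (hr : ∀ r ∈ rels, (r.map g).prod = 1) (hH : ∀ r ∈ subs, (r.map g).prod ∈ H)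
    (j u : ℕ) (hu : u < M) (h : dp_ei_8 j u = true) : Good (fa g) T MG M (cP g H) Lt.ei u := by
  unfold dp_ei_8 at h
  rcases brec_true h with h | h
  · exact lS_good (T := T) (x := Lt.ei) (by decide) hu [Lt.b, Lt.ei, Lt.bi, Lt.e, Lt.b, Lt.fi, Lt.ci, Lt.b, Lt.d] (hole_rel hinv hr (by decide +kernel)) h
  · exact lF_good (T := T) (x := Lt.ei) (by decide) [Lt.bi, Lt.e, Lt.c, Lt.f, Lt.b, Lt.di, Lt.c, Lt.ei, Lt.b] (hole_rel hinv hr (by decide +kernel)) h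
theorem dp_ei_9_s (hinv : ∀ x, g (inv x) = (g x)⁻¹) (hr : ∀ r ∈ rels, (r.map g).prod = 1) (hH : ∀ r ∈ subs, (r.map g).prod ∈ H)
    (j u : ℕ) (hu : u < M) (h : dp_ei_9 j u = true) : Good (fa g) T MG M (cP g H) Lt.ei u := by
  unfold dp_ei_9 at h
  rcases brec_true h with h | h
  · exact lS_good (T := T) (x := Lt.ei) (by decide) hu [Lt.bi, Lt.e, Lt.d, Lt.c, Lt.b, Lt.c, Lt.f, Lt.ei, Lt.b] (hole_rel hinv hr (by decide +kernel)) h
  · exact dp_ei_8_s hinv hr hH j u hu h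
theorem dp_ei_10_s (hinv : ∀ x, g (inv x) = (g x)⁻¹) (hr : ∀ r ∈ rels, (r.map g).prod = 1) (hH : ∀ r ∈ subs, (r.map g).prod ∈ H)
    (j u : ℕ) (hu : u < M) (h : dp_ei_10 j u = true) : Good (fa g) T MG M (cP g H) Lt.ei u := by
  unfold dp_ei_10 at h
  rcases brec_true h with h | h
  · exact lS_good (T := T) (x := Lt.ei) (by decide) hu [Lt.b, Lt.e, Lt.bi, Lt.e, Lt.di, Lt.bi, Lt.c, Lt.f, Lt.bi] (hole_rel hinv hr (by decide +kernel)) h
  · exact lS_good (T := T) (x := Lt.ei) (by decide) hu [Lt.b, Lt.ei, Lt.bi, Lt.e, Lt.c, Lt.f, Lt.b, Lt.di, Lt.c] (hole_rel hinv hr (by decide +kernel)) h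
theorem dp_ei_11_s (hinv : ∀ x, g (inv x) = (g x)⁻¹) (hr : ∀ r ∈ rels, (r.map g).prod = 1) (hH : ∀ r ∈ subs, (r.map g).prod ∈ H)
    (j u : ℕ) (hu : u < M) (h : dp_ei_11 j u = true) : Good (fa g) T MG M (cP g H) Lt.ei u := by
  unfold dp_ei_11 at h
  rcases brec_true h with h | h
  · exact lS_good (T := T) (x := Lt.ei) (by decide) hu [Lt.b, Lt.e, Lt.bi, Lt.e, Lt.fi, Lt.ci, Lt.bi, Lt.ci, Lt.di] (hole_rel hinv hr (by decide +kernel)) h
  · exact dp_ei_10_s hinv hr hH j u hu h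
theorem dp_ei_12_s (hinv : ∀ x, g (inv x) = (g x)⁻¹) (hr : ∀ r ∈ rels, (r.map g).prod = 1) (hH : ∀ r ∈ subs, (r.map g).prod ∈ H)
    (j u : ℕ) (hu : u < M) (h : dp_ei_12 j u = true) : Good (fa g) T MG M (cP g H) Lt.ei u := by
  unfold dp_ei_12 at h
  rcases brec_true h with h | h
  · exact lS_good (T := T) (x := Lt.ei) (by decide) hu [Lt.b, Lt.e, Lt.bi, Lt.e, Lt.ci, Lt.d, Lt.bi, Lt.fi, Lt.ci] (hole_rel hinv hr (by decide +kernel)) h
  · exact lF_good (T := T) (x := Lt.ei) (by decide) [Lt.b, Lt.e, Lt.bi, Lt.e, Lt.fi, Lt.ci, Lt.bi, Lt.ci, Lt.di] (hole_rel hinv hr (by decide +kernel)) h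
theorem dp_ei_13_s (hinv : ∀ x, g (inv x) = (g x)⁻¹) (hr : ∀ r ∈ rels, (r.map g).prod = 1) (hH : ∀ r ∈ subs, (r.map g).prod ∈ H)
    (j u : ℕ) (hu : u < M) (h : dp_ei_13 j u = true) : Good (fa g) T MG M (cP g H) Lt.ei u := by
  unfold dp_ei_13 at h
  rcases brec_true h with h | h
  · exact lF_good (T := T) (x := Lt.ei) (by decide) [Lt.b, Lt.ei, Lt.bi, Lt.e, Lt.b, Lt.fi, Lt.ci, Lt.b, Lt.d] (hole_rel hinv hr (by decide +kernel)) h
  · exact dp_ei_12_s hinv hr hH j u hu h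
theorem dp_ei_14_s (hinv : ∀ x, g (inv x) = (g x)⁻¹) (hr : ∀ r ∈ rels, (r.map g).prod = 1) (hH : ∀ r ∈ subs, (r.map g).prod ∈ H)
    (j u : ℕ) (hu : u < M) (h : dp_ei_14 j u = true) : Good (fa g) T MG M (cP g H) Lt.ei u := by
  unfold dp_ei_14 at h
  rcases brec_true h with h | h
  · exact lF_good (T := T) (x := Lt.ei) (by decide) [Lt.bi, Lt.e, Lt.d, Lt.c, Lt.b, Lt.c, Lt.f, Lt.ei, Lt.b] (hole_rel hinv hr (by decide +kernel)) h
  · exact lF_good (T := T) (x := Lt.ei) (by decide) [Lt.b, Lt.e, Lt.bi, Lt.e, Lt.ci, Lt.d, Lt.bi, Lt.fi, Lt.ci] (hole_rel hinv hr (by decide +kernel)) h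
theorem dp_ei_15_s (hinv : ∀ x, g (inv x) = (g x)⁻¹) (hr : ∀ r ∈ rels, (r.map g).prod = 1) (hH : ∀ r ∈ subs, (r.map g).prod ∈ H)
    (j u : ℕ) (hu : u < M) (h : dp_ei_15 j u = true) : Good (fa g) T MG M (cP g H) Lt.ei u := by
  unfold dp_ei_15 at h
  rcases brec_true h with h | h
  · exact lF_good (T := T) (x := Lt.ei) (by decide) [Lt.b, Lt.e, Lt.bi, Lt.e, Lt.di, Lt.bi, Lt.c, Lt.f, Lt.bi] (hole_rel hinv hr (by decide +kernel)) h
  · exact dp_ei_14_s hinv hr hH j u hu h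
theorem dp_ei_16_s (hinv : ∀ x, g (inv x) = (g x)⁻¹) (hr : ∀ r ∈ rels, (r.map g).prod = 1) (hH : ∀ r ∈ subs, (r.map g).prod ∈ H)
    (j u : ℕ) (hu : u < M) (h : dp_ei_16 j u = true) : Good (fa g) T MG M (cP g H) Lt.ei u := by
  unfold dp_ei_16 at h
  rcases brec_true h with h | h
  · exact lS_good (T := T) (x := Lt.ei) (by decide) hu [Lt.b, Lt.ei, Lt.bi, Lt.e, Lt.d, Lt.c, Lt.b, Lt.c, Lt.f] (hole_rel hinv hr (by decide +kernel)) h
  · exact dp_ei_15_s hinv hr hH j u hu h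
theorem dp_ei_17_s (hinv : ∀ x, g (inv x) = (g x)⁻¹) (hr : ∀ r ∈ rels, (r.map g).prod = 1) (hH : ∀ r ∈ subs, (r.map g).prod ∈ H)
    (j u : ℕ) (hu : u < M) (h : dp_ei_17 j u = true) : Good (fa g) T MG M (cP g H) Lt.ei u := by
  unfold dp_ei_17 at h
  rcases brec_true h with h | h
  · exact dp_ei_13_s hinv hr hH j u hu h
  · exact dp_ei_16_s hinv hr hH j u hu h
theorem dp_ei_18_s (hinv : ∀ x, g (inv x) = (g x)⁻¹) (hr : ∀ r ∈ rels, (r.map g).prod = 1) (hH : ∀ r ∈ subs, (r.map g).prod ∈ H)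
    (j u : ℕ) (hu : u < M) (h : dp_ei_18 j u = true) : Good (fa g) T MG M (cP g H) Lt.ei u := by
  unfold dp_ei_18 at h
  rcases brec_true h with h | h
  · exact dp_ei_11_s hinv hr hH j u hu h
  · exact dp_ei_17_s hinv hr hH j u hu h
theorem dp_ei_19_s (hinv : ∀ x, g (inv x) = (g x)⁻¹) (hr : ∀ r ∈ rels, (r.map g).prod = 1) (hH : ∀ r ∈ subs, (r.map g).prod ∈ H)
    (j u : ℕ) (hu : u < M) (h : dp_ei_19 j u = true) : Good (fa g) T MG M (cP g H) Lt.ei u := by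
  unfold dp_ei_19 at h
  rcases brec_true h with h | h
  · exact dp_ei_9_s hinv hr hH j u hu h
  · exact dp_ei_18_s hinv hr hH j u hu h
theorem dp_ei_20_s (hinv : ∀ x, g (inv x) = (g x)⁻¹) (hr : ∀ r ∈ rels, (r.map g).prod = 1) (hH : ∀ r ∈ subs, (r.map g).prod ∈ H)
    (j u : ℕ) (hu : u < M) (h : dp_ei_20 j u = true) : Good (fa g) T MG M (cP g H) Lt.ei u := by
  unfold dp_ei_20 at h
  rcases brec_true h with h | h
  · exact dp_ei_7_s hinv hr hH j u hu h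
  · exact dp_ei_19_s hinv hr hH j u hu h
theorem dp_ei_21_s (hinv : ∀ x, g (inv x) = (g x)⁻¹) (hr : ∀ r ∈ rels, (r.map g).prod = 1) (hH : ∀ r ∈ subs, (r.map g).prod ∈ H)
    (j u : ℕ) (hu : u < M) (h : dp_ei_21 j u = true) : Good (fa g) T MG M (cP g H) Lt.ei u := by
  unfold dp_ei_21 at h
  rcases brec_true h with h | h
  · exact dp_ei_5_s hinv hr hH j u hu h
  · exact dp_ei_20_s hinv hr hH j u hu h
theorem dp_ei_22_s (hinv : ∀ x, g (inv x) = (g x)⁻¹) (hr : ∀ r ∈ rels, (r.map g).prod = 1) (hH : ∀ r ∈ subs, (r.map g).prod ∈ H)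
    (j u : ℕ) (hu : u < M) (h : dp_ei_22 j u = true) : Good (fa g) T MG M (cP g H) Lt.ei u := by
  unfold dp_ei_22 at h
  rcases brec_true h with h | h
  · exact dp_ei_2_s hinv hr hH j u hu h
  · exact dp_ei_21_s hinv hr hH j u hu h
theorem dp_ei_23_s (hinv : ∀ x, g (inv x) = (g x)⁻¹) (hr : ∀ r ∈ rels, (r.map g).prod = 1) (hH : ∀ r ∈ subs, (r.map g).prod ∈ H)
    (j u : ℕ) (hu : u < M) (h : dp_ei_23 j u = true) : Good (fa g) T MG M (cP g H) Lt.ei u := by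
  unfold dp_ei_23 at h
  rcases brec_true h with h | h
  · rcases brec_true h with h | h
    · exact lF1_good (T := T) (x := Lt.ei) (by decide) .e (hole_rel hinv hr (by decide +kernel)) h
    · exact lS_good (T := T) (x := Lt.ei) (by decide) hu [Lt.e] (hole_rel hinv hr (by decide +kernel)) h
  · exact dp_ei_22_s hinv hr hH j u hu h
theorem snd_ei (hinv : ∀ x, g (inv x) = (g x)⁻¹) (hr : ∀ r ∈ rels, (r.map g).prod = 1) (hH : ∀ r ∈ subs, (r.map g).prod ∈ H)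
    (j u : ℕ) (hu : u < M) (h : disp_ei j u = true) : Good (fa g) T MG M (cP g H) Lt.ei u := by
  unfold disp_ei at h
  rcases brec_true h with h | h
  · rcases brec_true h with h | h
    · exact lDef_good (T := T) (x := Lt.ei) (by decide) rfl h
    · exact lPar_good (T := T) (x := Lt.ei) (x' := Lt.e) (by decide) rfl (inv_rel hinv _ _ rfl) h
  · exact dp_ei_23_s hinv hr hH j u hu h
theorem snc_ei (hinv : ∀ x, g (inv x) = (g x)⁻¹) (hr : ∀ r ∈ rels, (r.map g).prod = 1) (hH : ∀ r ∈ subs, (r.map g).prod ∈ H)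
    (j u : ℕ) (hu : u < M) (h : chk_ei j u = true) : (T Lt.ei u < A ∧ Good (fa g) T MG M (cP g H) Lt.ei u) ∨ (A ≤ T Lt.ei u ∧ MG u < A) := by
  unfold chk_ei at h
  cases hb : Nat.ble A (T_ei u) with
  | true => rw [hb] at h; exact Or.inr ⟨le_of_ble hb, le_of_ble h⟩
  | false => rw [hb] at h; exact Or.inl ⟨lt_of_ble_false hb, snd_ei hinv hr hH j u hu h⟩
theorem dM_0_s (hinv : ∀ x, g (inv x) = (g x)⁻¹) (hr : ∀ r ∈ rels, (r.map g).prod = 1) (j z1 z2 u : ℕ) (h : dM_0 j z1 z2 u = true) : GoodM (fa g) T MG M (cP g H) u := by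
  unfold dM_0 at h
  rcases brec_true h with h | h
  · rcases brec_true h with h | h
    · exact mCo_good (T := T) (y := .ci) (by decide) h
    · rcases brec_true h with h | h
      · exact mCo_good (T := T) (y := .bi) (by decide) h
      · exact mCo_good (T := T) (y := .f) (by decide) h
  · rcases brec_true h with h | h
    · rcases brec_true h with h | h
      · exact mCo_good (T := T) (y := .fi) (by decide) h
      · exact mCo_good (T := T) (y := .b) (by decide) h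
    · rcases brec_true h with h | h
      · exact mCo_good (T := T) (y := .d) (by decide) h
      · exact mCo_good (T := T) (y := .di) (by decide) h
theorem dM_1_s (hinv : ∀ x, g (inv x) = (g x)⁻¹) (hr : ∀ r ∈ rels, (r.map g).prod = 1) (j z1 z2 u : ℕ) (h : dM_1 j z1 z2 u = true) : GoodM (fa g) T MG M (cP g H) u := by
  unfold dM_1 at h
  rcases brec_true h with h | h
  · exact mCo_good (T := T) (y := .c) (by decide) h
  · exact mCo_good (T := T) (y := .ei) (by decide) h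
theorem dM_2_s (hinv : ∀ x, g (inv x) = (g x)⁻¹) (hr : ∀ r ∈ rels, (r.map g).prod = 1) (j z1 z2 u : ℕ) (h : dM_2 j z1 z2 u = true) : GoodM (fa g) T MG M (cP g H) u := by
  unfold dM_2 at h
  rcases brec_true h with h | h
  · exact mCo_good (T := T) (y := .e) (by decide) h
  · rcases brec_true h with h | h
    · rcases brec_true h with h | h
      · exact mRel_good (T := T) (by decide) [Lt.ei, Lt.b, Lt.f, Lt.ci, Lt.ei] [Lt.b, Lt.f, Lt.ci] (pair_rel hinv hr (by decide +kernel)) h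
      · exact mRel_good (T := T) (by decide) [Lt.e, Lt.c, Lt.fi, Lt.bi, Lt.e] [Lt.c, Lt.fi, Lt.bi] (pair_rel hinv hr (by decide +kernel)) h
    · rcases brec_true h with h | h
      · exact mRel_good (T := T) (by decide) [Lt.e, Lt.b, Lt.f, Lt.bi, Lt.ei] [Lt.c, Lt.fi, Lt.ci] (pair_rel hinv hr (by decide +kernel)) h
      · exact mRel_good (T := T) (by decide) [Lt.ei, Lt.b, Lt.f, Lt.ci] [Lt.b, Lt.f, Lt.ci, Lt.e] (pair_rel hinv hr (by decide +kernel)) h
theorem dM_3_s (hinv : ∀ x, g (inv x) = (g x)⁻¹) (hr : ∀ r ∈ rels, (r.map g).prod = 1) (j z1 z2 u : ℕ) (h : dM_3 j z1 z2 u = true) : GoodM (fa g) T MG M (cP g H) u := by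
  unfold dM_3 at h
  rcases brec_true h with h | h
  · rcases brec_true h with h | h
    · rcases brec_true h with h | h
      · exact mRel_good (T := T) (by decide) [Lt.e, Lt.c, Lt.fi, Lt.bi] [Lt.c, Lt.fi, Lt.bi, Lt.ei] (pair_rel hinv hr (by decide +kernel)) h
      · exact mRel_good (T := T) (by decide) [Lt.ei, Lt.c, Lt.fi, Lt.ci] [Lt.b, Lt.f, Lt.bi, Lt.ei] (pair_rel hinv hr (by decide +kernel)) h
    · rcases brec_true h with h | h
      · exact mRel_good (T := T) (by decide) [Lt.ei, Lt.c, Lt.f, Lt.ci, Lt.e] [Lt.b, Lt.fi, Lt.bi] (pair_rel hinv hr (by decide +kernel)) h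
      · rcases brec_true h with h | h
        · exact mRel_good (T := T) (by decide) [Lt.ei, Lt.c, Lt.fi, Lt.ci, Lt.e] [Lt.b, Lt.f, Lt.bi] (pair_rel hinv hr (by decide +kernel)) h
        · exact mRel_good (T := T) (by decide) [Lt.e, Lt.b, Lt.fi, Lt.bi, Lt.ei] [Lt.c, Lt.f, Lt.ci] (pair_rel hinv hr (by decide +kernel)) h
  · rcases brec_true h with h | h
    · rcases brec_true h with h | h
      · exact mRel_good (T := T) (by decide) [Lt.b, Lt.f, Lt.ci, Lt.e] [Lt.ei, Lt.b, Lt.f, Lt.ci] (pair_rel hinv hr (by decide +kernel)) h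
      · rcases brec_true h with h | h
        · exact mRel_good (T := T) (by decide) [Lt.e, Lt.b, Lt.f, Lt.bi] [Lt.c, Lt.fi, Lt.ci, Lt.e] (pair_rel hinv hr (by decide +kernel)) h
        · exact mRel_good (T := T) (by decide) [Lt.c, Lt.fi, Lt.ci] [Lt.e, Lt.b, Lt.f, Lt.bi, Lt.ei] (pair_rel hinv hr (by decide +kernel)) h
    · rcases brec_true h with h | h
      · rcases brec_true h with h | h
        · exact mRel_good (T := T) (by decide) [Lt.b, Lt.f, Lt.ci, Lt.ei] [Lt.e, Lt.b, Lt.f, Lt.ci] (pair_rel hinv hr (by decide +kernel)) h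
        · exact mRel_good (T := T) (by decide) [Lt.b, Lt.fi, Lt.bi] [Lt.ei, Lt.c, Lt.f, Lt.ci, Lt.e] (pair_rel hinv hr (by decide +kernel)) h
      · rcases brec_true h with h | h
        · exact mRel_good (T := T) (by decide) [Lt.c, Lt.fi, Lt.ci, Lt.e] [Lt.e, Lt.b, Lt.f, Lt.bi] (pair_rel hinv hr (by decide +kernel)) h
        · exact mRel_good (T := T) (by decide) [Lt.b, Lt.f, Lt.ci] [Lt.ei, Lt.b, Lt.f, Lt.ci, Lt.ei] (pair_rel hinv hr (by decide +kernel)) h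
theorem dM_4_s (hinv : ∀ x, g (inv x) = (g x)⁻¹) (hr : ∀ r ∈ rels, (r.map g).prod = 1) (j z1 z2 u : ℕ) (h : dM_4 j z1 z2 u = true) : GoodM (fa g) T MG M (cP g H) u := by
  unfold dM_4 at h
  rcases brec_true h with h | h
  · rcases brec_true h with h | h
    · rcases brec_true h with h | h
      · exact mRel_good (T := T) (by decide) [Lt.c, Lt.f, Lt.ci] [Lt.e, Lt.b, Lt.fi, Lt.bi, Lt.ei] (pair_rel hinv hr (by decide +kernel)) h
      · exact mRel_good (T := T) (by decide) [Lt.b, Lt.f, Lt.bi] [Lt.ei, Lt.c, Lt.fi, Lt.ci, Lt.e] (pair_rel hinv hr (by decide +kernel)) h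
    · rcases brec_true h with h | h
      · exact mRel_good (T := T) (by decide) [Lt.e, Lt.b, Lt.fi, Lt.bi] [Lt.c, Lt.f, Lt.ci, Lt.e] (pair_rel hinv hr (by decide +kernel)) h
      · rcases brec_true h with h | h
        · exact mRel_good (T := T) (by decide) [Lt.ei, Lt.c, Lt.f, Lt.ci] [Lt.b, Lt.fi, Lt.bi, Lt.ei] (pair_rel hinv hr (by decide +kernel)) h
        · exact mRel_good (T := T) (by decide) [Lt.ci, Lt.e, Lt.c, Lt.fi, Lt.bi, Lt.e] [Lt.fi, Lt.bi] (pair_rel hinv hr (by decide +kernel)) h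
  · rcases brec_true h with h | h
    · rcases brec_true h with h | h
      · exact mRel_good (T := T) (by decide) [Lt.bi, Lt.ei, Lt.c, Lt.f, Lt.ci, Lt.e] [Lt.fi, Lt.bi] (pair_rel hinv hr (by decide +kernel)) h
      · rcases brec_true h with h | h
        · exact mRel_good (T := T) (by decide) [Lt.bi, Lt.ei, Lt.c, Lt.fi, Lt.ci, Lt.e] [Lt.f, Lt.bi] (pair_rel hinv hr (by decide +kernel)) h
        · exact mRel_good (T := T) (by decide) [Lt.f, Lt.bi, Lt.ei] [Lt.bi, Lt.ei, Lt.c, Lt.fi, Lt.ci] (pair_rel hinv hr (by decide +kernel)) h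
    · rcases brec_true h with h | h
      · exact mRel_good (T := T) (by decide) [Lt.bi, Lt.e, Lt.b, Lt.fi, Lt.ci, Lt.b, Lt.d, Lt.ei, Lt.b, Lt.ei] [] (pair_rel hinv hr (by decide +kernel)) h
      · rcases brec_true h with h | h
        · exact mRel_good (T := T) (by decide) [Lt.ci, Lt.e, Lt.b, Lt.f, Lt.bi] [Lt.fi, Lt.ci, Lt.e] (pair_rel hinv hr (by decide +kernel)) h
        · exact mRel_good (T := T) (by decide) [Lt.b, Lt.fi, Lt.bi, Lt.ei] [Lt.ei, Lt.c, Lt.f, Lt.ci] (pair_rel hinv hr (by decide +kernel)) h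
theorem dM_5_s (hinv : ∀ x, g (inv x) = (g x)⁻¹) (hr : ∀ r ∈ rels, (r.map g).prod = 1) (j z1 z2 u : ℕ) (h : dM_5 j z1 z2 u = true) : GoodM (fa g) T MG M (cP g H) u := by
  unfold dM_5 at h
  rcases brec_true h with h | h
  · rcases brec_true h with h | h
    · exact mRel_good (T := T) (by decide) [Lt.e, Lt.b, Lt.f, Lt.bi, Lt.ei, Lt.c] [Lt.c, Lt.fi] (pair_rel hinv hr (by decide +kernel)) h
    · rcases brec_true h with h | h
      · exact mRel_good (T := T) (by decide) [Lt.e, Lt.c, Lt.fi, Lt.bi, Lt.e, Lt.b] [Lt.c, Lt.fi] (pair_rel hinv hr (by decide +kernel)) h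
      · exact mRel_good (T := T) (by decide) [Lt.c, Lt.f, Lt.ci, Lt.e] [Lt.e, Lt.b, Lt.fi, Lt.bi] (pair_rel hinv hr (by decide +kernel)) h
  · rcases brec_true h with h | h
    · rcases brec_true h with h | h
      · exact mRel_good (T := T) (by decide) [Lt.bi, Lt.ei, Lt.b, Lt.f, Lt.ci, Lt.ei] [Lt.f, Lt.ci] (pair_rel hinv hr (by decide +kernel)) h
      · exact mRel_good (T := T) (by decide) [Lt.bi, Lt.ei] [Lt.fi, Lt.bi, Lt.ei, Lt.c, Lt.fi, Lt.ci] (pair_rel hinv hr (by decide +kernel)) h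
    · rcases brec_true h with h | h
      · exact mRel_good (T := T) (by decide) [Lt.bi, Lt.e, Lt.di, Lt.bi, Lt.c, Lt.f, Lt.bi, Lt.ei, Lt.b, Lt.e] [] (pair_rel hinv hr (by decide +kernel)) h
      · exact mRel_good (T := T) (by decide) [Lt.bi, Lt.e, Lt.b, Lt.f, Lt.ci, Lt.e] [Lt.f, Lt.ci] (pair_rel hinv hr (by decide +kernel)) h
theorem dM_6_s (hinv : ∀ x, g (inv x) = (g x)⁻¹) (hr : ∀ r ∈ rels, (r.map g).prod = 1) (j z1 z2 u : ℕ) (h : dM_6 j z1 z2 u = true) : GoodM (fa g) T MG M (cP g H) u := by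
  unfold dM_6 at h
  rcases brec_true h with h | h
  · rcases brec_true h with h | h
    · rcases brec_true h with h | h
      · exact mRel_good (T := T) (by decide) [Lt.fi, Lt.ci, Lt.e] [Lt.ci, Lt.e, Lt.b, Lt.f, Lt.bi] (pair_rel hinv hr (by decide +kernel)) h
      · exact mRel_good (T := T) (by decide) [Lt.fi, Lt.bi, Lt.e, Lt.b, Lt.f, Lt.ci, Lt.e] [Lt.ci] (pair_rel hinv hr (by decide +kernel)) h
    · rcases brec_true h with h | h
      · exact mRel_good (T := T) (by decide) [Lt.ci, Lt.e, Lt.b, Lt.f, Lt.bi, Lt.ei] [Lt.fi, Lt.ci] (pair_rel hinv hr (by decide +kernel)) h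
      · exact mRel_good (T := T) (by decide) [Lt.d, Lt.c, Lt.di] [Lt.fi, Lt.c, Lt.f, Lt.ci, Lt.f] (pair_rel hinv hr (by decide +kernel)) h
  · rcases brec_true h with h | h
    · rcases brec_true h with h | h
      · exact mRel_good (T := T) (by decide) [Lt.b, Lt.fi, Lt.bi] [Lt.di, Lt.ci, Lt.d, Lt.c, Lt.d] (pair_rel hinv hr (by decide +kernel)) h
      · exact mRel_good (T := T) (by decide) [Lt.bi, Lt.ei, Lt.c, Lt.fi, Lt.ci] [Lt.f, Lt.bi, Lt.ei] (pair_rel hinv hr (by decide +kernel)) h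
    · rcases brec_true h with h | h
      · exact mRel_good (T := T) (by decide) [Lt.f, Lt.ci, Lt.e, Lt.b, Lt.f, Lt.bi] [Lt.ci, Lt.e] (pair_rel hinv hr (by decide +kernel)) h
      · exact mRel_good (T := T) (by decide) [Lt.e, Lt.b, Lt.f, Lt.ci, Lt.e] [Lt.b, Lt.f, Lt.ci] (pair_rel hinv hr (by decide +kernel)) h
theorem dM_7_s (hinv : ∀ x, g (inv x) = (g x)⁻¹) (hr : ∀ r ∈ rels, (r.map g).prod = 1) (j z1 z2 u : ℕ) (h : dM_7 j z1 z2 u = true) : GoodM (fa g) T MG M (cP g H) u := by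
  unfold dM_7 at h
  rcases brec_true h with h | h
  · exact dM_5_s hinv hr j z1 z2 u h
  · exact dM_6_s hinv hr j z1 z2 u h
theorem dM_8_s (hinv : ∀ x, g (inv x) = (g x)⁻¹) (hr : ∀ r ∈ rels, (r.map g).prod = 1) (j z1 z2 u : ℕ) (h : dM_8 j z1 z2 u = true) : GoodM (fa g) T MG M (cP g H) u := by
  unfold dM_8 at h
  rcases brec_true h with h | h
  · exact dM_4_s hinv hr j z1 z2 u h
  · exact dM_7_s hinv hr j z1 z2 u h
theorem dM_9_s (hinv : ∀ x, g (inv x) = (g x)⁻¹) (hr : ∀ r ∈ rels, (r.map g).prod = 1) (j z1 z2 u : ℕ) (h : dM_9 j z1 z2 u = true) : GoodM (fa g) T MG M (cP g H) u := by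
  unfold dM_9 at h
  rcases brec_true h with h | h
  · exact dM_3_s hinv hr j z1 z2 u h
  · exact dM_8_s hinv hr j z1 z2 u h
theorem dM_10_s (hinv : ∀ x, g (inv x) = (g x)⁻¹) (hr : ∀ r ∈ rels, (r.map g).prod = 1) (j z1 z2 u : ℕ) (h : dM_10 j z1 z2 u = true) : GoodM (fa g) T MG M (cP g H) u := by
  unfold dM_10 at h
  rcases brec_true h with h | h
  · exact dM_2_s hinv hr j z1 z2 u h
  · exact dM_9_s hinv hr j z1 z2 u h
theorem dM_11_s (hinv : ∀ x, g (inv x) = (g x)⁻¹) (hr : ∀ r ∈ rels, (r.map g).prod = 1) (j z1 z2 u : ℕ) (h : dM_11 j z1 z2 u = true) : GoodM (fa g) T MG M (cP g H) u := by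
  unfold dM_11 at h
  rcases brec_true h with h | h
  · exact dM_1_s hinv hr j z1 z2 u h
  · exact dM_10_s hinv hr j z1 z2 u h
theorem dM_12_s (hinv : ∀ x, g (inv x) = (g x)⁻¹) (hr : ∀ r ∈ rels, (r.map g).prod = 1) (j z1 z2 u : ℕ) (h : dM_12 j z1 z2 u = true) : GoodM (fa g) T MG M (cP g H) u := by
  unfold dM_12 at h
  rcases brec_true h with h | h
  · rcases brec_true h with h | h
    · rcases brec_true h with h | h
      · exact mRel_good (T := T) (by decide) [Lt.ci, Lt.e, Lt.c, Lt.fi, Lt.bi] [Lt.fi, Lt.bi, Lt.ei] (pair_rel hinv hr (by decide +kernel)) h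
      · exact mRel_good (T := T) (by decide) [Lt.ei] [Lt.bi, Lt.e, Lt.di, Lt.bi, Lt.c, Lt.f, Lt.bi, Lt.ei, Lt.b] (pair_rel hinv hr (by decide +kernel)) h
    · rcases brec_true h with h | h
      · exact mRel_good (T := T) (by decide) [Lt.f, Lt.ci] [Lt.bi, Lt.e, Lt.b, Lt.f, Lt.ci, Lt.e] (pair_rel hinv hr (by decide +kernel)) h
      · exact mRel_good (T := T) (by decide) [Lt.b, Lt.f, Lt.ci] [Lt.e, Lt.b, Lt.f, Lt.ci, Lt.e] (pair_rel hinv hr (by decide +kernel)) h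
  · rcases brec_true h with h | h
    · rcases brec_true h with h | h
      · exact mRel_good (T := T) (by decide) [Lt.c, Lt.fi, Lt.bi] [Lt.e, Lt.c, Lt.fi, Lt.bi, Lt.e] (pair_rel hinv hr (by decide +kernel)) h
      · exact mRel_good (T := T) (by decide) [Lt.f, Lt.bi] [Lt.bi, Lt.ei, Lt.c, Lt.fi, Lt.ci, Lt.e] (pair_rel hinv hr (by decide +kernel)) h
    · rcases brec_true h with h | h
      · exact mRel_good (T := T) (by decide) [Lt.c, Lt.f, Lt.bi, Lt.ei, Lt.b, Lt.e] [Lt.b, Lt.d, Lt.ei, Lt.b] (pair_rel hinv hr (by decide +kernel)) h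
      · exact mRel_good (T := T) (by decide) [Lt.b, Lt.f, Lt.bi, Lt.ei] [Lt.ei, Lt.c, Lt.fi, Lt.ci] (pair_rel hinv hr (by decide +kernel)) h
theorem dM_13_s (hinv : ∀ x, g (inv x) = (g x)⁻¹) (hr : ∀ r ∈ rels, (r.map g).prod = 1) (j z1 z2 u : ℕ) (h : dM_13 j z1 z2 u = true) : GoodM (fa g) T MG M (cP g H) u := by
  unfold dM_13 at h
  rcases brec_true h with h | h
  · rcases brec_true h with h | h
    · rcases brec_true h with h | h
      · exact mRel_good (T := T) (by decide) [Lt.bi, Lt.fi, Lt.ci, Lt.ei, Lt.b, Lt.e] [Lt.di, Lt.c, Lt.ei, Lt.b] (pair_rel hinv hr (by decide +kernel)) h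
      · exact mRel_good (T := T) (by decide) [Lt.f, Lt.b, Lt.b, Lt.fi] [Lt.c, Lt.f, Lt.b, Lt.b] (pair_rel hinv hr (by decide +kernel)) h
    · rcases brec_true h with h | h
      · exact mRel_good (T := T) (by decide) [Lt.d, Lt.bi, Lt.bi, Lt.ci] [Lt.f, Lt.d, Lt.c, Lt.b] (pair_rel hinv hr (by decide +kernel)) h
      · exact mRel_good (T := T) (by decide) [Lt.f, Lt.ci, Lt.ei] [Lt.bi, Lt.e, Lt.b, Lt.f, Lt.ci] (pair_rel hinv hr (by decide +kernel)) h
  · rcases brec_true h with h | h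
    · rcases brec_true h with h | h
      · exact mRel_good (T := T) (by decide) [Lt.bi, Lt.c, Lt.f, Lt.bi, Lt.ei, Lt.b, Lt.e] [Lt.d, Lt.ei, Lt.b] (pair_rel hinv hr (by decide +kernel)) h
      · exact mRel_good (T := T) (by decide) [Lt.ci, Lt.ei] [Lt.fi, Lt.bi, Lt.e, Lt.b, Lt.f, Lt.ci] (pair_rel hinv hr (by decide +kernel)) h
    · rcases brec_true h with h | h
      · exact mRel_good (T := T) (by decide) [Lt.c, Lt.fi, Lt.bi, Lt.ei] [Lt.e, Lt.c, Lt.fi, Lt.bi] (pair_rel hinv hr (by decide +kernel)) h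
      · rcases brec_true h with h | h
        · exact mRel_good (T := T) (by decide) [Lt.fi, Lt.ci] [Lt.ci, Lt.e, Lt.b, Lt.f, Lt.bi, Lt.ei] (pair_rel hinv hr (by decide +kernel)) h
        · exact mRel_good (T := T) (by decide) [Lt.ei, Lt.c, Lt.fi, Lt.bi, Lt.ei] [Lt.c, Lt.fi, Lt.bi] (pair_rel hinv hr (by decide +kernel)) h
theorem dM_14_s (hinv : ∀ x, g (inv x) = (g x)⁻¹) (hr : ∀ r ∈ rels, (r.map g).prod = 1) (j z1 z2 u : ℕ) (h : dM_14 j z1 z2 u = true) : GoodM (fa g) T MG M (cP g H) u := by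
  unfold dM_14 at h
  rcases brec_true h with h | h
  · exact dM_12_s hinv hr j z1 z2 u h
  · exact dM_13_s hinv hr j z1 z2 u h
theorem dM_15_s (hinv : ∀ x, g (inv x) = (g x)⁻¹) (hr : ∀ r ∈ rels, (r.map g).prod = 1) (j z1 z2 u : ℕ) (h : dM_15 j z1 z2 u = true) : GoodM (fa g) T MG M (cP g H) u := by
  unfold dM_15 at h
  rcases brec_true h with h | h
  · rcases brec_true h with h | h
    · rcases brec_true h with h | h
      · exact mRel_good (T := T) (by decide) [Lt.b] [Lt.e, Lt.b, Lt.fi, Lt.ci, Lt.b, Lt.d, Lt.ei, Lt.b, Lt.ei] (pair_rel hinv hr (by decide +kernel)) h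
      · exact mRel_good (T := T) (by decide) [Lt.c, Lt.fi, Lt.bi, Lt.e, Lt.b, Lt.f, Lt.ci, Lt.e] [] (pair_rel hinv hr (by decide +kernel)) h
    · rcases brec_true h with h | h
      · exact mRel_good (T := T) (by decide) [Lt.bi, Lt.e, Lt.c, Lt.f, Lt.b, Lt.di, Lt.c, Lt.ei, Lt.b, Lt.ei] [] (pair_rel hinv hr (by decide +kernel)) h
      · rcases brec_true h with h | h
        · exact mRel_good (T := T) (by decide) [Lt.d, Lt.bi] [Lt.ci, Lt.f, Lt.c, Lt.d, Lt.bi, Lt.d] (pair_rel hinv hr (by decide +kernel)) h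
        · exact mRel_good (T := T) (by decide) [Lt.d, Lt.bi, Lt.bi, Lt.f] [Lt.c, Lt.d, Lt.ci, Lt.b] (pair_rel hinv hr (by decide +kernel)) h
  · rcases brec_true h with h | h
    · rcases brec_true h with h | h
      · exact mRel_good (T := T) (by decide) [Lt.di, Lt.f, Lt.d, Lt.c] [Lt.bi, Lt.bi, Lt.ci, Lt.bi] (pair_rel hinv hr (by decide +kernel)) h
      · rcases brec_true h with h | h
        · exact mRel_good (T := T) (by decide) [Lt.b, Lt.fi, Lt.bi, Lt.di, Lt.ci] [Lt.di, Lt.ci, Lt.d] (pair_rel hinv hr (by decide +kernel)) h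
        · exact mRel_good (T := T) (by decide) [Lt.di, Lt.fi, Lt.c, Lt.f] [Lt.c, Lt.di, Lt.fi, Lt.c] (pair_rel hinv hr (by decide +kernel)) h
    · rcases brec_true h with h | h
      · exact mRel_good (T := T) (by decide) [Lt.bi, Lt.bi, Lt.d] [Lt.di, Lt.bi, Lt.bi, Lt.d, Lt.fi] (pair_rel hinv hr (by decide +kernel)) h
      · rcases brec_true h with h | h
        · exact mRel_good (T := T) (by decide) [Lt.d, Lt.bi, Lt.bi, Lt.d] [Lt.bi, Lt.bi, Lt.d, Lt.fi] (pair_rel hinv hr (by decide +kernel)) h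
        · exact mRel_good (T := T) (by decide) [Lt.e, Lt.b, Lt.fi, Lt.ci, Lt.b, Lt.d, Lt.ei, Lt.b] [Lt.b, Lt.e] (pair_rel hinv hr (by decide +kernel)) h
theorem dM_16_s (hinv : ∀ x, g (inv x) = (g x)⁻¹) (hr : ∀ r ∈ rels, (r.map g).prod = 1) (j z1 z2 u : ℕ) (h : dM_16 j z1 z2 u = true) : GoodM (fa g) T MG M (cP g H) u := by
  unfold dM_16 at h
  rcases brec_true h with h | h
  · rcases brec_true h with h | h
    · rcases brec_true h with h | h
      · exact mRel_good (T := T) (by decide) [Lt.d, Lt.c, Lt.d, Lt.b, Lt.f] [Lt.c, Lt.d, Lt.b] (pair_rel hinv hr (by decide +kernel)) h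
      · rcases brec_true h with h | h
        · exact mRel_good (T := T) (by decide) [Lt.c, Lt.fi] [Lt.e, Lt.b, Lt.f, Lt.bi, Lt.ei, Lt.c] (pair_rel hinv hr (by decide +kernel)) h
        · exact mRel_good (T := T) (by decide) [Lt.di, Lt.b, Lt.b, Lt.d, Lt.bi, Lt.bi, Lt.d] [Lt.fi] (pair_rel hinv hr (by decide +kernel)) h
    · rcases brec_true h with h | h
      · exact mRel_good (T := T) (by decide) [Lt.b, Lt.fi, Lt.bi, Lt.di, Lt.ci, Lt.di] [Lt.di, Lt.ci] (pair_rel hinv hr (by decide +kernel)) h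
      · rcases brec_true h with h | h
        · exact mRel_good (T := T) (by decide) [Lt.di, Lt.ci, Lt.d, Lt.bi, Lt.bi, Lt.f] [Lt.ci, Lt.b] (pair_rel hinv hr (by decide +kernel)) h
        · exact mRel_good (T := T) (by decide) [Lt.e, Lt.b, Lt.f, Lt.ci] [Lt.b, Lt.f, Lt.ci, Lt.ei] (pair_rel hinv hr (by decide +kernel)) h
  · rcases brec_true h with h | h
    · rcases brec_true h with h | h
      · exact mRel_good (T := T) (by decide) [Lt.b, Lt.fi] [Lt.ei, Lt.c, Lt.f, Lt.ci, Lt.e, Lt.b] (pair_rel hinv hr (by decide +kernel)) h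
      · rcases brec_true h with h | h
        · exact mRel_good (T := T) (by decide) [Lt.di, Lt.b, Lt.d] [Lt.fi, Lt.bi, Lt.bi, Lt.ci, Lt.f] (pair_rel hinv hr (by decide +kernel)) h
        · exact mRel_good (T := T) (by decide) [Lt.ei, Lt.c, Lt.fi, Lt.ci, Lt.e, Lt.b] [Lt.b, Lt.f] (pair_rel hinv hr (by decide +kernel)) h
    · rcases brec_true h with h | h
      · exact mRel_good (T := T) (by decide) [Lt.ei, Lt.c, Lt.f, Lt.ci, Lt.e, Lt.b] [Lt.b, Lt.fi] (pair_rel hinv hr (by decide +kernel)) h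
      · rcases brec_true h with h | h
        · exact mRel_good (T := T) (by decide) [Lt.e, Lt.di, Lt.bi, Lt.c, Lt.f, Lt.bi, Lt.ei, Lt.b, Lt.e] [Lt.b] (pair_rel hinv hr (by decide +kernel)) h
        · exact mRel_good (T := T) (by decide) [Lt.bi, Lt.ci, Lt.di, Lt.ei, Lt.b] [Lt.c, Lt.f, Lt.ei, Lt.b, Lt.ei] (pair_rel hinv hr (by decide +kernel)) h
theorem dM_17_s (hinv : ∀ x, g (inv x) = (g x)⁻¹) (hr : ∀ r ∈ rels, (r.map g).prod = 1) (j z1 z2 u : ℕ) (h : dM_17 j z1 z2 u = true) : GoodM (fa g) T MG M (cP g H) u := by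
  unfold dM_17 at h
  rcases brec_true h with h | h
  · exact dM_15_s hinv hr j z1 z2 u h
  · exact dM_16_s hinv hr j z1 z2 u h
theorem dM_18_s (hinv : ∀ x, g (inv x) = (g x)⁻¹) (hr : ∀ r ∈ rels, (r.map g).prod = 1) (j z1 z2 u : ℕ) (h : dM_18 j z1 z2 u = true) : GoodM (fa g) T MG M (cP g H) u := by
  unfold dM_18 at h
  rcases brec_true h with h | h
  · exact dM_14_s hinv hr j z1 z2 u h
  · exact dM_17_s hinv hr j z1 z2 u h
theorem dM_19_s (hinv : ∀ x, g (inv x) = (g x)⁻¹) (hr : ∀ r ∈ rels, (r.map g).prod = 1) (j z1 z2 u : ℕ) (h : dM_19 j z1 z2 u = true) : GoodM (fa g) T MG M (cP g H) u := by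
  unfold dM_19 at h
  rcases brec_true h with h | h
  · rcases brec_true h with h | h
    · exact mRel_good (T := T) (by decide) [Lt.di, Lt.b, Lt.d, Lt.fi, Lt.c] [Lt.fi, Lt.bi, Lt.bi] (pair_rel hinv hr (by decide +kernel)) h
    · rcases brec_true h with h | h
      · exact mRel_good (T := T) (by decide) [Lt.ei, Lt.c, Lt.fi, Lt.bi, Lt.ei, Lt.b] [Lt.c, Lt.fi] (pair_rel hinv hr (by decide +kernel)) h
      · exact mRel_good (T := T) (by decide) [Lt.d, Lt.ci, Lt.b, Lt.fi] [Lt.ci, Lt.d, Lt.bi, Lt.bi] (pair_rel hinv hr (by decide +kernel)) h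
  · rcases brec_true h with h | h
    · exact mRel_good (T := T) (by decide) [Lt.b, Lt.f, Lt.bi, Lt.ei, Lt.c, Lt.f, Lt.ci, Lt.e] [] (pair_rel hinv hr (by decide +kernel)) h
    · rcases brec_true h with h | h
      · exact mRel_good (T := T) (by decide) [Lt.fi, Lt.c, Lt.d, Lt.bi, Lt.di] [Lt.c, Lt.d, Lt.bi] (pair_rel hinv hr (by decide +kernel)) h
      · exact mRel_good (T := T) (by decide) [Lt.e] [Lt.b, Lt.e, Lt.bi, Lt.e, Lt.di, Lt.bi, Lt.c, Lt.f, Lt.bi] (pair_rel hinv hr (by decide +kernel)) h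
theorem dM_20_s (hinv : ∀ x, g (inv x) = (g x)⁻¹) (hr : ∀ r ∈ rels, (r.map g).prod = 1) (j z1 z2 u : ℕ) (h : dM_20 j z1 z2 u = true) : GoodM (fa g) T MG M (cP g H) u := by
  unfold dM_20 at h
  rcases brec_true h with h | h
  · rcases brec_true h with h | h
    · exact mRel_good (T := T) (by decide) [Lt.c, Lt.d, Lt.b, Lt.fi, Lt.bi] [Lt.d, Lt.c, Lt.d] (pair_rel hinv hr (by decide +kernel)) h
    · rcases brec_true h with h | h
      · exact mRel_good (T := T) (by decide) [Lt.b, Lt.fi, Lt.ci, Lt.b, Lt.d, Lt.ei, Lt.b, Lt.ei, Lt.bi] [Lt.ei] (pair_rel hinv hr (by decide +kernel)) h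
      · exact mRel_good (T := T) (by decide) [Lt.fi, Lt.c, Lt.f, Lt.ci, Lt.f] [Lt.d, Lt.c, Lt.di] (pair_rel hinv hr (by decide +kernel)) h
  · rcases brec_true h with h | h
    · rcases brec_true h with h | h
      · exact mRel_good (T := T) (by decide) [Lt.b, Lt.fi, Lt.ci, Lt.b, Lt.d, Lt.ei, Lt.b, Lt.ei] [Lt.ei, Lt.b] (pair_rel hinv hr (by decide +kernel)) h
      · exact mRel_good (T := T) (by decide) [Lt.f, Lt.bi, Lt.di, Lt.ci, Lt.d, Lt.c, Lt.d, Lt.b] [] (pair_rel hinv hr (by decide +kernel)) h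
    · rcases brec_true h with h | h
      · exact mRel_good (T := T) (by decide) [Lt.ci, Lt.f, Lt.di] [Lt.b, Lt.b, Lt.f, Lt.di, Lt.b] (pair_rel hinv hr (by decide +kernel)) h
      · exact mRel_good (T := T) (by decide) [Lt.c, Lt.d, Lt.bi, Lt.di, Lt.b] [Lt.f, Lt.c, Lt.d] (pair_rel hinv hr (by decide +kernel)) h
theorem dM_21_s (hinv : ∀ x, g (inv x) = (g x)⁻¹) (hr : ∀ r ∈ rels, (r.map g).prod = 1) (j z1 z2 u : ℕ) (h : dM_21 j z1 z2 u = true) : GoodM (fa g) T MG M (cP g H) u := by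
  unfold dM_21 at h
  rcases brec_true h with h | h
  · exact dM_19_s hinv hr j z1 z2 u h
  · exact dM_20_s hinv hr j z1 z2 u h
theorem dM_22_s (hinv : ∀ x, g (inv x) = (g x)⁻¹) (hr : ∀ r ∈ rels, (r.map g).prod = 1) (j z1 z2 u : ℕ) (h : dM_22 j z1 z2 u = true) : GoodM (fa g) T MG M (cP g H) u := by
  unfold dM_22 at h
  rcases brec_true h with h | h
  · rcases brec_true h with h | h
    · exact mRel_good (T := T) (by decide) [Lt.b, Lt.f, Lt.ci, Lt.e, Lt.c] [Lt.ei, Lt.b, Lt.f] (pair_rel hinv hr (by decide +kernel)) h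
    · rcases brec_true h with h | h
      · exact mRel_good (T := T) (by decide) [Lt.b, Lt.di, Lt.c, Lt.d, Lt.ci, Lt.b] [Lt.bi, Lt.f] (pair_rel hinv hr (by decide +kernel)) h
      · exact mRel_good (T := T) (by decide) [Lt.di, Lt.c, Lt.d, Lt.ci, Lt.b, Lt.fi] [Lt.bi, Lt.bi] (pair_rel hinv hr (by decide +kernel)) h
  · rcases brec_true h with h | h
    · rcases brec_true h with h | h
      · exact mRel_good (T := T) (by decide) [Lt.fi, Lt.ci, Lt.f, Lt.c, Lt.d, Lt.c, Lt.di, Lt.ci] [] (pair_rel hinv hr (by decide +kernel)) h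
      · exact mRel_good (T := T) (by decide) [Lt.f, Lt.d, Lt.c, Lt.di] [Lt.c, Lt.f, Lt.ci, Lt.f] (pair_rel hinv hr (by decide +kernel)) h
    · rcases brec_true h with h | h
      · exact mRel_good (T := T) (by decide) [Lt.bi, Lt.bi, Lt.d] [Lt.d, Lt.bi, Lt.bi, Lt.d, Lt.f] (pair_rel hinv hr (by decide +kernel)) h
      · exact mRel_good (T := T) (by decide) [Lt.fi, Lt.d, Lt.c, Lt.di, Lt.c] [Lt.d, Lt.c, Lt.di] (pair_rel hinv hr (by decide +kernel)) h
theorem dM_23_s (hinv : ∀ x, g (inv x) = (g x)⁻¹) (hr : ∀ r ∈ rels, (r.map g).prod = 1) (j z1 z2 u : ℕ) (h : dM_23 j z1 z2 u = true) : GoodM (fa g) T MG M (cP g H) u := by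
  unfold dM_23 at h
  rcases brec_true h with h | h
  · rcases brec_true h with h | h
    · rcases brec_true h with h | h
      · exact mRel_good (T := T) (by decide) [Lt.ci, Lt.f, Lt.bi, Lt.bi] [Lt.b, Lt.ci, Lt.di, Lt.fi] (pair_rel hinv hr (by decide +kernel)) h
      · exact mRel_good (T := T) (by decide) [Lt.ci, Lt.di, Lt.fi, Lt.d, Lt.bi, Lt.bi] [Lt.b, Lt.c] (pair_rel hinv hr (by decide +kernel)) h
    · rcases brec_true h with h | h
      · exact mRel_good (T := T) (by decide) [Lt.c, Lt.f, Lt.b, Lt.b] [Lt.f, Lt.b, Lt.b, Lt.fi] (pair_rel hinv hr (by decide +kernel)) h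
      · exact mRel_good (T := T) (by decide) [Lt.di, Lt.ci, Lt.di] [Lt.b, Lt.f, Lt.bi, Lt.di, Lt.ci] (pair_rel hinv hr (by decide +kernel)) h
  · rcases brec_true h with h | h
    · rcases brec_true h with h | h
      · exact mRel_good (T := T) (by decide) [Lt.ci, Lt.f, Lt.c, Lt.d, Lt.c] [Lt.f, Lt.c, Lt.d] (pair_rel hinv hr (by decide +kernel)) h
      · exact mRel_good (T := T) (by decide) [Lt.bi, Lt.bi, Lt.d, Lt.fi] [Lt.d, Lt.bi, Lt.bi, Lt.d] (pair_rel hinv hr (by decide +kernel)) h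
    · rcases brec_true h with h | h
      · exact mRel_good (T := T) (by decide) [Lt.c, Lt.fi, Lt.bi, Lt.ei, Lt.b, Lt.f] [Lt.e, Lt.c] (pair_rel hinv hr (by decide +kernel)) h
      · exact mRel_good (T := T) (by decide) [Lt.b, Lt.d, Lt.ei, Lt.b, Lt.ei] [Lt.c, Lt.f, Lt.bi, Lt.ei, Lt.b] (pair_rel hinv hr (by decide +kernel)) h
theorem dM_24_s (hinv : ∀ x, g (inv x) = (g x)⁻¹) (hr : ∀ r ∈ rels, (r.map g).prod = 1) (j z1 z2 u : ℕ) (h : dM_24 j z1 z2 u = true) : GoodM (fa g) T MG M (cP g H) u := by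
  unfold dM_24 at h
  rcases brec_true h with h | h
  · exact dM_22_s hinv hr j z1 z2 u h
  · exact dM_23_s hinv hr j z1 z2 u h
theorem dM_25_s (hinv : ∀ x, g (inv x) = (g x)⁻¹) (hr : ∀ r ∈ rels, (r.map g).prod = 1) (j z1 z2 u : ℕ) (h : dM_25 j z1 z2 u = true) : GoodM (fa g) T MG M (cP g H) u := by
  unfold dM_25 at h
  rcases brec_true h with h | h
  · exact dM_21_s hinv hr j z1 z2 u h
  · exact dM_24_s hinv hr j z1 z2 u h
theorem dM_26_s (hinv : ∀ x, g (inv x) = (g x)⁻¹) (hr : ∀ r ∈ rels, (r.map g).prod = 1) (j z1 z2 u : ℕ) (h : dM_26 j z1 z2 u = true) : GoodM (fa g) T MG M (cP g H) u := by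
  unfold dM_26 at h
  rcases brec_true h with h | h
  · rcases brec_true h with h | h
    · exact mRel_good (T := T) (by decide) [Lt.bi, Lt.ci, Lt.f, Lt.di] [Lt.b, Lt.f, Lt.di, Lt.b] (pair_rel hinv hr (by decide +kernel)) h
    · rcases brec_true h with h | h
      · exact mRel_good (T := T) (by decide) [Lt.di, Lt.fi, Lt.d, Lt.bi, Lt.bi] [Lt.c, Lt.b, Lt.c] (pair_rel hinv hr (by decide +kernel)) h
      · exact mRel_good (T := T) (by decide) [Lt.ci, Lt.bi, Lt.ci, Lt.di, Lt.ei, Lt.b, Lt.e] [Lt.f, Lt.ei, Lt.b] (pair_rel hinv hr (by decide +kernel)) h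
  · rcases brec_true h with h | h
    · rcases brec_true h with h | h
      · exact mRel_good (T := T) (by decide) [Lt.d, Lt.ci, Lt.di, Lt.fi, Lt.c] [Lt.fi, Lt.c, Lt.fi] (pair_rel hinv hr (by decide +kernel)) h
      · exact mRel_good (T := T) (by decide) [Lt.d, Lt.bi, Lt.bi] [Lt.f, Lt.d, Lt.c, Lt.b, Lt.c] (pair_rel hinv hr (by decide +kernel)) h
    · rcases brec_true h with h | h
      · exact mRel_good (T := T) (by decide) [Lt.bi, Lt.bi, Lt.f] [Lt.fi, Lt.c, Lt.b, Lt.ci, Lt.di] (pair_rel hinv hr (by decide +kernel)) h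
      · exact mRel_good (T := T) (by decide) [Lt.ci, Lt.di, Lt.ei, Lt.b, Lt.e] [Lt.b, Lt.c, Lt.f, Lt.ei, Lt.b] (pair_rel hinv hr (by decide +kernel)) h
theorem dM_27_s (hinv : ∀ x, g (inv x) = (g x)⁻¹) (hr : ∀ r ∈ rels, (r.map g).prod = 1) (j z1 z2 u : ℕ) (h : dM_27 j z1 z2 u = true) : GoodM (fa g) T MG M (cP g H) u := by
  unfold dM_27 at h
  rcases brec_true h with h | h
  · rcases brec_true h with h | h
    · rcases brec_true h with h | h
      · exact mRel_good (T := T) (by decide) [Lt.b, Lt.ei, Lt.bi, Lt.e, Lt.b, Lt.fi, Lt.ci, Lt.b, Lt.d] [Lt.e] (pair_rel hinv hr (by decide +kernel)) h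
      · exact mRel_good (T := T) (by decide) [Lt.f, Lt.di, Lt.b, Lt.b, Lt.d, Lt.bi] [Lt.di, Lt.b] (pair_rel hinv hr (by decide +kernel)) h
    · rcases brec_true h with h | h
      · exact mRel_good (T := T) (by decide) [Lt.ci, Lt.di, Lt.fi] [Lt.di, Lt.fi, Lt.c, Lt.fi, Lt.ci] (pair_rel hinv hr (by decide +kernel)) h
      · exact mRel_good (T := T) (by decide) [Lt.di, Lt.fi, Lt.c, Lt.fi] [Lt.ci, Lt.di, Lt.fi, Lt.c] (pair_rel hinv hr (by decide +kernel)) h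
  · rcases brec_true h with h | h
    · rcases brec_true h with h | h
      · exact mRel_good (T := T) (by decide) [Lt.d, Lt.c, Lt.di, Lt.c] [Lt.f, Lt.d, Lt.c, Lt.di] (pair_rel hinv hr (by decide +kernel)) h
      · exact mRel_good (T := T) (by decide) [Lt.b, Lt.f] [Lt.ei, Lt.b, Lt.f, Lt.ci, Lt.ei, Lt.c] (pair_rel hinv hr (by decide +kernel)) h
    · rcases brec_true h with h | h
      · exact mRel_good (T := T) (by decide) [Lt.ei, Lt.b, Lt.f, Lt.ci, Lt.ei, Lt.c] [Lt.b, Lt.f] (pair_rel hinv hr (by decide +kernel)) h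
      · exact mRel_good (T := T) (by decide) [Lt.ci, Lt.ei, Lt.c, Lt.fi, Lt.bi, Lt.ei] [Lt.fi, Lt.bi] (pair_rel hinv hr (by decide +kernel)) h
theorem dM_28_s (hinv : ∀ x, g (inv x) = (g x)⁻¹) (hr : ∀ r ∈ rels, (r.map g).prod = 1) (j z1 z2 u : ℕ) (h : dM_28 j z1 z2 u = true) : GoodM (fa g) T MG M (cP g H) u := by
  unfold dM_28 at h
  rcases brec_true h with h | h
  · exact dM_26_s hinv hr j z1 z2 u h
  · exact dM_27_s hinv hr j z1 z2 u h
theorem dM_29_s (hinv : ∀ x, g (inv x) = (g x)⁻¹) (hr : ∀ r ∈ rels, (r.map g).prod = 1) (j z1 z2 u : ℕ) (h : dM_29 j z1 z2 u = true) : GoodM (fa g) T MG M (cP g H) u := by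
  unfold dM_29 at h
  rcases brec_true h with h | h
  · rcases brec_true h with h | h
    · rcases brec_true h with h | h
      · exact mRel_good (T := T) (by decide) [Lt.fi, Lt.bi] [Lt.bi, Lt.ei, Lt.c, Lt.f, Lt.ci, Lt.e] (pair_rel hinv hr (by decide +kernel)) h
      · exact mRel_good (T := T) (by decide) [Lt.c, Lt.d, Lt.bi] [Lt.f, Lt.c, Lt.d, Lt.bi, Lt.d] (pair_rel hinv hr (by decide +kernel)) h
    · rcases brec_true h with h | h
      · exact mRel_good (T := T) (by decide) [Lt.c, Lt.di, Lt.ci, Lt.fi, Lt.ci] [Lt.di, Lt.ci, Lt.fi] (pair_rel hinv hr (by decide +kernel)) h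
      · exact mRel_good (T := T) (by decide) [Lt.ci, Lt.ei, Lt.b, Lt.e] [Lt.f, Lt.b, Lt.di, Lt.c, Lt.ei, Lt.b] (pair_rel hinv hr (by decide +kernel)) h
  · rcases brec_true h with h | h
    · rcases brec_true h with h | h
      · exact mRel_good (T := T) (by decide) [Lt.d, Lt.ci, Lt.di, Lt.fi] [Lt.ci, Lt.d, Lt.ci, Lt.di] (pair_rel hinv hr (by decide +kernel)) h
      · exact mRel_good (T := T) (by decide) [Lt.d, Lt.ci, Lt.di, Lt.fi, Lt.d] [Lt.ci, Lt.d, Lt.ci] (pair_rel hinv hr (by decide +kernel)) h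
    · rcases brec_true h with h | h
      · exact mRel_good (T := T) (by decide) [Lt.di, Lt.ci, Lt.fi, Lt.c, Lt.f] [Lt.c, Lt.di, Lt.ci] (pair_rel hinv hr (by decide +kernel)) h
      · exact mRel_good (T := T) (by decide) [Lt.f, Lt.ci, Lt.e, Lt.b, Lt.f, Lt.bi, Lt.ei] [Lt.ci] (pair_rel hinv hr (by decide +kernel)) h
theorem dM_30_s (hinv : ∀ x, g (inv x) = (g x)⁻¹) (hr : ∀ r ∈ rels, (r.map g).prod = 1) (j z1 z2 u : ℕ) (h : dM_30 j z1 z2 u = true) : GoodM (fa g) T MG M (cP g H) u := by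
  unfold dM_30 at h
  rcases brec_true h with h | h
  · rcases brec_true h with h | h
    · rcases brec_true h with h | h
      · exact mRel_good (T := T) (by decide) [Lt.b, Lt.di, Lt.ci, Lt.f, Lt.c, Lt.d, Lt.bi, Lt.d] [] (pair_rel hinv hr (by decide +kernel)) h
      · exact mRel_good (T := T) (by decide) [Lt.di, Lt.fi, Lt.c] [Lt.ci, Lt.di, Lt.fi, Lt.c, Lt.f] (pair_rel hinv hr (by decide +kernel)) h
    · rcases brec_true h with h | h
      · exact mRel_good (T := T) (by decide) [Lt.ci, Lt.e, Lt.b, Lt.f, Lt.bi, Lt.ei, Lt.c] [Lt.fi] (pair_rel hinv hr (by decide +kernel)) h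
      · exact mRel_good (T := T) (by decide) [Lt.di, Lt.fi, Lt.d, Lt.bi, Lt.bi, Lt.ci] [Lt.c, Lt.b] (pair_rel hinv hr (by decide +kernel)) h
  · rcases brec_true h with h | h
    · rcases brec_true h with h | h
      · exact mRel_good (T := T) (by decide) [Lt.ci, Lt.di, Lt.fi] [Lt.bi, Lt.ci, Lt.f, Lt.bi, Lt.bi] (pair_rel hinv hr (by decide +kernel)) h
      · exact mRel_good (T := T) (by decide) [Lt.di, Lt.ei, Lt.b, Lt.e] [Lt.c, Lt.b, Lt.c, Lt.f, Lt.ei, Lt.b] (pair_rel hinv hr (by decide +kernel)) h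
    · rcases brec_true h with h | h
      · exact mRel_good (T := T) (by decide) [Lt.bi, Lt.e, Lt.b, Lt.f, Lt.ci] [Lt.f, Lt.ci, Lt.ei] (pair_rel hinv hr (by decide +kernel)) h
      · exact mRel_good (T := T) (by decide) [Lt.ei, Lt.c, Lt.fi, Lt.bi] [Lt.c, Lt.fi, Lt.bi, Lt.e] (pair_rel hinv hr (by decide +kernel)) h
theorem dM_31_s (hinv : ∀ x, g (inv x) = (g x)⁻¹) (hr : ∀ r ∈ rels, (r.map g).prod = 1) (j z1 z2 u : ℕ) (h : dM_31 j z1 z2 u = true) : GoodM (fa g) T MG M (cP g H) u := by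
  unfold dM_31 at h
  rcases brec_true h with h | h
  · exact dM_29_s hinv hr j z1 z2 u h
  · exact dM_30_s hinv hr j z1 z2 u h
theorem dM_32_s (hinv : ∀ x, g (inv x) = (g x)⁻¹) (hr : ∀ r ∈ rels, (r.map g).prod = 1) (j z1 z2 u : ℕ) (h : dM_32 j z1 z2 u = true) : GoodM (fa g) T MG M (cP g H) u := by
  unfold dM_32 at h
  rcases brec_true h with h | h
  · exact dM_28_s hinv hr j z1 z2 u h
  · exact dM_31_s hinv hr j z1 z2 u h
theorem dM_33_s (hinv : ∀ x, g (inv x) = (g x)⁻¹) (hr : ∀ r ∈ rels, (r.map g).prod = 1) (j z1 z2 u : ℕ) (h : dM_33 j z1 z2 u = true) : GoodM (fa g) T MG M (cP g H) u := by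
  unfold dM_33 at h
  rcases brec_true h with h | h
  · exact dM_25_s hinv hr j z1 z2 u h
  · exact dM_32_s hinv hr j z1 z2 u h
theorem dM_34_s (hinv : ∀ x, g (inv x) = (g x)⁻¹) (hr : ∀ r ∈ rels, (r.map g).prod = 1) (j z1 z2 u : ℕ) (h : dM_34 j z1 z2 u = true) : GoodM (fa g) T MG M (cP g H) u := by
  unfold dM_34 at h
  rcases brec_true h with h | h
  · exact dM_18_s hinv hr j z1 z2 u h
  · exact dM_33_s hinv hr j z1 z2 u h
theorem dM_35_s (hinv : ∀ x, g (inv x) = (g x)⁻¹) (hr : ∀ r ∈ rels, (r.map g).prod = 1) (j z1 z2 u : ℕ) (h : dM_35 j z1 z2 u = true) : GoodM (fa g) T MG M (cP g H) u := by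
  unfold dM_35 at h
  rcases brec_true h with h | h
  · rcases brec_true h with h | h
    · exact mRel_good (T := T) (by decide) [Lt.bi, Lt.d, Lt.fi, Lt.bi, Lt.bi, Lt.ci, Lt.f] [Lt.d] (pair_rel hinv hr (by decide +kernel)) h
    · rcases brec_true h with h | h
      · exact mRel_good (T := T) (by decide) [Lt.ci, Lt.e, Lt.b, Lt.fi, Lt.bi, Lt.ei] [Lt.f, Lt.ci] (pair_rel hinv hr (by decide +kernel)) h
      · exact mRel_good (T := T) (by decide) [Lt.bi] [Lt.e, Lt.bi, Lt.e, Lt.di, Lt.bi, Lt.c, Lt.f, Lt.bi, Lt.ei] (pair_rel hinv hr (by decide +kernel)) h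
  · rcases brec_true h with h | h
    · rcases brec_true h with h | h
      · exact mRel_good (T := T) (by decide) [Lt.di, Lt.ci, Lt.d, Lt.bi, Lt.bi] [Lt.ci, Lt.b, Lt.fi] (pair_rel hinv hr (by decide +kernel)) h
      · exact mRel_good (T := T) (by decide) [Lt.d, Lt.c, Lt.di, Lt.ci, Lt.d, Lt.ci] [Lt.fi, Lt.d] (pair_rel hinv hr (by decide +kernel)) h
    · rcases brec_true h with h | h
      · exact mRel_good (T := T) (by decide) [Lt.di, Lt.ci, Lt.d, Lt.bi, Lt.bi, Lt.f, Lt.bi, Lt.c] [] (pair_rel hinv hr (by decide +kernel)) h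
      · exact mRel_good (T := T) (by decide) [Lt.fi, Lt.b, Lt.b, Lt.di, Lt.c, Lt.d] [Lt.bi, Lt.c] (pair_rel hinv hr (by decide +kernel)) h
theorem dM_36_s (hinv : ∀ x, g (inv x) = (g x)⁻¹) (hr : ∀ r ∈ rels, (r.map g).prod = 1) (j z1 z2 u : ℕ) (h : dM_36 j z1 z2 u = true) : GoodM (fa g) T MG M (cP g H) u := by
  unfold dM_36 at h
  rcases brec_true h with h | h
  · rcases brec_true h with h | h
    · rcases brec_true h with h | h
      · exact mRel_good (T := T) (by decide) [Lt.fi, Lt.bi, Lt.ei, Lt.c, Lt.fi, Lt.ci, Lt.e] [Lt.bi] (pair_rel hinv hr (by decide +kernel)) h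
      · exact mRel_good (T := T) (by decide) [Lt.ci] [Lt.f, Lt.ci, Lt.e, Lt.b, Lt.f, Lt.bi, Lt.ei] (pair_rel hinv hr (by decide +kernel)) h
    · rcases brec_true h with h | h
      · exact mRel_good (T := T) (by decide) [Lt.c, Lt.fi, Lt.bi] [Lt.ei, Lt.c, Lt.fi, Lt.bi, Lt.ei] (pair_rel hinv hr (by decide +kernel)) h
      · exact mRel_good (T := T) (by decide) [Lt.di, Lt.ci, Lt.fi] [Lt.ci, Lt.di, Lt.ci, Lt.fi, Lt.c] (pair_rel hinv hr (by decide +kernel)) h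
  · rcases brec_true h with h | h
    · rcases brec_true h with h | h
      · exact mRel_good (T := T) (by decide) [Lt.b, Lt.b, Lt.di, Lt.f, Lt.d] [Lt.ci, Lt.bi, Lt.ci] (pair_rel hinv hr (by decide +kernel)) h
      · exact mRel_good (T := T) (by decide) [Lt.di, Lt.c, Lt.d, Lt.ci, Lt.b] [Lt.bi, Lt.bi, Lt.f] (pair_rel hinv hr (by decide +kernel)) h
    · rcases brec_true h with h | h
      · exact mRel_good (T := T) (by decide) [Lt.ci, Lt.ei, Lt.b] [Lt.f, Lt.b, Lt.di, Lt.c, Lt.ei, Lt.b, Lt.ei] (pair_rel hinv hr (by decide +kernel)) h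
      · exact mRel_good (T := T) (by decide) [Lt.ci] [Lt.fi, Lt.ci, Lt.e, Lt.b, Lt.fi, Lt.bi, Lt.ei] (pair_rel hinv hr (by decide +kernel)) h
theorem dM_37_s (hinv : ∀ x, g (inv x) = (g x)⁻¹) (hr : ∀ r ∈ rels, (r.map g).prod = 1) (j z1 z2 u : ℕ) (h : dM_37 j z1 z2 u = true) : GoodM (fa g) T MG M (cP g H) u := by
  unfold dM_37 at h
  rcases brec_true h with h | h
  · exact dM_35_s hinv hr j z1 z2 u h
  · exact dM_36_s hinv hr j z1 z2 u h
theorem dM_38_s (hinv : ∀ x, g (inv x) = (g x)⁻¹) (hr : ∀ r ∈ rels, (r.map g).prod = 1) (j z1 z2 u : ℕ) (h : dM_38 j z1 z2 u = true) : GoodM (fa g) T MG M (cP g H) u := by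
  unfold dM_38 at h
  rcases brec_true h with h | h
  · rcases brec_true h with h | h
    · rcases brec_true h with h | h
      · exact mRel_good (T := T) (by decide) [Lt.b, Lt.d, Lt.ei, Lt.b] [Lt.c, Lt.f, Lt.bi, Lt.ei, Lt.b, Lt.e] (pair_rel hinv hr (by decide +kernel)) h
      · exact mRel_good (T := T) (by decide) [Lt.di, Lt.ci, Lt.d, Lt.c] [Lt.b, Lt.fi, Lt.bi, Lt.di] (pair_rel hinv hr (by decide +kernel)) h
    · rcases brec_true h with h | h
      · exact mRel_good (T := T) (by decide) [Lt.b, Lt.fi, Lt.bi, Lt.di] [Lt.di, Lt.ci, Lt.d, Lt.c] (pair_rel hinv hr (by decide +kernel)) h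
      · exact mRel_good (T := T) (by decide) [Lt.bi, Lt.e, Lt.b, Lt.fi, Lt.ci, Lt.b, Lt.d, Lt.ei, Lt.b] [Lt.e] (pair_rel hinv hr (by decide +kernel)) h
  · rcases brec_true h with h | h
    · rcases brec_true h with h | h
      · exact mRel_good (T := T) (by decide) [Lt.bi, Lt.bi, Lt.f, Lt.bi, Lt.c] [Lt.di, Lt.c, Lt.d] (pair_rel hinv hr (by decide +kernel)) h
      · exact mRel_good (T := T) (by decide) [Lt.d, Lt.ci, Lt.di, Lt.ci, Lt.fi] [Lt.ci, Lt.fi, Lt.ci] (pair_rel hinv hr (by decide +kernel)) h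
    · rcases brec_true h with h | h
      · exact mRel_good (T := T) (by decide) [Lt.bi, Lt.e] [Lt.f, Lt.ci, Lt.ei, Lt.c, Lt.fi, Lt.bi] (pair_rel hinv hr (by decide +kernel)) h
      · exact mRel_good (T := T) (by decide) [Lt.fi, Lt.bi] [Lt.ci, Lt.ei, Lt.c, Lt.fi, Lt.bi, Lt.ei] (pair_rel hinv hr (by decide +kernel)) h
theorem dM_39_s (hinv : ∀ x, g (inv x) = (g x)⁻¹) (hr : ∀ r ∈ rels, (r.map g).prod = 1) (j z1 z2 u : ℕ) (h : dM_39 j z1 z2 u = true) : GoodM (fa g) T MG M (cP g H) u := by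
  unfold dM_39 at h
  rcases brec_true h with h | h
  · rcases brec_true h with h | h
    · rcases brec_true h with h | h
      · exact mRel_good (T := T) (by decide) [Lt.f, Lt.bi, Lt.bi, Lt.f, Lt.d, Lt.c, Lt.bi, Lt.ci] [] (pair_rel hinv hr (by decide +kernel)) h
      · exact mRel_good (T := T) (by decide) [Lt.di, Lt.bi, Lt.c, Lt.f, Lt.bi, Lt.ei, Lt.b] [Lt.ei, Lt.b, Lt.ei] (pair_rel hinv hr (by decide +kernel)) h
    · rcases brec_true h with h | h
      · exact mRel_good (T := T) (by decide) [Lt.bi, Lt.bi, Lt.fi, Lt.ci] [Lt.f, Lt.bi, Lt.bi, Lt.fi] (pair_rel hinv hr (by decide +kernel)) h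
      · exact mRel_good (T := T) (by decide) [Lt.bi, Lt.ei, Lt.b, Lt.e, Lt.bi] [Lt.fi, Lt.ci, Lt.b, Lt.d, Lt.ei] (pair_rel hinv hr (by decide +kernel)) h
  · rcases brec_true h with h | h
    · rcases brec_true h with h | h
      · exact mRel_good (T := T) (by decide) [Lt.di, Lt.ci, Lt.fi, Lt.c, Lt.d, Lt.bi] [Lt.bi, Lt.d] (pair_rel hinv hr (by decide +kernel)) h
      · exact mRel_good (T := T) (by decide) [Lt.ci, Lt.fi] [Lt.d, Lt.ci, Lt.di, Lt.ci, Lt.fi, Lt.c] (pair_rel hinv hr (by decide +kernel)) h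
    · rcases brec_true h with h | h
      · exact mRel_good (T := T) (by decide) [Lt.ci, Lt.f, Lt.d, Lt.c, Lt.di, Lt.fi] [Lt.f, Lt.ci] (pair_rel hinv hr (by decide +kernel)) h
      · exact mRel_good (T := T) (by decide) [Lt.d, Lt.ci, Lt.di, Lt.fi] [Lt.fi, Lt.c, Lt.fi, Lt.ci] (pair_rel hinv hr (by decide +kernel)) h
theorem dM_40_s (hinv : ∀ x, g (inv x) = (g x)⁻¹) (hr : ∀ r ∈ rels, (r.map g).prod = 1) (j z1 z2 u : ℕ) (h : dM_40 j z1 z2 u = true) : GoodM (fa g) T MG M (cP g H) u := by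
  unfold dM_40 at h
  rcases brec_true h with h | h
  · exact dM_38_s hinv hr j z1 z2 u h
  · exact dM_39_s hinv hr j z1 z2 u h
theorem dM_41_s (hinv : ∀ x, g (inv x) = (g x)⁻¹) (hr : ∀ r ∈ rels, (r.map g).prod = 1) (j z1 z2 u : ℕ) (h : dM_41 j z1 z2 u = true) : GoodM (fa g) T MG M (cP g H) u := by
  unfold dM_41 at h
  rcases brec_true h with h | h
  · exact dM_37_s hinv hr j z1 z2 u h
  · exact dM_40_s hinv hr j z1 z2 u h
theorem dM_42_s (hinv : ∀ x, g (inv x) = (g x)⁻¹) (hr : ∀ r ∈ rels, (r.map g).prod = 1) (j z1 z2 u : ℕ) (h : dM_42 j z1 z2 u = true) : GoodM (fa g) T MG M (cP g H) u := by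
  unfold dM_42 at h
  rcases brec_true h with h | h
  · rcases brec_true h with h | h
    · rcases brec_true h with h | h
      · exact mRel_good (T := T) (by decide) [Lt.d, Lt.c] [Lt.f, Lt.d, Lt.c, Lt.di, Lt.ci, Lt.d] (pair_rel hinv hr (by decide +kernel)) h
      · exact mRel_good (T := T) (by decide) [Lt.ci, Lt.e] [Lt.fi, Lt.ci, Lt.e, Lt.b, Lt.fi, Lt.bi] (pair_rel hinv hr (by decide +kernel)) h
    · rcases brec_true h with h | h
      · exact mRel_good (T := T) (by decide) [Lt.f, Lt.ci, Lt.e] [Lt.ci, Lt.e, Lt.b, Lt.fi, Lt.bi] (pair_rel hinv hr (by decide +kernel)) h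
      · exact mRel_good (T := T) (by decide) [Lt.bi, Lt.bi] [Lt.f, Lt.bi, Lt.bi, Lt.fi, Lt.c, Lt.f] (pair_rel hinv hr (by decide +kernel)) h
  · rcases brec_true h with h | h
    · rcases brec_true h with h | h
      · exact mRel_good (T := T) (by decide) [Lt.b, Lt.f] [Lt.di, Lt.ci, Lt.di, Lt.c, Lt.d, Lt.b] (pair_rel hinv hr (by decide +kernel)) h
      · rcases brec_true h with h | h
        · exact mRel_good (T := T) (by decide) [Lt.bi, Lt.d, Lt.fi, Lt.di, Lt.b, Lt.b, Lt.di] [Lt.b] (pair_rel hinv hr (by decide +kernel)) h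
        · exact mRel_good (T := T) (by decide) [Lt.c, Lt.di, Lt.fi, Lt.c] [Lt.di, Lt.fi, Lt.c, Lt.f] (pair_rel hinv hr (by decide +kernel)) h
    · rcases brec_true h with h | h
      · exact mRel_good (T := T) (by decide) [Lt.fi, Lt.c, Lt.f, Lt.ci] [Lt.d, Lt.c, Lt.di, Lt.fi] (pair_rel hinv hr (by decide +kernel)) h
      · rcases brec_true h with h | h
        · exact mRel_good (T := T) (by decide) [Lt.f, Lt.di, Lt.b, Lt.b, Lt.d] [Lt.di, Lt.b, Lt.b] (pair_rel hinv hr (by decide +kernel)) h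
        · exact mRel_good (T := T) (by decide) [Lt.b, Lt.fi, Lt.c, Lt.b, Lt.ci] [Lt.bi, Lt.f, Lt.d] (pair_rel hinv hr (by decide +kernel)) h
theorem dM_43_s (hinv : ∀ x, g (inv x) = (g x)⁻¹) (hr : ∀ r ∈ rels, (r.map g).prod = 1) (j z1 z2 u : ℕ) (h : dM_43 j z1 z2 u = true) : GoodM (fa g) T MG M (cP g H) u := by
  unfold dM_43 at h
  rcases brec_true h with h | h
  · rcases brec_true h with h | h
    · rcases brec_true h with h | h
      · exact mRel_good (T := T) (by decide) [Lt.c, Lt.di, Lt.ci, Lt.d, Lt.bi, Lt.bi, Lt.f, Lt.bi] [] (pair_rel hinv hr (by decide +kernel)) h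
      · exact mRel_good (T := T) (by decide) [Lt.ci, Lt.f, Lt.c, Lt.d, Lt.bi, Lt.d] [Lt.d, Lt.bi] (pair_rel hinv hr (by decide +kernel)) h
    · rcases brec_true h with h | h
      · exact mRel_good (T := T) (by decide) [Lt.fi, Lt.c, Lt.f] [Lt.c, Lt.d, Lt.c, Lt.di, Lt.ci] (pair_rel hinv hr (by decide +kernel)) h
      · rcases brec_true h with h | h
        · exact mRel_good (T := T) (by decide) [Lt.c, Lt.b, Lt.c, Lt.b, Lt.b, Lt.di] [Lt.di, Lt.fi] (pair_rel hinv hr (by decide +kernel)) h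
        · exact mRel_good (T := T) (by decide) [Lt.ci, Lt.di, Lt.c, Lt.d] [Lt.d, Lt.b, Lt.f, Lt.bi] (pair_rel hinv hr (by decide +kernel)) h
  · rcases brec_true h with h | h
    · rcases brec_true h with h | h
      · exact mRel_good (T := T) (by decide) [Lt.d, Lt.c, Lt.di, Lt.fi] [Lt.fi, Lt.c, Lt.f, Lt.ci] (pair_rel hinv hr (by decide +kernel)) h
      · rcases brec_true h with h | h
        · exact mRel_good (T := T) (by decide) [Lt.b, Lt.e, Lt.bi, Lt.e] [Lt.e, Lt.b, Lt.fi, Lt.ci, Lt.b, Lt.d] (pair_rel hinv hr (by decide +kernel)) h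
        · exact mRel_good (T := T) (by decide) [Lt.d, Lt.ci, Lt.di, Lt.f, Lt.d] [Lt.c, Lt.d, Lt.ci] (pair_rel hinv hr (by decide +kernel)) h
    · rcases brec_true h with h | h
      · exact mRel_good (T := T) (by decide) [Lt.ci, Lt.f, Lt.d, Lt.ci] [Lt.fi, Lt.ci, Lt.f, Lt.d] (pair_rel hinv hr (by decide +kernel)) h
      · rcases brec_true h with h | h
        · exact mRel_good (T := T) (by decide) [Lt.ci, Lt.d, Lt.ci, Lt.di] [Lt.d, Lt.ci, Lt.di, Lt.fi] (pair_rel hinv hr (by decide +kernel)) h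
        · exact mRel_good (T := T) (by decide) [Lt.d, Lt.b] [Lt.b, Lt.di, Lt.ci, Lt.fi, Lt.c, Lt.d] (pair_rel hinv hr (by decide +kernel)) h
theorem dM_44_s (hinv : ∀ x, g (inv x) = (g x)⁻¹) (hr : ∀ r ∈ rels, (r.map g).prod = 1) (j z1 z2 u : ℕ) (h : dM_44 j z1 z2 u = true) : GoodM (fa g) T MG M (cP g H) u := by
  unfold dM_44 at h
  rcases brec_true h with h | h
  · exact dM_42_s hinv hr j z1 z2 u h
  · exact dM_43_s hinv hr j z1 z2 u h
theorem dM_45_s (hinv : ∀ x, g (inv x) = (g x)⁻¹) (hr : ∀ r ∈ rels, (r.map g).prod = 1) (j z1 z2 u : ℕ) (h : dM_45 j z1 z2 u = true) : GoodM (fa g) T MG M (cP g H) u := by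
  unfold dM_45 at h
  rcases brec_true h with h | h
  · rcases brec_true h with h | h
    · rcases brec_true h with h | h
      · exact mRel_good (T := T) (by decide) [Lt.d, Lt.ci, Lt.di, Lt.fi, Lt.d, Lt.c, Lt.di] [Lt.ci] (pair_rel hinv hr (by decide +kernel)) h
      · exact mRel_good (T := T) (by decide) [Lt.b, Lt.fi, Lt.bi, Lt.bi, Lt.fi, Lt.ci, Lt.f] [Lt.bi] (pair_rel hinv hr (by decide +kernel)) h
    · rcases brec_true h with h | h
      · exact mRel_good (T := T) (by decide) [Lt.c, Lt.d, Lt.bi, Lt.di, Lt.b, Lt.di] [Lt.f, Lt.c] (pair_rel hinv hr (by decide +kernel)) h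
      · rcases brec_true h with h | h
        · exact mRel_good (T := T) (by decide) [Lt.di, Lt.ci, Lt.di, Lt.c] [Lt.b, Lt.f, Lt.bi, Lt.di] (pair_rel hinv hr (by decide +kernel)) h
        · exact mRel_good (T := T) (by decide) [Lt.d, Lt.ci, Lt.di, Lt.ci] [Lt.ci, Lt.fi, Lt.ci, Lt.f] (pair_rel hinv hr (by decide +kernel)) h
  · rcases brec_true h with h | h
    · rcases brec_true h with h | h
      · exact mRel_good (T := T) (by decide) [Lt.ci, Lt.f, Lt.b, Lt.b] [Lt.f, Lt.b, Lt.b, Lt.f] (pair_rel hinv hr (by decide +kernel)) h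
      · rcases brec_true h with h | h
        · exact mRel_good (T := T) (by decide) [Lt.fi, Lt.bi] [Lt.di, Lt.b, Lt.d, Lt.fi, Lt.c, Lt.b] (pair_rel hinv hr (by decide +kernel)) h
        · exact mRel_good (T := T) (by decide) [Lt.di, Lt.ci] [Lt.ci, Lt.di, Lt.ci, Lt.fi, Lt.c, Lt.f] (pair_rel hinv hr (by decide +kernel)) h
    · rcases brec_true h with h | h
      · exact mRel_good (T := T) (by decide) [Lt.bi, Lt.di, Lt.ci] [Lt.f, Lt.bi, Lt.di, Lt.ci, Lt.d] (pair_rel hinv hr (by decide +kernel)) h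
      · rcases brec_true h with h | h
        · exact mRel_good (T := T) (by decide) [Lt.di, Lt.ci, Lt.d, Lt.c, Lt.d] [Lt.b, Lt.fi, Lt.bi] (pair_rel hinv hr (by decide +kernel)) h
        · exact mRel_good (T := T) (by decide) [Lt.f, Lt.c, Lt.d, Lt.c, Lt.di, Lt.ci] [Lt.c, Lt.f] (pair_rel hinv hr (by decide +kernel)) h
theorem dM_46_s (hinv : ∀ x, g (inv x) = (g x)⁻¹) (hr : ∀ r ∈ rels, (r.map g).prod = 1) (j z1 z2 u : ℕ) (h : dM_46 j z1 z2 u = true) : GoodM (fa g) T MG M (cP g H) u := by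
  unfold dM_46 at h
  rcases brec_true h with h | h
  · rcases brec_true h with h | h
    · rcases brec_true h with h | h
      · exact mRel_good (T := T) (by decide) [Lt.f, Lt.b, Lt.b] [Lt.ci, Lt.f, Lt.b, Lt.b, Lt.fi] (pair_rel hinv hr (by decide +kernel)) h
      · rcases brec_true h with h | h
        · exact mRel_good (T := T) (by decide) [Lt.b, Lt.di, Lt.bi, Lt.bi] [Lt.bi, Lt.d, Lt.f, Lt.di] (pair_rel hinv hr (by decide +kernel)) h
        · exact mRel_good (T := T) (by decide) [Lt.fi, Lt.ci, Lt.f, Lt.d, Lt.c] [Lt.ci, Lt.f, Lt.d] (pair_rel hinv hr (by decide +kernel)) h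
    · rcases brec_true h with h | h
      · exact mRel_good (T := T) (by decide) [Lt.di, Lt.c, Lt.d, Lt.b] [Lt.c, Lt.d, Lt.b, Lt.f] (pair_rel hinv hr (by decide +kernel)) h
      · rcases brec_true h with h | h
        · exact mRel_good (T := T) (by decide) [Lt.bi, Lt.bi] [Lt.di, Lt.bi, Lt.bi, Lt.d, Lt.fi, Lt.di] (pair_rel hinv hr (by decide +kernel)) h
        · exact mRel_good (T := T) (by decide) [Lt.ci, Lt.f] [Lt.b, Lt.ci, Lt.di, Lt.fi, Lt.b, Lt.b] (pair_rel hinv hr (by decide +kernel)) h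
  · rcases brec_true h with h | h
    · rcases brec_true h with h | h
      · exact mRel_good (T := T) (by decide) [Lt.d, Lt.bi, Lt.di] [Lt.ci, Lt.f, Lt.c, Lt.d, Lt.bi] (pair_rel hinv hr (by decide +kernel)) h
      · rcases brec_true h with h | h
        · exact mRel_good (T := T) (by decide) [Lt.ci, Lt.d, Lt.ci] [Lt.d, Lt.ci, Lt.di, Lt.fi, Lt.d] (pair_rel hinv hr (by decide +kernel)) h
        · exact mRel_good (T := T) (by decide) [Lt.d, Lt.bi, Lt.bi, Lt.d, Lt.f] [Lt.bi, Lt.bi, Lt.d] (pair_rel hinv hr (by decide +kernel)) h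
    · rcases brec_true h with h | h
      · exact mRel_good (T := T) (by decide) [Lt.b] [Lt.bi, Lt.d, Lt.f, Lt.di, Lt.b, Lt.b, Lt.d] (pair_rel hinv hr (by decide +kernel)) h
      · rcases brec_true h with h | h
        · exact mRel_good (T := T) (by decide) [Lt.d, Lt.ci] [Lt.fi, Lt.c, Lt.fi, Lt.ci, Lt.f, Lt.d] (pair_rel hinv hr (by decide +kernel)) h
        · exact mRel_good (T := T) (by decide) [Lt.ci, Lt.di, Lt.fi, Lt.b, Lt.b, Lt.fi] [Lt.bi, Lt.ci] (pair_rel hinv hr (by decide +kernel)) h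
theorem dM_47_s (hinv : ∀ x, g (inv x) = (g x)⁻¹) (hr : ∀ r ∈ rels, (r.map g).prod = 1) (j z1 z2 u : ℕ) (h : dM_47 j z1 z2 u = true) : GoodM (fa g) T MG M (cP g H) u := by
  unfold dM_47 at h
  rcases brec_true h with h | h
  · exact dM_45_s hinv hr j z1 z2 u h
  · exact dM_46_s hinv hr j z1 z2 u h
theorem dM_48_s (hinv : ∀ x, g (inv x) = (g x)⁻¹) (hr : ∀ r ∈ rels, (r.map g).prod = 1) (j z1 z2 u : ℕ) (h : dM_48 j z1 z2 u = true) : GoodM (fa g) T MG M (cP g H) u := by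
  unfold dM_48 at h
  rcases brec_true h with h | h
  · exact dM_44_s hinv hr j z1 z2 u h
  · exact dM_47_s hinv hr j z1 z2 u h
theorem dM_49_s (hinv : ∀ x, g (inv x) = (g x)⁻¹) (hr : ∀ r ∈ rels, (r.map g).prod = 1) (j z1 z2 u : ℕ) (h : dM_49 j z1 z2 u = true) : GoodM (fa g) T MG M (cP g H) u := by
  unfold dM_49 at h
  rcases brec_true h with h | h
  · exact dM_41_s hinv hr j z1 z2 u h
  · exact dM_48_s hinv hr j z1 z2 u h
theorem dM_50_s (hinv : ∀ x, g (inv x) = (g x)⁻¹) (hr : ∀ r ∈ rels, (r.map g).prod = 1) (j z1 z2 u : ℕ) (h : dM_50 j z1 z2 u = true) : GoodM (fa g) T MG M (cP g H) u := by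
  unfold dM_50 at h
  rcases brec_true h with h | h
  · rcases brec_true h with h | h
    · rcases brec_true h with h | h
      · exact mRel_good (T := T) (by decide) [Lt.c, Lt.f, Lt.b, Lt.b, Lt.f] [Lt.f, Lt.b, Lt.b] (pair_rel hinv hr (by decide +kernel)) h
      · exact mRel_good (T := T) (by decide) [Lt.c, Lt.d, Lt.ci, Lt.b] [Lt.d, Lt.bi, Lt.bi, Lt.f] (pair_rel hinv hr (by decide +kernel)) h
    · rcases brec_true h with h | h
      · exact mRel_good (T := T) (by decide) [Lt.e, Lt.b, Lt.fi, Lt.ci, Lt.b, Lt.d] [Lt.b, Lt.e, Lt.bi, Lt.e] (pair_rel hinv hr (by decide +kernel)) h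
      · rcases brec_true h with h | h
        · exact mRel_good (T := T) (by decide) [Lt.d, Lt.c, Lt.di, Lt.ci] [Lt.fi, Lt.d, Lt.c, Lt.di] (pair_rel hinv hr (by decide +kernel)) h
        · exact mRel_good (T := T) (by decide) [Lt.bi, Lt.ei, Lt.b, Lt.e] [Lt.fi, Lt.ci, Lt.b, Lt.d, Lt.ei, Lt.b] (pair_rel hinv hr (by decide +kernel)) h
  · rcases brec_true h with h | h
    · rcases brec_true h with h | h
      · exact mRel_good (T := T) (by decide) [Lt.ci, Lt.bi] [Lt.b, Lt.b, Lt.di, Lt.f, Lt.d, Lt.c] (pair_rel hinv hr (by decide +kernel)) h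
      · rcases brec_true h with h | h
        · exact mRel_good (T := T) (by decide) [Lt.fi, Lt.c, Lt.f, Lt.b] [Lt.b, Lt.b, Lt.fi, Lt.bi] (pair_rel hinv hr (by decide +kernel)) h
        · exact mRel_good (T := T) (by decide) [Lt.c, Lt.b, Lt.b, Lt.f, Lt.di, Lt.b, Lt.d] [Lt.f] (pair_rel hinv hr (by decide +kernel)) h
    · rcases brec_true h with h | h
      · exact mRel_good (T := T) (by decide) [Lt.fi, Lt.c, Lt.b, Lt.b] [Lt.di, Lt.bi, Lt.d, Lt.fi] (pair_rel hinv hr (by decide +kernel)) h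
      · rcases brec_true h with h | h
        · exact mRel_good (T := T) (by decide) [Lt.c, Lt.di, Lt.ci, Lt.fi, Lt.ci, Lt.f] [Lt.di, Lt.ci] (pair_rel hinv hr (by decide +kernel)) h
        · exact mRel_good (T := T) (by decide) [Lt.di, Lt.ci, Lt.d] [Lt.ci, Lt.b, Lt.fi, Lt.b, Lt.b] (pair_rel hinv hr (by decide +kernel)) h
theorem dM_51_s (hinv : ∀ x, g (inv x) = (g x)⁻¹) (hr : ∀ r ∈ rels, (r.map g).prod = 1) (j z1 z2 u : ℕ) (h : dM_51 j z1 z2 u = true) : GoodM (fa g) T MG M (cP g H) u := by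
  unfold dM_51 at h
  rcases brec_true h with h | h
  · rcases brec_true h with h | h
    · rcases brec_true h with h | h
      · exact mRel_good (T := T) (by decide) [Lt.c, Lt.d, Lt.bi, Lt.d, Lt.b, Lt.di, Lt.ci] [Lt.fi] (pair_rel hinv hr (by decide +kernel)) h
      · rcases brec_true h with h | h
        · exact mRel_good (T := T) (by decide) [Lt.d, Lt.c] [Lt.fi, Lt.b, Lt.b, Lt.fi, Lt.c, Lt.b] (pair_rel hinv hr (by decide +kernel)) h
        · exact mRel_good (T := T) (by decide) [Lt.bi, Lt.d, Lt.fi] [Lt.b, Lt.d, Lt.bi, Lt.bi, Lt.d] (pair_rel hinv hr (by decide +kernel)) h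
    · rcases brec_true h with h | h
      · exact mRel_good (T := T) (by decide) [Lt.di, Lt.ci, Lt.d, Lt.c, Lt.d, Lt.b, Lt.f] [Lt.b] (pair_rel hinv hr (by decide +kernel)) h
      · rcases brec_true h with h | h
        · exact mRel_good (T := T) (by decide) [Lt.d, Lt.ci, Lt.di, Lt.fi, Lt.c, Lt.f] [Lt.fi, Lt.c] (pair_rel hinv hr (by decide +kernel)) h
        · exact mRel_good (T := T) (by decide) [Lt.d, Lt.b] [Lt.ci, Lt.di, Lt.c, Lt.d, Lt.b, Lt.fi] (pair_rel hinv hr (by decide +kernel)) h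
  · rcases brec_true h with h | h
    · rcases brec_true h with h | h
      · exact mRel_good (T := T) (by decide) [Lt.di, Lt.ci, Lt.f, Lt.c, Lt.d, Lt.bi, Lt.d] [Lt.bi] (pair_rel hinv hr (by decide +kernel)) h
      · rcases brec_true h with h | h
        · exact mRel_good (T := T) (by decide) [Lt.bi, Lt.bi, Lt.ci, Lt.f] [Lt.f, Lt.di, Lt.b, Lt.d] (pair_rel hinv hr (by decide +kernel)) h
        · exact mRel_good (T := T) (by decide) [Lt.bi, Lt.fi, Lt.ci, Lt.ei, Lt.b] [Lt.di, Lt.c, Lt.ei, Lt.b, Lt.ei] (pair_rel hinv hr (by decide +kernel)) h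
    · rcases brec_true h with h | h
      · exact mRel_good (T := T) (by decide) [Lt.fi, Lt.bi, Lt.di, Lt.ci, Lt.di, Lt.c] [Lt.bi, Lt.di] (pair_rel hinv hr (by decide +kernel)) h
      · rcases brec_true h with h | h
        · exact mRel_good (T := T) (by decide) [Lt.bi] [Lt.f, Lt.bi, Lt.di, Lt.ci, Lt.d, Lt.c, Lt.d] (pair_rel hinv hr (by decide +kernel)) h
        · exact mRel_good (T := T) (by decide) [Lt.f, Lt.d, Lt.c, Lt.bi, Lt.ci] [Lt.b, Lt.b, Lt.fi] (pair_rel hinv hr (by decide +kernel)) h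
theorem dM_52_s (hinv : ∀ x, g (inv x) = (g x)⁻¹) (hr : ∀ r ∈ rels, (r.map g).prod = 1) (j z1 z2 u : ℕ) (h : dM_52 j z1 z2 u = true) : GoodM (fa g) T MG M (cP g H) u := by
  unfold dM_52 at h
  rcases brec_true h with h | h
  · exact dM_50_s hinv hr j z1 z2 u h
  · exact dM_51_s hinv hr j z1 z2 u h
theorem dM_53_s (hinv : ∀ x, g (inv x) = (g x)⁻¹) (hr : ∀ r ∈ rels, (r.map g).prod = 1) (j z1 z2 u : ℕ) (h : dM_53 j z1 z2 u = true) : GoodM (fa g) T MG M (cP g H) u := by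
  unfold dM_53 at h
  rcases brec_true h with h | h
  · rcases brec_true h with h | h
    · rcases brec_true h with h | h
      · exact mRel_good (T := T) (by decide) [Lt.c, Lt.di, Lt.ci, Lt.d, Lt.bi, Lt.bi] [Lt.b, Lt.fi] (pair_rel hinv hr (by decide +kernel)) h
      · exact mRel_good (T := T) (by decide) [Lt.bi, Lt.di, Lt.ci, Lt.d, Lt.c, Lt.d] [Lt.fi, Lt.bi] (pair_rel hinv hr (by decide +kernel)) h
    · rcases brec_true h with h | h
      · exact mRel_good (T := T) (by decide) [Lt.bi, Lt.c, Lt.f, Lt.bi, Lt.ei, Lt.b] [Lt.d, Lt.ei, Lt.b, Lt.ei] (pair_rel hinv hr (by decide +kernel)) h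
      · rcases brec_true h with h | h
        · exact mRel_good (T := T) (by decide) [Lt.f, Lt.bi, Lt.bi, Lt.fi, Lt.c, Lt.f] [Lt.bi, Lt.bi] (pair_rel hinv hr (by decide +kernel)) h
        · exact mRel_good (T := T) (by decide) [Lt.b, Lt.b, Lt.f, Lt.di, Lt.b] [Lt.ci, Lt.f, Lt.di] (pair_rel hinv hr (by decide +kernel)) h
  · rcases brec_true h with h | h
    · rcases brec_true h with h | h
      · exact mRel_good (T := T) (by decide) [Lt.di, Lt.fi, Lt.d, Lt.c] [Lt.c, Lt.di, Lt.ci, Lt.d] (pair_rel hinv hr (by decide +kernel)) h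
      · rcases brec_true h with h | h
        · exact mRel_good (T := T) (by decide) [Lt.b, Lt.di, Lt.c, Lt.ei, Lt.b] [Lt.fi, Lt.ci, Lt.ei, Lt.b, Lt.e] (pair_rel hinv hr (by decide +kernel)) h
        · exact mRel_good (T := T) (by decide) [Lt.di, Lt.fi] [Lt.c, Lt.bi, Lt.ci, Lt.f, Lt.bi, Lt.bi] (pair_rel hinv hr (by decide +kernel)) h
    · rcases brec_true h with h | h
      · exact mRel_good (T := T) (by decide) [Lt.bi, Lt.d] [Lt.d, Lt.fi, Lt.c, Lt.b, Lt.b, Lt.f] (pair_rel hinv hr (by decide +kernel)) h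
      · rcases brec_true h with h | h
        · exact mRel_good (T := T) (by decide) [Lt.b, Lt.b, Lt.di, Lt.f, Lt.d, Lt.c, Lt.b] [Lt.ci] (pair_rel hinv hr (by decide +kernel)) h
        · exact mRel_good (T := T) (by decide) [Lt.f, Lt.b, Lt.b, Lt.f, Lt.bi, Lt.bi] [Lt.ci, Lt.f] (pair_rel hinv hr (by decide +kernel)) h
theorem dM_54_s (hinv : ∀ x, g (inv x) = (g x)⁻¹) (hr : ∀ r ∈ rels, (r.map g).prod = 1) (j z1 z2 u : ℕ) (h : dM_54 j z1 z2 u = true) : GoodM (fa g) T MG M (cP g H) u := by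
  unfold dM_54 at h
  rcases brec_true h with h | h
  · rcases brec_true h with h | h
    · rcases brec_true h with h | h
      · exact mRel_good (T := T) (by decide) [Lt.bi, Lt.c, Lt.f, Lt.bi, Lt.ei, Lt.b, Lt.e, Lt.bi, Lt.e] [Lt.d] (pair_rel hinv hr (by decide +kernel)) h
      · rcases brec_true h with h | h
        · exact mRel_good (T := T) (by decide) [Lt.f, Lt.d, Lt.c, Lt.bi, Lt.ci, Lt.f] [Lt.b, Lt.b] (pair_rel hinv hr (by decide +kernel)) h
        · exact mRel_good (T := T) (by decide) [Lt.ci, Lt.f, Lt.di, Lt.bi, Lt.d] [Lt.b, Lt.b, Lt.f] (pair_rel hinv hr (by decide +kernel)) h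
    · rcases brec_true h with h | h
      · exact mRel_good (T := T) (by decide) [Lt.bi, Lt.f, Lt.bi, Lt.c, Lt.di] [Lt.b, Lt.di, Lt.c] (pair_rel hinv hr (by decide +kernel)) h
      · rcases brec_true h with h | h
        · exact mRel_good (T := T) (by decide) [Lt.e, Lt.b, Lt.fi, Lt.bi, Lt.ei, Lt.c, Lt.fi] [Lt.c] (pair_rel hinv hr (by decide +kernel)) h
        · exact mRel_good (T := T) (by decide) [Lt.d, Lt.fi, Lt.di, Lt.b, Lt.b, Lt.di, Lt.bi] [Lt.b] (pair_rel hinv hr (by decide +kernel)) h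
  · rcases brec_true h with h | h
    · rcases brec_true h with h | h
      · exact mRel_good (T := T) (by decide) [Lt.ci, Lt.fi, Lt.c, Lt.d, Lt.bi, Lt.di] [Lt.d, Lt.bi] (pair_rel hinv hr (by decide +kernel)) h
      · rcases brec_true h with h | h
        · exact mRel_good (T := T) (by decide) [Lt.c, Lt.di] [Lt.di, Lt.f, Lt.d, Lt.c, Lt.di, Lt.ci] (pair_rel hinv hr (by decide +kernel)) h
        · exact mRel_good (T := T) (by decide) [Lt.c, Lt.b, Lt.b, Lt.f, Lt.di, Lt.b] [Lt.f, Lt.di] (pair_rel hinv hr (by decide +kernel)) h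
    · rcases brec_true h with h | h
      · exact mRel_good (T := T) (by decide) [Lt.di, Lt.ci, Lt.d, Lt.bi] [Lt.ci, Lt.b, Lt.fi, Lt.b] (pair_rel hinv hr (by decide +kernel)) h
      · rcases brec_true h with h | h
        · exact mRel_good (T := T) (by decide) [Lt.fi, Lt.ci, Lt.ei, Lt.b, Lt.e] [Lt.b, Lt.di, Lt.c, Lt.ei, Lt.b] (pair_rel hinv hr (by decide +kernel)) h
        · exact mRel_good (T := T) (by decide) [Lt.f, Lt.d, Lt.c, Lt.di, Lt.fi, Lt.c] [Lt.c, Lt.f] (pair_rel hinv hr (by decide +kernel)) h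
theorem dM_55_s (hinv : ∀ x, g (inv x) = (g x)⁻¹) (hr : ∀ r ∈ rels, (r.map g).prod = 1) (j z1 z2 u : ℕ) (h : dM_55 j z1 z2 u = true) : GoodM (fa g) T MG M (cP g H) u := by
  unfold dM_55 at h
  rcases brec_true h with h | h
  · exact dM_53_s hinv hr j z1 z2 u h
  · exact dM_54_s hinv hr j z1 z2 u h
theorem dM_56_s (hinv : ∀ x, g (inv x) = (g x)⁻¹) (hr : ∀ r ∈ rels, (r.map g).prod = 1) (j z1 z2 u : ℕ) (h : dM_56 j z1 z2 u = true) : GoodM (fa g) T MG M (cP g H) u := by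
  unfold dM_56 at h
  rcases brec_true h with h | h
  · exact dM_52_s hinv hr j z1 z2 u h
  · exact dM_55_s hinv hr j z1 z2 u h
theorem dM_57_s (hinv : ∀ x, g (inv x) = (g x)⁻¹) (hr : ∀ r ∈ rels, (r.map g).prod = 1) (j z1 z2 u : ℕ) (h : dM_57 j z1 z2 u = true) : GoodM (fa g) T MG M (cP g H) u := by
  unfold dM_57 at h
  rcases brec_true h with h | h
  · rcases brec_true h with h | h
    · rcases brec_true h with h | h
      · exact mRel_good (T := T) (by decide) [Lt.di, Lt.f, Lt.d, Lt.c, Lt.di, Lt.ci, Lt.d] [Lt.c] (pair_rel hinv hr (by decide +kernel)) h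
      · exact mRel_good (T := T) (by decide) [Lt.d, Lt.c, Lt.b, Lt.c, Lt.f, Lt.ei, Lt.b, Lt.ei] [Lt.ei, Lt.b] (pair_rel hinv hr (by decide +kernel)) h
    · rcases brec_true h with h | h
      · exact mRel_good (T := T) (by decide) [Lt.d, Lt.b, Lt.di, Lt.ci] [Lt.b, Lt.di, Lt.ci, Lt.fi] (pair_rel hinv hr (by decide +kernel)) h
      · rcases brec_true h with h | h
        · exact mRel_good (T := T) (by decide) [Lt.fi, Lt.bi, Lt.e] [Lt.ci, Lt.ei, Lt.c, Lt.fi, Lt.bi] (pair_rel hinv hr (by decide +kernel)) h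
        · exact mRel_good (T := T) (by decide) [Lt.di, Lt.ci] [Lt.ci, Lt.b, Lt.fi, Lt.b, Lt.b, Lt.di] (pair_rel hinv hr (by decide +kernel)) h
  · rcases brec_true h with h | h
    · rcases brec_true h with h | h
      · exact mRel_good (T := T) (by decide) [Lt.ci, Lt.fi, Lt.ci, Lt.f] [Lt.d, Lt.ci, Lt.di, Lt.ci] (pair_rel hinv hr (by decide +kernel)) h
      · rcases brec_true h with h | h
        · exact mRel_good (T := T) (by decide) [Lt.bi, Lt.ci, Lt.di, Lt.fi, Lt.d, Lt.bi] [Lt.c, Lt.b] (pair_rel hinv hr (by decide +kernel)) h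
        · exact mRel_good (T := T) (by decide) [Lt.b, Lt.e] [Lt.e, Lt.b, Lt.fi, Lt.ci, Lt.b, Lt.d, Lt.ei, Lt.b] (pair_rel hinv hr (by decide +kernel)) h
    · rcases brec_true h with h | h
      · exact mRel_good (T := T) (by decide) [Lt.d, Lt.ci, Lt.b, Lt.fi, Lt.b, Lt.b] [Lt.ci, Lt.d] (pair_rel hinv hr (by decide +kernel)) h
      · rcases brec_true h with h | h
        · exact mRel_good (T := T) (by decide) [Lt.di, Lt.bi, Lt.d, Lt.fi, Lt.bi] [Lt.fi, Lt.c, Lt.b] (pair_rel hinv hr (by decide +kernel)) h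
        · exact mRel_good (T := T) (by decide) [Lt.b, Lt.ci, Lt.di, Lt.fi] [Lt.ci, Lt.f, Lt.bi, Lt.bi] (pair_rel hinv hr (by decide +kernel)) h
theorem dM_58_s (hinv : ∀ x, g (inv x) = (g x)⁻¹) (hr : ∀ r ∈ rels, (r.map g).prod = 1) (j z1 z2 u : ℕ) (h : dM_58 j z1 z2 u = true) : GoodM (fa g) T MG M (cP g H) u := by
  unfold dM_58 at h
  rcases brec_true h with h | h
  · rcases brec_true h with h | h
    · rcases brec_true h with h | h
      · exact mRel_good (T := T) (by decide) [Lt.di, Lt.b, Lt.b, Lt.di, Lt.bi, Lt.bi] [Lt.f, Lt.di] (pair_rel hinv hr (by decide +kernel)) h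
      · rcases brec_true h with h | h
        · exact mRel_good (T := T) (by decide) [Lt.c, Lt.d, Lt.ci, Lt.b, Lt.fi] [Lt.d, Lt.bi, Lt.bi] (pair_rel hinv hr (by decide +kernel)) h
        · exact mRel_good (T := T) (by decide) [Lt.fi, Lt.c, Lt.f, Lt.c] [Lt.c, Lt.d, Lt.c, Lt.di] (pair_rel hinv hr (by decide +kernel)) h
    · rcases brec_true h with h | h
      · exact mRel_good (T := T) (by decide) [Lt.ci, Lt.bi, Lt.ci, Lt.di, Lt.ei, Lt.b, Lt.e, Lt.bi] [Lt.f, Lt.ei] (pair_rel hinv hr (by decide +kernel)) h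
      · rcases brec_true h with h | h
        · exact mRel_good (T := T) (by decide) [Lt.ci, Lt.ei, Lt.b, Lt.e, Lt.bi, Lt.e] [Lt.f, Lt.b, Lt.di, Lt.c] (pair_rel hinv hr (by decide +kernel)) h
        · exact mRel_good (T := T) (by decide) [Lt.bi] [Lt.fi, Lt.bi, Lt.ei, Lt.c, Lt.fi, Lt.ci, Lt.e] (pair_rel hinv hr (by decide +kernel)) h
  · rcases brec_true h with h | h
    · rcases brec_true h with h | h
      · exact mRel_good (T := T) (by decide) [Lt.fi, Lt.c, Lt.d] [Lt.c, Lt.d, Lt.bi, Lt.d, Lt.b] (pair_rel hinv hr (by decide +kernel)) h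
      · rcases brec_true h with h | h
        · exact mRel_good (T := T) (by decide) [Lt.c, Lt.f, Lt.ci, Lt.e, Lt.b, Lt.f, Lt.bi, Lt.ei] [] (pair_rel hinv hr (by decide +kernel)) h
        · exact mRel_good (T := T) (by decide) [Lt.b, Lt.c, Lt.f, Lt.ei, Lt.b] [Lt.ci, Lt.di, Lt.ei, Lt.b, Lt.e] (pair_rel hinv hr (by decide +kernel)) h
    · rcases brec_true h with h | h
      · exact mRel_good (T := T) (by decide) [Lt.b, Lt.fi, Lt.ci, Lt.b, Lt.d, Lt.ei, Lt.b] [Lt.ei, Lt.b, Lt.e] (pair_rel hinv hr (by decide +kernel)) h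
      · rcases brec_true h with h | h
        · exact mRel_good (T := T) (by decide) [Lt.di, Lt.f, Lt.d, Lt.c, Lt.di, Lt.ci] [Lt.c, Lt.di] (pair_rel hinv hr (by decide +kernel)) h
        · exact mRel_good (T := T) (by decide) [Lt.b, Lt.di, Lt.c, Lt.d, Lt.ci] [Lt.bi, Lt.f, Lt.bi] (pair_rel hinv hr (by decide +kernel)) h
theorem dM_59_s (hinv : ∀ x, g (inv x) = (g x)⁻¹) (hr : ∀ r ∈ rels, (r.map g).prod = 1) (j z1 z2 u : ℕ) (h : dM_59 j z1 z2 u = true) : GoodM (fa g) T MG M (cP g H) u := by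
  unfold dM_59 at h
  rcases brec_true h with h | h
  · exact dM_57_s hinv hr j z1 z2 u h
  · exact dM_58_s hinv hr j z1 z2 u h
theorem dM_60_s (hinv : ∀ x, g (inv x) = (g x)⁻¹) (hr : ∀ r ∈ rels, (r.map g).prod = 1) (j z1 z2 u : ℕ) (h : dM_60 j z1 z2 u = true) : GoodM (fa g) T MG M (cP g H) u := by
  unfold dM_60 at h
  rcases brec_true h with h | h
  · rcases brec_true h with h | h
    · rcases brec_true h with h | h
      · exact mRel_good (T := T) (by decide) [Lt.fi, Lt.c, Lt.fi, Lt.ci, Lt.f] [Lt.d, Lt.ci, Lt.di] (pair_rel hinv hr (by decide +kernel)) h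
      · rcases brec_true h with h | h
        · exact mRel_good (T := T) (by decide) [Lt.di, Lt.ci, Lt.fi, Lt.ci, Lt.f] [Lt.ci, Lt.di, Lt.ci] (pair_rel hinv hr (by decide +kernel)) h
        · exact mRel_good (T := T) (by decide) [Lt.ci, Lt.e, Lt.b] [Lt.f, Lt.ci, Lt.e, Lt.b, Lt.f] (pair_rel hinv hr (by decide +kernel)) h
    · rcases brec_true h with h | h
      · exact mRel_good (T := T) (by decide) [Lt.fi, Lt.ci, Lt.bi, Lt.ci, Lt.di, Lt.ei, Lt.b, Lt.e] [Lt.ei, Lt.b] (pair_rel hinv hr (by decide +kernel)) h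
      · rcases brec_true h with h | h
        · exact mRel_good (T := T) (by decide) [Lt.e] [Lt.b, Lt.ei, Lt.bi, Lt.e, Lt.b, Lt.fi, Lt.ci, Lt.b, Lt.d] (pair_rel hinv hr (by decide +kernel)) h
        · exact mRel_good (T := T) (by decide) [Lt.e] [Lt.bi, Lt.e, Lt.b, Lt.fi, Lt.ci, Lt.b, Lt.d, Lt.ei, Lt.b] (pair_rel hinv hr (by decide +kernel)) h
  · rcases brec_true h with h | h
    · rcases brec_true h with h | h
      · exact mRel_good (T := T) (by decide) [Lt.ci, Lt.f, Lt.d, Lt.c, Lt.di] [Lt.f, Lt.ci, Lt.f] (pair_rel hinv hr (by decide +kernel)) h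
      · rcases brec_true h with h | h
        · exact mRel_good (T := T) (by decide) [Lt.b, Lt.c, Lt.f, Lt.ei, Lt.b, Lt.ei] [Lt.ci, Lt.di, Lt.ei, Lt.b] (pair_rel hinv hr (by decide +kernel)) h
        · exact mRel_good (T := T) (by decide) [Lt.fi, Lt.c] [Lt.c, Lt.d, Lt.c, Lt.di, Lt.ci, Lt.fi] (pair_rel hinv hr (by decide +kernel)) h
    · rcases brec_true h with h | h
      · exact mRel_good (T := T) (by decide) [Lt.d, Lt.c, Lt.di, Lt.ci] [Lt.ci, Lt.fi, Lt.c, Lt.f] (pair_rel hinv hr (by decide +kernel)) h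
      · rcases brec_true h with h | h
        · exact mRel_good (T := T) (by decide) [Lt.ci, Lt.b, Lt.d, Lt.ei, Lt.b, Lt.ei] [Lt.f, Lt.bi, Lt.ei, Lt.b] (pair_rel hinv hr (by decide +kernel)) h
        · exact mRel_good (T := T) (by decide) [Lt.d, Lt.bi, Lt.fi, Lt.ci, Lt.ei, Lt.b, Lt.e] [Lt.c, Lt.ei, Lt.b] (pair_rel hinv hr (by decide +kernel)) h
theorem dM_61_s (hinv : ∀ x, g (inv x) = (g x)⁻¹) (hr : ∀ r ∈ rels, (r.map g).prod = 1) (j z1 z2 u : ℕ) (h : dM_61 j z1 z2 u = true) : GoodM (fa g) T MG M (cP g H) u := by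
  unfold dM_61 at h
  rcases brec_true h with h | h
  · rcases brec_true h with h | h
    · rcases brec_true h with h | h
      · exact mRel_good (T := T) (by decide) [Lt.b, Lt.b] [Lt.bi, Lt.c, Lt.fi, Lt.ci, Lt.b, Lt.c, Lt.f, Lt.ci] (pair_rel hinv hr (by decide +kernel)) h
      · rcases brec_true h with h | h
        · exact mRel_good (T := T) (by decide) [Lt.d, Lt.b, Lt.f, Lt.bi, Lt.di] [Lt.ci, Lt.di, Lt.c] (pair_rel hinv hr (by decide +kernel)) h
        · exact mRel_good (T := T) (by decide) [Lt.d, Lt.c] [Lt.fi, Lt.c, Lt.f, Lt.ci, Lt.f, Lt.d] (pair_rel hinv hr (by decide +kernel)) h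
    · rcases brec_true h with h | h
      · exact mRel_good (T := T) (by decide) [Lt.b, Lt.ei] [Lt.e, Lt.di, Lt.bi, Lt.c, Lt.f, Lt.bi, Lt.ei, Lt.b] (pair_rel hinv hr (by decide +kernel)) h
      · rcases brec_true h with h | h
        · exact mRel_good (T := T) (by decide) [Lt.f, Lt.di, Lt.bi, Lt.d] [Lt.c, Lt.b, Lt.b, Lt.f] (pair_rel hinv hr (by decide +kernel)) h
        · exact mRel_good (T := T) (by decide) [Lt.ci, Lt.bi, Lt.ci, Lt.di, Lt.ei] [Lt.f, Lt.ei, Lt.b, Lt.ei, Lt.bi] (pair_rel hinv hr (by decide +kernel)) h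
  · rcases brec_true h with h | h
    · rcases brec_true h with h | h
      · exact mRel_good (T := T) (by decide) [Lt.ci, Lt.d] [Lt.d, Lt.b, Lt.fi, Lt.bi, Lt.di, Lt.ci] (pair_rel hinv hr (by decide +kernel)) h
      · rcases brec_true h with h | h
        · exact mRel_good (T := T) (by decide) [Lt.b, Lt.di, Lt.c, Lt.d] [Lt.bi, Lt.f, Lt.bi, Lt.c] (pair_rel hinv hr (by decide +kernel)) h
        · exact mRel_good (T := T) (by decide) [Lt.c, Lt.di, Lt.ci, Lt.d, Lt.ci, Lt.di] [Lt.di, Lt.fi] (pair_rel hinv hr (by decide +kernel)) h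
    · rcases brec_true h with h | h
      · exact mRel_good (T := T) (by decide) [Lt.f, Lt.bi, Lt.bi] [Lt.c, Lt.b, Lt.ci, Lt.di, Lt.fi] (pair_rel hinv hr (by decide +kernel)) h
      · rcases brec_true h with h | h
        · exact mRel_good (T := T) (by decide) [Lt.b, Lt.e, Lt.bi, Lt.e, Lt.di, Lt.bi, Lt.c, Lt.f, Lt.bi] [Lt.e] (pair_rel hinv hr (by decide +kernel)) h
        · exact mRel_good (T := T) (by decide) [Lt.f, Lt.bi, Lt.bi, Lt.f, Lt.d] [Lt.c, Lt.b, Lt.ci] (pair_rel hinv hr (by decide +kernel)) h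
theorem dM_62_s (hinv : ∀ x, g (inv x) = (g x)⁻¹) (hr : ∀ r ∈ rels, (r.map g).prod = 1) (j z1 z2 u : ℕ) (h : dM_62 j z1 z2 u = true) : GoodM (fa g) T MG M (cP g H) u := by
  unfold dM_62 at h
  rcases brec_true h with h | h
  · exact dM_60_s hinv hr j z1 z2 u h
  · exact dM_61_s hinv hr j z1 z2 u h
theorem dM_63_s (hinv : ∀ x, g (inv x) = (g x)⁻¹) (hr : ∀ r ∈ rels, (r.map g).prod = 1) (j z1 z2 u : ℕ) (h : dM_63 j z1 z2 u = true) : GoodM (fa g) T MG M (cP g H) u := by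
  unfold dM_63 at h
  rcases brec_true h with h | h
  · exact dM_59_s hinv hr j z1 z2 u h
  · exact dM_62_s hinv hr j z1 z2 u h
theorem dM_64_s (hinv : ∀ x, g (inv x) = (g x)⁻¹) (hr : ∀ r ∈ rels, (r.map g).prod = 1) (j z1 z2 u : ℕ) (h : dM_64 j z1 z2 u = true) : GoodM (fa g) T MG M (cP g H) u := by
  unfold dM_64 at h
  rcases brec_true h with h | h
  · exact dM_56_s hinv hr j z1 z2 u h
  · exact dM_63_s hinv hr j z1 z2 u h
theorem dM_65_s (hinv : ∀ x, g (inv x) = (g x)⁻¹) (hr : ∀ r ∈ rels, (r.map g).prod = 1) (j z1 z2 u : ℕ) (h : dM_65 j z1 z2 u = true) : GoodM (fa g) T MG M (cP g H) u := by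
  unfold dM_65 at h
  rcases brec_true h with h | h
  · exact dM_49_s hinv hr j z1 z2 u h
  · exact dM_64_s hinv hr j z1 z2 u h
theorem dM_66_s (hinv : ∀ x, g (inv x) = (g x)⁻¹) (hr : ∀ r ∈ rels, (r.map g).prod = 1) (j z1 z2 u : ℕ) (h : dM_66 j z1 z2 u = true) : GoodM (fa g) T MG M (cP g H) u := by
  unfold dM_66 at h
  rcases brec_true h with h | h
  · exact dM_34_s hinv hr j z1 z2 u h
  · exact dM_65_s hinv hr j z1 z2 u h
theorem dM_67_s (hinv : ∀ x, g (inv x) = (g x)⁻¹) (hr : ∀ r ∈ rels, (r.map g).prod = 1) (j z1 z2 u : ℕ) (h : dM_67 j z1 z2 u = true) : GoodM (fa g) T MG M (cP g H) u := by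
  unfold dM_67 at h
  rcases brec_true h with h | h
  · rcases brec_true h with h | h
    · rcases brec_true h with h | h
      · exact mRel_good (T := T) (by decide) [Lt.c, Lt.ei, Lt.b, Lt.ei] [Lt.d, Lt.bi, Lt.fi, Lt.ci, Lt.ei, Lt.b] (pair_rel hinv hr (by decide +kernel)) h
      · exact mRel_good (T := T) (by decide) [Lt.fi, Lt.c, Lt.b, Lt.ci, Lt.di] [Lt.bi, Lt.bi, Lt.f] (pair_rel hinv hr (by decide +kernel)) h
    · rcases brec_true h with h | h
      · exact mRel_good (T := T) (by decide) [Lt.ci, Lt.f, Lt.d, Lt.ci, Lt.di, Lt.fi] [Lt.fi, Lt.ci] (pair_rel hinv hr (by decide +kernel)) h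
      · rcases brec_true h with h | h
        · exact mRel_good (T := T) (by decide) [Lt.b, Lt.b, Lt.f] [Lt.fi, Lt.ci, Lt.f, Lt.b, Lt.b] (pair_rel hinv hr (by decide +kernel)) h
        · exact mRel_good (T := T) (by decide) [Lt.b, Lt.fi] [Lt.bi, Lt.f, Lt.d, Lt.c, Lt.bi, Lt.ci] (pair_rel hinv hr (by decide +kernel)) h
  · rcases brec_true h with h | h
    · rcases brec_true h with h | h
      · exact mRel_good (T := T) (by decide) [Lt.d, Lt.ci, Lt.di, Lt.f] [Lt.c, Lt.d, Lt.ci, Lt.di] (pair_rel hinv hr (by decide +kernel)) h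
      · rcases brec_true h with h | h
        · exact mRel_good (T := T) (by decide) [Lt.bi, Lt.d] [Lt.b, Lt.di, Lt.bi, Lt.bi, Lt.d, Lt.fi] (pair_rel hinv hr (by decide +kernel)) h
        · exact mRel_good (T := T) (by decide) [Lt.ei, Lt.b, Lt.ei] [Lt.di, Lt.bi, Lt.c, Lt.f, Lt.bi, Lt.ei, Lt.b] (pair_rel hinv hr (by decide +kernel)) h
    · rcases brec_true h with h | h
      · exact mRel_good (T := T) (by decide) [Lt.di, Lt.c, Lt.ei, Lt.b] [Lt.bi, Lt.fi, Lt.ci, Lt.ei, Lt.b, Lt.e] (pair_rel hinv hr (by decide +kernel)) h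
      · rcases brec_true h with h | h
        · exact mRel_good (T := T) (by decide) [Lt.bi, Lt.bi, Lt.ci, Lt.bi, Lt.ci, Lt.di] [Lt.di, Lt.f] (pair_rel hinv hr (by decide +kernel)) h
        · exact mRel_good (T := T) (by decide) [Lt.c, Lt.f, Lt.b, Lt.b, Lt.f, Lt.bi, Lt.bi, Lt.fi] [] (pair_rel hinv hr (by decide +kernel)) h
theorem dM_68_s (hinv : ∀ x, g (inv x) = (g x)⁻¹) (hr : ∀ r ∈ rels, (r.map g).prod = 1) (j z1 z2 u : ℕ) (h : dM_68 j z1 z2 u = true) : GoodM (fa g) T MG M (cP g H) u := by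
  unfold dM_68 at h
  rcases brec_true h with h | h
  · rcases brec_true h with h | h
    · rcases brec_true h with h | h
      · exact mRel_good (T := T) (by decide) [Lt.ci, Lt.fi, Lt.c, Lt.f, Lt.c, Lt.d] [Lt.d, Lt.c] (pair_rel hinv hr (by decide +kernel)) h
      · rcases brec_true h with h | h
        · exact mRel_good (T := T) (by decide) [Lt.di, Lt.c, Lt.d] [Lt.c, Lt.d, Lt.b, Lt.f, Lt.bi] (pair_rel hinv hr (by decide +kernel)) h
        · exact mRel_good (T := T) (by decide) [Lt.d, Lt.b, Lt.fi, Lt.bi] [Lt.ci, Lt.d, Lt.c, Lt.d] (pair_rel hinv hr (by decide +kernel)) h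
    · rcases brec_true h with h | h
      · exact mRel_good (T := T) (by decide) [Lt.e, Lt.b, Lt.f, Lt.bi, Lt.ei, Lt.c, Lt.f] [Lt.c] (pair_rel hinv hr (by decide +kernel)) h
      · rcases brec_true h with h | h
        · exact mRel_good (T := T) (by decide) [Lt.fi, Lt.c, Lt.fi, Lt.ci, Lt.f, Lt.d] [Lt.d, Lt.ci] (pair_rel hinv hr (by decide +kernel)) h
        · exact mRel_good (T := T) (by decide) [Lt.bi, Lt.ci, Lt.f] [Lt.ci, Lt.di, Lt.fi, Lt.b, Lt.b] (pair_rel hinv hr (by decide +kernel)) h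
  · rcases brec_true h with h | h
    · rcases brec_true h with h | h
      · exact mRel_good (T := T) (by decide) [Lt.e, Lt.b, Lt.fi, Lt.bi, Lt.ei, Lt.c] [Lt.c, Lt.f] (pair_rel hinv hr (by decide +kernel)) h
      · rcases brec_true h with h | h
        · exact mRel_good (T := T) (by decide) [Lt.di, Lt.fi, Lt.d, Lt.bi, Lt.bi, Lt.ci, Lt.bi] [Lt.c] (pair_rel hinv hr (by decide +kernel)) h
        · exact mRel_good (T := T) (by decide) [Lt.f, Lt.ci] [Lt.bi, Lt.ei, Lt.b, Lt.f, Lt.ci, Lt.ei] (pair_rel hinv hr (by decide +kernel)) h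
    · rcases brec_true h with h | h
      · exact mRel_good (T := T) (by decide) [Lt.d, Lt.b, Lt.f, Lt.bi, Lt.di, Lt.ci] [Lt.ci, Lt.di] (pair_rel hinv hr (by decide +kernel)) h
      · rcases brec_true h with h | h
        · exact mRel_good (T := T) (by decide) [Lt.b] [Lt.e, Lt.di, Lt.bi, Lt.c, Lt.f, Lt.bi, Lt.ei, Lt.b, Lt.e] (pair_rel hinv hr (by decide +kernel)) h
        · exact mRel_good (T := T) (by decide) [Lt.d, Lt.fi] [Lt.b, Lt.b, Lt.d, Lt.bi, Lt.bi, Lt.d] (pair_rel hinv hr (by decide +kernel)) h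
theorem dM_69_s (hinv : ∀ x, g (inv x) = (g x)⁻¹) (hr : ∀ r ∈ rels, (r.map g).prod = 1) (j z1 z2 u : ℕ) (h : dM_69 j z1 z2 u = true) : GoodM (fa g) T MG M (cP g H) u := by
  unfold dM_69 at h
  rcases brec_true h with h | h
  · exact dM_67_s hinv hr j z1 z2 u h
  · exact dM_68_s hinv hr j z1 z2 u h
theorem dM_70_s (hinv : ∀ x, g (inv x) = (g x)⁻¹) (hr : ∀ r ∈ rels, (r.map g).prod = 1) (j z1 z2 u : ℕ) (h : dM_70 j z1 z2 u = true) : GoodM (fa g) T MG M (cP g H) u := by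
  unfold dM_70 at h
  rcases brec_true h with h | h
  · rcases brec_true h with h | h
    · rcases brec_true h with h | h
      · exact mRel_good (T := T) (by decide) [Lt.d, Lt.c, Lt.di, Lt.ci, Lt.d, Lt.ci, Lt.di] [Lt.fi] (pair_rel hinv hr (by decide +kernel)) h
      · exact mRel_good (T := T) (by decide) [Lt.b, Lt.f, Lt.di, Lt.b, Lt.d, Lt.fi] [Lt.bi, Lt.ci] (pair_rel hinv hr (by decide +kernel)) h
    · rcases brec_true h with h | h
      · exact mRel_good (T := T) (by decide) [Lt.ei, Lt.b, Lt.e, Lt.bi, Lt.e] [Lt.b, Lt.fi, Lt.ci, Lt.b, Lt.d] (pair_rel hinv hr (by decide +kernel)) h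
      · rcases brec_true h with h | h
        · exact mRel_good (T := T) (by decide) [Lt.ei, Lt.c, Lt.fi, Lt.ci, Lt.e, Lt.b, Lt.fi] [Lt.b] (pair_rel hinv hr (by decide +kernel)) h
        · exact mRel_good (T := T) (by decide) [Lt.bi, Lt.e, Lt.di, Lt.bi, Lt.c, Lt.f, Lt.bi, Lt.ei, Lt.b] [Lt.ei] (pair_rel hinv hr (by decide +kernel)) h
  · rcases brec_true h with h | h
    · rcases brec_true h with h | h
      · exact mRel_good (T := T) (by decide) [Lt.di, Lt.b, Lt.b, Lt.di] [Lt.f, Lt.di, Lt.b, Lt.b] (pair_rel hinv hr (by decide +kernel)) h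
      · rcases brec_true h with h | h
        · exact mRel_good (T := T) (by decide) [Lt.di, Lt.fi, Lt.c, Lt.f, Lt.ci, Lt.f] [Lt.c, Lt.di] (pair_rel hinv hr (by decide +kernel)) h
        · exact mRel_good (T := T) (by decide) [Lt.bi, Lt.ci] [Lt.b, Lt.di, Lt.f, Lt.d, Lt.c, Lt.b] (pair_rel hinv hr (by decide +kernel)) h
    · rcases brec_true h with h | h
      · exact mRel_good (T := T) (by decide) [Lt.bi, Lt.di, Lt.ci, Lt.d] [Lt.fi, Lt.bi, Lt.di, Lt.ci] (pair_rel hinv hr (by decide +kernel)) h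
      · rcases brec_true h with h | h
        · exact mRel_good (T := T) (by decide) [Lt.d, Lt.c, Lt.di, Lt.ci, Lt.fi, Lt.ci] [Lt.ci, Lt.fi] (pair_rel hinv hr (by decide +kernel)) h
        · exact mRel_good (T := T) (by decide) [Lt.c, Lt.fi] [Lt.ei, Lt.c, Lt.fi, Lt.bi, Lt.ei, Lt.b] (pair_rel hinv hr (by decide +kernel)) h
theorem dM_71_s (hinv : ∀ x, g (inv x) = (g x)⁻¹) (hr : ∀ r ∈ rels, (r.map g).prod = 1) (j z1 z2 u : ℕ) (h : dM_71 j z1 z2 u = true) : GoodM (fa g) T MG M (cP g H) u := by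
  unfold dM_71 at h
  rcases brec_true h with h | h
  · rcases brec_true h with h | h
    · rcases brec_true h with h | h
      · exact mRel_good (T := T) (by decide) [Lt.ci, Lt.e, Lt.b, Lt.f, Lt.bi, Lt.ei, Lt.c, Lt.f] [] (pair_rel hinv hr (by decide +kernel)) h
      · rcases brec_true h with h | h
        · exact mRel_good (T := T) (by decide) [Lt.di, Lt.f, Lt.d, Lt.c, Lt.b] [Lt.bi, Lt.bi, Lt.ci] (pair_rel hinv hr (by decide +kernel)) h
        · exact mRel_good (T := T) (by decide) [Lt.c, Lt.f, Lt.b] [Lt.f, Lt.b, Lt.b, Lt.fi, Lt.bi] (pair_rel hinv hr (by decide +kernel)) h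
    · rcases brec_true h with h | h
      · exact mRel_good (T := T) (by decide) [Lt.bi, Lt.di, Lt.ci, Lt.di] [Lt.f, Lt.bi, Lt.di, Lt.ci] (pair_rel hinv hr (by decide +kernel)) h
      · rcases brec_true h with h | h
        · exact mRel_good (T := T) (by decide) [Lt.f, Lt.di, Lt.b] [Lt.bi, Lt.bi, Lt.ci, Lt.f, Lt.di] (pair_rel hinv hr (by decide +kernel)) h
        · exact mRel_good (T := T) (by decide) [Lt.e, Lt.b, Lt.fi, Lt.ci, Lt.b, Lt.d, Lt.ei, Lt.b, Lt.ei] [Lt.b] (pair_rel hinv hr (by decide +kernel)) h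
  · rcases brec_true h with h | h
    · rcases brec_true h with h | h
      · exact mRel_good (T := T) (by decide) [Lt.d, Lt.c, Lt.di, Lt.fi, Lt.c] [Lt.fi, Lt.c, Lt.f] (pair_rel hinv hr (by decide +kernel)) h
      · rcases brec_true h with h | h
        · exact mRel_good (T := T) (by decide) [Lt.bi, Lt.d, Lt.fi, Lt.bi, Lt.bi, Lt.ci] [Lt.d, Lt.fi] (pair_rel hinv hr (by decide +kernel)) h
        · exact mRel_good (T := T) (by decide) [Lt.ci, Lt.di, Lt.fi, Lt.d, Lt.bi] [Lt.b, Lt.c, Lt.b] (pair_rel hinv hr (by decide +kernel)) h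
    · rcases brec_true h with h | h
      · exact mRel_good (T := T) (by decide) [Lt.ci, Lt.f, Lt.bi, Lt.bi, Lt.f] [Lt.b, Lt.ci, Lt.di] (pair_rel hinv hr (by decide +kernel)) h
      · rcases brec_true h with h | h
        · exact mRel_good (T := T) (by decide) [Lt.ci, Lt.fi, Lt.c] [Lt.d, Lt.bi, Lt.d, Lt.b, Lt.di] (pair_rel hinv hr (by decide +kernel)) h
        · exact mRel_good (T := T) (by decide) [Lt.bi, Lt.ci, Lt.f, Lt.di, Lt.bi, Lt.d] [Lt.b, Lt.f] (pair_rel hinv hr (by decide +kernel)) h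
theorem dM_72_s (hinv : ∀ x, g (inv x) = (g x)⁻¹) (hr : ∀ r ∈ rels, (r.map g).prod = 1) (j z1 z2 u : ℕ) (h : dM_72 j z1 z2 u = true) : GoodM (fa g) T MG M (cP g H) u := by
  unfold dM_72 at h
  rcases brec_true h with h | h
  · exact dM_70_s hinv hr j z1 z2 u h
  · exact dM_71_s hinv hr j z1 z2 u h
theorem dM_73_s (hinv : ∀ x, g (inv x) = (g x)⁻¹) (hr : ∀ r ∈ rels, (r.map g).prod = 1) (j z1 z2 u : ℕ) (h : dM_73 j z1 z2 u = true) : GoodM (fa g) T MG M (cP g H) u := by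
  unfold dM_73 at h
  rcases brec_true h with h | h
  · exact dM_69_s hinv hr j z1 z2 u h
  · exact dM_72_s hinv hr j z1 z2 u h
theorem dM_74_s (hinv : ∀ x, g (inv x) = (g x)⁻¹) (hr : ∀ r ∈ rels, (r.map g).prod = 1) (j z1 z2 u : ℕ) (h : dM_74 j z1 z2 u = true) : GoodM (fa g) T MG M (cP g H) u := by
  unfold dM_74 at h
  rcases brec_true h with h | h
  · rcases brec_true h with h | h
    · rcases brec_true h with h | h
      · exact mRel_good (T := T) (by decide) [Lt.d, Lt.c, Lt.d] [Lt.c, Lt.d, Lt.b, Lt.fi, Lt.bi] (pair_rel hinv hr (by decide +kernel)) h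
      · exact mRel_good (T := T) (by decide) [Lt.f, Lt.bi] [Lt.b, Lt.b, Lt.di, Lt.c, Lt.d, Lt.ci] (pair_rel hinv hr (by decide +kernel)) h
    · rcases brec_true h with h | h
      · exact mRel_good (T := T) (by decide) [Lt.e, Lt.c] [Lt.c, Lt.fi, Lt.bi, Lt.ei, Lt.b, Lt.f] (pair_rel hinv hr (by decide +kernel)) h
      · rcases brec_true h with h | h
        · exact mRel_good (T := T) (by decide) [Lt.d, Lt.c, Lt.bi] [Lt.fi, Lt.b, Lt.b, Lt.fi, Lt.c] (pair_rel hinv hr (by decide +kernel)) h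
        · exact mRel_good (T := T) (by decide) [Lt.c, Lt.d, Lt.ci, Lt.di, Lt.ci] [Lt.fi, Lt.ci, Lt.f] (pair_rel hinv hr (by decide +kernel)) h
  · rcases brec_true h with h | h
    · rcases brec_true h with h | h
      · exact mRel_good (T := T) (by decide) [Lt.bi] [Lt.ei, Lt.bi, Lt.e, Lt.b, Lt.fi, Lt.ci, Lt.b, Lt.d, Lt.ei] (pair_rel hinv hr (by decide +kernel)) h
      · rcases brec_true h with h | h
        · exact mRel_good (T := T) (by decide) [Lt.bi, Lt.di, Lt.b, Lt.di, Lt.ci] [Lt.di, Lt.ci, Lt.f] (pair_rel hinv hr (by decide +kernel)) h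
        · exact mRel_good (T := T) (by decide) [Lt.e, Lt.b, Lt.f] [Lt.c, Lt.fi, Lt.ci, Lt.e, Lt.b] (pair_rel hinv hr (by decide +kernel)) h
    · rcases brec_true h with h | h
      · exact mRel_good (T := T) (by decide) [Lt.d, Lt.ci, Lt.b, Lt.fi, Lt.b, Lt.b, Lt.di] [Lt.ci] (pair_rel hinv hr (by decide +kernel)) h
      · rcases brec_true h with h | h
        · exact mRel_good (T := T) (by decide) [Lt.f, Lt.bi, Lt.ei, Lt.c, Lt.f, Lt.ci, Lt.e] [Lt.bi] (pair_rel hinv hr (by decide +kernel)) h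
        · exact mRel_good (T := T) (by decide) [Lt.c, Lt.b, Lt.c, Lt.f, Lt.ei, Lt.b, Lt.ei] [Lt.di, Lt.ei, Lt.b] (pair_rel hinv hr (by decide +kernel)) h
theorem dM_75_s (hinv : ∀ x, g (inv x) = (g x)⁻¹) (hr : ∀ r ∈ rels, (r.map g).prod = 1) (j z1 z2 u : ℕ) (h : dM_75 j z1 z2 u = true) : GoodM (fa g) T MG M (cP g H) u := by
  unfold dM_75 at h
  rcases brec_true h with h | h
  · rcases brec_true h with h | h
    · rcases brec_true h with h | h
      · exact mRel_good (T := T) (by decide) [Lt.bi, Lt.ci] [Lt.c, Lt.b, Lt.b, Lt.di, Lt.f, Lt.d] (pair_rel hinv hr (by decide +kernel)) h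
      · rcases brec_true h with h | h
        · exact mRel_good (T := T) (by decide) [Lt.d, Lt.bi, Lt.bi] [Lt.c, Lt.d, Lt.ci, Lt.b, Lt.fi] (pair_rel hinv hr (by decide +kernel)) h
        · exact mRel_good (T := T) (by decide) [Lt.b, Lt.e, Lt.bi] [Lt.e, Lt.b, Lt.fi, Lt.ci, Lt.b, Lt.d, Lt.ei] (pair_rel hinv hr (by decide +kernel)) h
    · rcases brec_true h with h | h
      · exact mRel_good (T := T) (by decide) [Lt.ci, Lt.di, Lt.fi, Lt.d, Lt.bi, Lt.bi, Lt.ci] [Lt.b] (pair_rel hinv hr (by decide +kernel)) h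
      · rcases brec_true h with h | h
        · exact mRel_good (T := T) (by decide) [Lt.d, Lt.f, Lt.di] [Lt.b, Lt.b, Lt.di, Lt.bi, Lt.bi] (pair_rel hinv hr (by decide +kernel)) h
        · exact mRel_good (T := T) (by decide) [Lt.bi, Lt.ei, Lt.c, Lt.f, Lt.ci, Lt.e, Lt.b] [Lt.fi] (pair_rel hinv hr (by decide +kernel)) h
  · rcases brec_true h with h | h
    · rcases brec_true h with h | h
      · exact mRel_good (T := T) (by decide) [Lt.ci, Lt.di, Lt.fi] [Lt.b, Lt.c, Lt.b, Lt.b, Lt.di] (pair_rel hinv hr (by decide +kernel)) h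
      · rcases brec_true h with h | h
        · exact mRel_good (T := T) (by decide) [Lt.di, Lt.ci, Lt.fi, Lt.c, Lt.f, Lt.c] [Lt.c, Lt.di] (pair_rel hinv hr (by decide +kernel)) h
        · exact mRel_good (T := T) (by decide) [Lt.di, Lt.ci] [Lt.c, Lt.di, Lt.ci, Lt.fi, Lt.ci, Lt.f] (pair_rel hinv hr (by decide +kernel)) h
    · rcases brec_true h with h | h
      · exact mRel_good (T := T) (by decide) [Lt.ci, Lt.di, Lt.fi, Lt.d] [Lt.di, Lt.ci, Lt.d, Lt.ci] (pair_rel hinv hr (by decide +kernel)) h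
      · rcases brec_true h with h | h
        · exact mRel_good (T := T) (by decide) [Lt.fi, Lt.bi, Lt.ei, Lt.c, Lt.fi, Lt.ci] [Lt.bi, Lt.ei] (pair_rel hinv hr (by decide +kernel)) h
        · exact mRel_good (T := T) (by decide) [Lt.b, Lt.b, Lt.di, Lt.c, Lt.d, Lt.ci] [Lt.f, Lt.bi] (pair_rel hinv hr (by decide +kernel)) h
theorem dM_76_s (hinv : ∀ x, g (inv x) = (g x)⁻¹) (hr : ∀ r ∈ rels, (r.map g).prod = 1) (j z1 z2 u : ℕ) (h : dM_76 j z1 z2 u = true) : GoodM (fa g) T MG M (cP g H) u := by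
  unfold dM_76 at h
  rcases brec_true h with h | h
  · exact dM_74_s hinv hr j z1 z2 u h
  · exact dM_75_s hinv hr j z1 z2 u h
theorem dM_77_s (hinv : ∀ x, g (inv x) = (g x)⁻¹) (hr : ∀ r ∈ rels, (r.map g).prod = 1) (j z1 z2 u : ℕ) (h : dM_77 j z1 z2 u = true) : GoodM (fa g) T MG M (cP g H) u := by
  unfold dM_77 at h
  rcases brec_true h with h | h
  · rcases brec_true h with h | h
    · rcases brec_true h with h | h
      · exact mRel_good (T := T) (by decide) [Lt.fi, Lt.ci, Lt.f, Lt.c, Lt.d] [Lt.c, Lt.d, Lt.ci] (pair_rel hinv hr (by decide +kernel)) h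
      · rcases brec_true h with h | h
        · exact mRel_good (T := T) (by decide) [Lt.e, Lt.b, Lt.f, Lt.ci, Lt.e, Lt.c, Lt.fi] [Lt.b] (pair_rel hinv hr (by decide +kernel)) h
        · exact mRel_good (T := T) (by decide) [Lt.f, Lt.bi, Lt.bi, Lt.f, Lt.d, Lt.c, Lt.bi] [Lt.c] (pair_rel hinv hr (by decide +kernel)) h
    · rcases brec_true h with h | h
      · exact mRel_good (T := T) (by decide) [Lt.di, Lt.b] [Lt.fi, Lt.bi, Lt.bi, Lt.ci, Lt.f, Lt.di] (pair_rel hinv hr (by decide +kernel)) h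
      · rcases brec_true h with h | h
        · exact mRel_good (T := T) (by decide) [Lt.b, Lt.fi, Lt.c, Lt.b, Lt.ci, Lt.di] [Lt.bi, Lt.f] (pair_rel hinv hr (by decide +kernel)) h
        · exact mRel_good (T := T) (by decide) [Lt.di, Lt.fi, Lt.d] [Lt.c, Lt.b, Lt.c, Lt.b, Lt.b] (pair_rel hinv hr (by decide +kernel)) h
  · rcases brec_true h with h | h
    · rcases brec_true h with h | h
      · exact mRel_good (T := T) (by decide) [Lt.c, Lt.f, Lt.c, Lt.d, Lt.ci] [Lt.f, Lt.c, Lt.d] (pair_rel hinv hr (by decide +kernel)) h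
      · rcases brec_true h with h | h
        · exact mRel_good (T := T) (by decide) [Lt.di, Lt.b, Lt.b, Lt.d, Lt.bi, Lt.bi] [Lt.fi, Lt.di] (pair_rel hinv hr (by decide +kernel)) h
        · exact mRel_good (T := T) (by decide) [Lt.di, Lt.ei, Lt.b] [Lt.c, Lt.b, Lt.c, Lt.f, Lt.ei, Lt.b, Lt.ei] (pair_rel hinv hr (by decide +kernel)) h
    · rcases brec_true h with h | h
      · exact mRel_good (T := T) (by decide) [Lt.c, Lt.d, Lt.b, Lt.fi, Lt.bi, Lt.di, Lt.ci] [Lt.d] (pair_rel hinv hr (by decide +kernel)) h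
      · rcases brec_true h with h | h
        · exact mRel_good (T := T) (by decide) [Lt.bi, Lt.f, Lt.bi, Lt.c] [Lt.b, Lt.di, Lt.c, Lt.d] (pair_rel hinv hr (by decide +kernel)) h
        · exact mRel_good (T := T) (by decide) [Lt.d, Lt.c, Lt.di, Lt.fi, Lt.c, Lt.fi, Lt.ci] [Lt.fi] (pair_rel hinv hr (by decide +kernel)) h
theorem dM_78_s (hinv : ∀ x, g (inv x) = (g x)⁻¹) (hr : ∀ r ∈ rels, (r.map g).prod = 1) (j z1 z2 u : ℕ) (h : dM_78 j z1 z2 u = true) : GoodM (fa g) T MG M (cP g H) u := by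
  unfold dM_78 at h
  rcases brec_true h with h | h
  · rcases brec_true h with h | h
    · rcases brec_true h with h | h
      · exact mRel_good (T := T) (by decide) [Lt.di, Lt.ci, Lt.fi, Lt.c] [Lt.c, Lt.di, Lt.ci, Lt.fi] (pair_rel hinv hr (by decide +kernel)) h
      · rcases brec_true h with h | h
        · exact mRel_good (T := T) (by decide) [Lt.f, Lt.di, Lt.b, Lt.d, Lt.fi, Lt.c, Lt.b] [Lt.bi] (pair_rel hinv hr (by decide +kernel)) h
        · exact mRel_good (T := T) (by decide) [Lt.di, Lt.c, Lt.d, Lt.b, Lt.fi, Lt.bi, Lt.di] [Lt.c] (pair_rel hinv hr (by decide +kernel)) h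
    · rcases brec_true h with h | h
      · exact mRel_good (T := T) (by decide) [Lt.d, Lt.c, Lt.di] [Lt.f, Lt.d, Lt.c, Lt.di, Lt.ci] (pair_rel hinv hr (by decide +kernel)) h
      · rcases brec_true h with h | h
        · exact mRel_good (T := T) (by decide) [Lt.bi, Lt.ci, Lt.f, Lt.bi, Lt.bi, Lt.f] [Lt.ci, Lt.di] (pair_rel hinv hr (by decide +kernel)) h
        · exact mRel_good (T := T) (by decide) [Lt.c, Lt.d] [Lt.d, Lt.bi, Lt.bi, Lt.f, Lt.bi, Lt.c] (pair_rel hinv hr (by decide +kernel)) h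
  · rcases brec_true h with h | h
    · rcases brec_true h with h | h
      · exact mRel_good (T := T) (by decide) [Lt.bi, Lt.c, Lt.f, Lt.bi, Lt.ei, Lt.b, Lt.e, Lt.bi, Lt.e, Lt.di] [] (pair_rel hinv hr (by decide +kernel)) h
      · rcases brec_true h with h | h
        · exact mRel_good (T := T) (by decide) [Lt.c, Lt.b, Lt.ci, Lt.di] [Lt.f, Lt.bi, Lt.bi, Lt.f] (pair_rel hinv hr (by decide +kernel)) h
        · exact mRel_good (T := T) (by decide) [Lt.f, Lt.c, Lt.d] [Lt.c, Lt.d, Lt.bi, Lt.di, Lt.b] (pair_rel hinv hr (by decide +kernel)) h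
    · rcases brec_true h with h | h
      · exact mRel_good (T := T) (by decide) [Lt.fi, Lt.c, Lt.fi, Lt.ci, Lt.f, Lt.d, Lt.c] [Lt.d] (pair_rel hinv hr (by decide +kernel)) h
      · rcases brec_true h with h | h
        · exact mRel_good (T := T) (by decide) [Lt.c, Lt.bi, Lt.ci] [Lt.di, Lt.fi, Lt.b, Lt.b, Lt.fi] (pair_rel hinv hr (by decide +kernel)) h
        · exact mRel_good (T := T) (by decide) [Lt.c, Lt.fi, Lt.ci, Lt.f, Lt.d, Lt.c, Lt.di] [Lt.f] (pair_rel hinv hr (by decide +kernel)) h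
theorem dM_79_s (hinv : ∀ x, g (inv x) = (g x)⁻¹) (hr : ∀ r ∈ rels, (r.map g).prod = 1) (j z1 z2 u : ℕ) (h : dM_79 j z1 z2 u = true) : GoodM (fa g) T MG M (cP g H) u := by
  unfold dM_79 at h
  rcases brec_true h with h | h
  · exact dM_77_s hinv hr j z1 z2 u h
  · exact dM_78_s hinv hr j z1 z2 u h
theorem dM_80_s (hinv : ∀ x, g (inv x) = (g x)⁻¹) (hr : ∀ r ∈ rels, (r.map g).prod = 1) (j z1 z2 u : ℕ) (h : dM_80 j z1 z2 u = true) : GoodM (fa g) T MG M (cP g H) u := by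
  unfold dM_80 at h
  rcases brec_true h with h | h
  · exact dM_76_s hinv hr j z1 z2 u h
  · exact dM_79_s hinv hr j z1 z2 u h
theorem dM_81_s (hinv : ∀ x, g (inv x) = (g x)⁻¹) (hr : ∀ r ∈ rels, (r.map g).prod = 1) (j z1 z2 u : ℕ) (h : dM_81 j z1 z2 u = true) : GoodM (fa g) T MG M (cP g H) u := by
  unfold dM_81 at h
  rcases brec_true h with h | h
  · exact dM_73_s hinv hr j z1 z2 u h
  · exact dM_80_s hinv hr j z1 z2 u h
theorem dM_82_s (hinv : ∀ x, g (inv x) = (g x)⁻¹) (hr : ∀ r ∈ rels, (r.map g).prod = 1) (j z1 z2 u : ℕ) (h : dM_82 j z1 z2 u = true) : GoodM (fa g) T MG M (cP g H) u := by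
  unfold dM_82 at h
  rcases brec_true h with h | h
  · rcases brec_true h with h | h
    · rcases brec_true h with h | h
      · exact mRel_good (T := T) (by decide) [Lt.b, Lt.di, Lt.c, Lt.d, Lt.ci, Lt.b, Lt.fi] [Lt.bi] (pair_rel hinv hr (by decide +kernel)) h
      · exact mRel_good (T := T) (by decide) [Lt.di, Lt.fi, Lt.c, Lt.f, Lt.ci, Lt.f, Lt.d] [Lt.c] (pair_rel hinv hr (by decide +kernel)) h
    · rcases brec_true h with h | h
      · exact mRel_good (T := T) (by decide) [Lt.d, Lt.fi] [Lt.b, Lt.d, Lt.fi, Lt.c, Lt.b, Lt.b] (pair_rel hinv hr (by decide +kernel)) h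
      · rcases brec_true h with h | h
        · exact mRel_good (T := T) (by decide) [Lt.bi, Lt.di, Lt.ci, Lt.d, Lt.c] [Lt.fi, Lt.bi, Lt.di] (pair_rel hinv hr (by decide +kernel)) h
        · exact mRel_good (T := T) (by decide) [Lt.c, Lt.di, Lt.ci, Lt.fi, Lt.ci, Lt.f, Lt.c] [Lt.di] (pair_rel hinv hr (by decide +kernel)) h
  · rcases brec_true h with h | h
    · rcases brec_true h with h | h
      · exact mRel_good (T := T) (by decide) [Lt.b, Lt.d, Lt.bi, Lt.bi, Lt.d] [Lt.bi, Lt.d, Lt.fi] (pair_rel hinv hr (by decide +kernel)) h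
      · rcases brec_true h with h | h
        · exact mRel_good (T := T) (by decide) [Lt.fi, Lt.bi, Lt.bi] [Lt.di, Lt.b, Lt.d, Lt.fi, Lt.c] (pair_rel hinv hr (by decide +kernel)) h
        · exact mRel_good (T := T) (by decide) [Lt.fi, Lt.ci, Lt.f, Lt.c, Lt.d, Lt.c, Lt.di] [Lt.c] (pair_rel hinv hr (by decide +kernel)) h
    · rcases brec_true h with h | h
      · exact mRel_good (T := T) (by decide) [Lt.c, Lt.f, Lt.d] [Lt.f, Lt.b, Lt.di, Lt.ci, Lt.b, Lt.b] (pair_rel hinv hr (by decide +kernel)) h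
      · rcases brec_true h with h | h
        · exact mRel_good (T := T) (by decide) [Lt.ci, Lt.d, Lt.c, Lt.d, Lt.b, Lt.f] [Lt.d, Lt.b] (pair_rel hinv hr (by decide +kernel)) h
        · exact mRel_good (T := T) (by decide) [Lt.d, Lt.fi, Lt.c] [Lt.bi, Lt.d, Lt.fi, Lt.bi, Lt.bi] (pair_rel hinv hr (by decide +kernel)) h
theorem dM_83_s (hinv : ∀ x, g (inv x) = (g x)⁻¹) (hr : ∀ r ∈ rels, (r.map g).prod = 1) (j z1 z2 u : ℕ) (h : dM_83 j z1 z2 u = true) : GoodM (fa g) T MG M (cP g H) u := by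
  unfold dM_83 at h
  rcases brec_true h with h | h
  · rcases brec_true h with h | h
    · rcases brec_true h with h | h
      · exact mRel_good (T := T) (by decide) [Lt.bi, Lt.f, Lt.d, Lt.c, Lt.bi] [Lt.b, Lt.fi, Lt.c] (pair_rel hinv hr (by decide +kernel)) h
      · rcases brec_true h with h | h
        · exact mRel_good (T := T) (by decide) [Lt.ci, Lt.f, Lt.d, Lt.ci, Lt.di] [Lt.fi, Lt.ci, Lt.f] (pair_rel hinv hr (by decide +kernel)) h
        · exact mRel_good (T := T) (by decide) [Lt.b, Lt.d, Lt.fi, Lt.c, Lt.b, Lt.b, Lt.f] [Lt.d] (pair_rel hinv hr (by decide +kernel)) h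
    · rcases brec_true h with h | h
      · exact mRel_good (T := T) (by decide) [Lt.c, Lt.f, Lt.c, Lt.d] [Lt.f, Lt.c, Lt.d, Lt.c] (pair_rel hinv hr (by decide +kernel)) h
      · rcases brec_true h with h | h
        · exact mRel_good (T := T) (by decide) [Lt.bi, Lt.bi, Lt.f, Lt.bi] [Lt.di, Lt.c, Lt.d, Lt.ci] (pair_rel hinv hr (by decide +kernel)) h
        · exact mRel_good (T := T) (by decide) [Lt.ci, Lt.di, Lt.fi, Lt.c, Lt.f, Lt.ci, Lt.f, Lt.d] [] (pair_rel hinv hr (by decide +kernel)) h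
  · rcases brec_true h with h | h
    · rcases brec_true h with h | h
      · exact mRel_good (T := T) (by decide) [Lt.b, Lt.fi, Lt.b, Lt.b, Lt.di, Lt.c] [Lt.c, Lt.di] (pair_rel hinv hr (by decide +kernel)) h
      · rcases brec_true h with h | h
        · exact mRel_good (T := T) (by decide) [Lt.di, Lt.c, Lt.d, Lt.ci, Lt.b, Lt.fi, Lt.b] [Lt.bi] (pair_rel hinv hr (by decide +kernel)) h
        · exact mRel_good (T := T) (by decide) [Lt.d, Lt.bi, Lt.bi, Lt.d, Lt.f, Lt.di] [Lt.bi, Lt.bi] (pair_rel hinv hr (by decide +kernel)) h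
    · rcases brec_true h with h | h
      · exact mRel_good (T := T) (by decide) [Lt.d, Lt.fi, Lt.c, Lt.b, Lt.b, Lt.f, Lt.di, Lt.b] [] (pair_rel hinv hr (by decide +kernel)) h
      · rcases brec_true h with h | h
        · exact mRel_good (T := T) (by decide) [Lt.fi, Lt.bi, Lt.bi, Lt.fi, Lt.ci] [Lt.bi, Lt.bi, Lt.fi] (pair_rel hinv hr (by decide +kernel)) h
        · exact mRel_good (T := T) (by decide) [Lt.bi, Lt.fi] [Lt.b, Lt.f, Lt.bi, Lt.bi, Lt.fi, Lt.c] (pair_rel hinv hr (by decide +kernel)) h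
theorem dM_84_s (hinv : ∀ x, g (inv x) = (g x)⁻¹) (hr : ∀ r ∈ rels, (r.map g).prod = 1) (j z1 z2 u : ℕ) (h : dM_84 j z1 z2 u = true) : GoodM (fa g) T MG M (cP g H) u := by
  unfold dM_84 at h
  rcases brec_true h with h | h
  · exact dM_82_s hinv hr j z1 z2 u h
  · exact dM_83_s hinv hr j z1 z2 u h
theorem dM_85_s (hinv : ∀ x, g (inv x) = (g x)⁻¹) (hr : ∀ r ∈ rels, (r.map g).prod = 1) (j z1 z2 u : ℕ) (h : dM_85 j z1 z2 u = true) : GoodM (fa g) T MG M (cP g H) u := by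
  unfold dM_85 at h
  rcases brec_true h with h | h
  · rcases brec_true h with h | h
    · rcases brec_true h with h | h
      · exact mRel_good (T := T) (by decide) [Lt.c, Lt.b, Lt.c] [Lt.di, Lt.fi, Lt.d, Lt.bi, Lt.bi] (pair_rel hinv hr (by decide +kernel)) h
      · exact mRel_good (T := T) (by decide) [Lt.c, Lt.d, Lt.bi, Lt.di] [Lt.f, Lt.c, Lt.d, Lt.bi] (pair_rel hinv hr (by decide +kernel)) h
    · rcases brec_true h with h | h
      · exact mRel_good (T := T) (by decide) [Lt.c, Lt.d, Lt.b] [Lt.d, Lt.c, Lt.d, Lt.b, Lt.f] (pair_rel hinv hr (by decide +kernel)) h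
      · rcases brec_true h with h | h
        · exact mRel_good (T := T) (by decide) [Lt.di, Lt.fi, Lt.d, Lt.c, Lt.di] [Lt.c, Lt.di, Lt.ci] (pair_rel hinv hr (by decide +kernel)) h
        · exact mRel_good (T := T) (by decide) [Lt.d, Lt.bi, Lt.d] [Lt.ci, Lt.fi, Lt.c, Lt.d, Lt.bi] (pair_rel hinv hr (by decide +kernel)) h
  · rcases brec_true h with h | h
    · rcases brec_true h with h | h
      · exact mRel_good (T := T) (by decide) [Lt.bi, Lt.bi, Lt.ci, Lt.bi, Lt.ci] [Lt.di, Lt.f, Lt.d] (pair_rel hinv hr (by decide +kernel)) h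
      · rcases brec_true h with h | h
        · exact mRel_good (T := T) (by decide) [Lt.bi] [Lt.b, Lt.di, Lt.c, Lt.d, Lt.ci, Lt.b, Lt.fi] (pair_rel hinv hr (by decide +kernel)) h
        · exact mRel_good (T := T) (by decide) [Lt.di, Lt.fi, Lt.c] [Lt.c, Lt.di, Lt.fi, Lt.c, Lt.fi] (pair_rel hinv hr (by decide +kernel)) h
    · rcases brec_true h with h | h
      · exact mRel_good (T := T) (by decide) [Lt.ci] [Lt.di, Lt.ci, Lt.d, Lt.bi, Lt.bi, Lt.f, Lt.bi] (pair_rel hinv hr (by decide +kernel)) h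
      · rcases brec_true h with h | h
        · exact mRel_good (T := T) (by decide) [Lt.bi, Lt.bi, Lt.fi, Lt.c] [Lt.fi, Lt.bi, Lt.bi, Lt.fi] (pair_rel hinv hr (by decide +kernel)) h
        · exact mRel_good (T := T) (by decide) [Lt.f] [Lt.c, Lt.b, Lt.ci, Lt.di, Lt.fi, Lt.b, Lt.b] (pair_rel hinv hr (by decide +kernel)) h
theorem dM_86_s (hinv : ∀ x, g (inv x) = (g x)⁻¹) (hr : ∀ r ∈ rels, (r.map g).prod = 1) (j z1 z2 u : ℕ) (h : dM_86 j z1 z2 u = true) : GoodM (fa g) T MG M (cP g H) u := by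
  unfold dM_86 at h
  rcases brec_true h with h | h
  · rcases brec_true h with h | h
    · rcases brec_true h with h | h
      · exact mRel_good (T := T) (by decide) [Lt.di, Lt.f, Lt.d] [Lt.c, Lt.di, Lt.c, Lt.d, Lt.ci] (pair_rel hinv hr (by decide +kernel)) h
      · rcases brec_true h with h | h
        · exact mRel_good (T := T) (by decide) [Lt.f, Lt.d, Lt.ci, Lt.di, Lt.fi, Lt.c, Lt.f] [Lt.c] (pair_rel hinv hr (by decide +kernel)) h
        · exact mRel_good (T := T) (by decide) [Lt.fi, Lt.c] [Lt.c, Lt.d, Lt.bi, Lt.d, Lt.b, Lt.di] (pair_rel hinv hr (by decide +kernel)) h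
    · rcases brec_true h with h | h
      · exact mRel_good (T := T) (by decide) [Lt.d, Lt.ci, Lt.di, Lt.fi, Lt.c, Lt.f, Lt.ci, Lt.f] [] (pair_rel hinv hr (by decide +kernel)) h
      · rcases brec_true h with h | h
        · exact mRel_good (T := T) (by decide) [Lt.ci, Lt.d, Lt.ci, Lt.di, Lt.f, Lt.d, Lt.c] [Lt.d] (pair_rel hinv hr (by decide +kernel)) h
        · exact mRel_good (T := T) (by decide) [Lt.d, Lt.fi, Lt.bi, Lt.bi, Lt.ci, Lt.f, Lt.di, Lt.bi] [] (pair_rel hinv hr (by decide +kernel)) h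
  · rcases brec_true h with h | h
    · rcases brec_true h with h | h
      · exact mRel_good (T := T) (by decide) [Lt.c, Lt.d, Lt.ci, Lt.di] [Lt.fi, Lt.ci, Lt.f, Lt.c] (pair_rel hinv hr (by decide +kernel)) h
      · rcases brec_true h with h | h
        · exact mRel_good (T := T) (by decide) [Lt.c, Lt.f, Lt.ci, Lt.f, Lt.d, Lt.ci, Lt.di] [Lt.f] (pair_rel hinv hr (by decide +kernel)) h
        · exact mRel_good (T := T) (by decide) [Lt.di, Lt.fi, Lt.d] [Lt.c, Lt.di, Lt.ci, Lt.d, Lt.ci] (pair_rel hinv hr (by decide +kernel)) h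
    · rcases brec_true h with h | h
      · exact mRel_good (T := T) (by decide) [Lt.fi, Lt.ci, Lt.f] [Lt.c, Lt.d, Lt.ci, Lt.di, Lt.ci] (pair_rel hinv hr (by decide +kernel)) h
      · rcases brec_true h with h | h
        · exact mRel_good (T := T) (by decide) [Lt.d, Lt.b, Lt.di, Lt.ci, Lt.f, Lt.c] [Lt.b, Lt.di] (pair_rel hinv hr (by decide +kernel)) h
        · exact mRel_good (T := T) (by decide) [Lt.di, Lt.ci, Lt.f, Lt.c, Lt.d, Lt.bi] [Lt.bi, Lt.di] (pair_rel hinv hr (by decide +kernel)) h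
theorem dM_87_s (hinv : ∀ x, g (inv x) = (g x)⁻¹) (hr : ∀ r ∈ rels, (r.map g).prod = 1) (j z1 z2 u : ℕ) (h : dM_87 j z1 z2 u = true) : GoodM (fa g) T MG M (cP g H) u := by
  unfold dM_87 at h
  rcases brec_true h with h | h
  · exact dM_85_s hinv hr j z1 z2 u h
  · exact dM_86_s hinv hr j z1 z2 u h
theorem dM_88_s (hinv : ∀ x, g (inv x) = (g x)⁻¹) (hr : ∀ r ∈ rels, (r.map g).prod = 1) (j z1 z2 u : ℕ) (h : dM_88 j z1 z2 u = true) : GoodM (fa g) T MG M (cP g H) u := by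
  unfold dM_88 at h
  rcases brec_true h with h | h
  · exact dM_84_s hinv hr j z1 z2 u h
  · exact dM_87_s hinv hr j z1 z2 u h
theorem dM_89_s (hinv : ∀ x, g (inv x) = (g x)⁻¹) (hr : ∀ r ∈ rels, (r.map g).prod = 1) (j z1 z2 u : ℕ) (h : dM_89 j z1 z2 u = true) : GoodM (fa g) T MG M (cP g H) u := by
  unfold dM_89 at h
  rcases brec_true h with h | h
  · rcases brec_true h with h | h
    · rcases brec_true h with h | h
      · exact mRel_good (T := T) (by decide) [Lt.f, Lt.di, Lt.b, Lt.d] [Lt.bi, Lt.bi, Lt.ci, Lt.f] (pair_rel hinv hr (by decide +kernel)) h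
      · exact mRel_good (T := T) (by decide) [Lt.f, Lt.ci, Lt.e, Lt.b, Lt.f] [Lt.ci, Lt.e, Lt.b] (pair_rel hinv hr (by decide +kernel)) h
    · rcases brec_true h with h | h
      · exact mRel_good (T := T) (by decide) [Lt.d] [Lt.ci, Lt.fi, Lt.c, Lt.d, Lt.bi, Lt.di, Lt.b] (pair_rel hinv hr (by decide +kernel)) h
      · rcases brec_true h with h | h
        · exact mRel_good (T := T) (by decide) [Lt.ci, Lt.fi, Lt.c] [Lt.d, Lt.c, Lt.di, Lt.ci, Lt.fi] (pair_rel hinv hr (by decide +kernel)) h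
        · exact mRel_good (T := T) (by decide) [Lt.ci, Lt.e] [Lt.fi, Lt.bi, Lt.ei, Lt.b, Lt.f, Lt.ci] (pair_rel hinv hr (by decide +kernel)) h
  · rcases brec_true h with h | h
    · rcases brec_true h with h | h
      · exact mRel_good (T := T) (by decide) [Lt.d, Lt.bi] [Lt.c, Lt.d, Lt.ci, Lt.b, Lt.fi, Lt.b] (pair_rel hinv hr (by decide +kernel)) h
      · rcases brec_true h with h | h
        · exact mRel_good (T := T) (by decide) [Lt.di, Lt.bi, Lt.bi, Lt.d, Lt.fi] [Lt.bi, Lt.bi, Lt.d] (pair_rel hinv hr (by decide +kernel)) h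
        · exact mRel_good (T := T) (by decide) [Lt.c, Lt.d, Lt.bi, Lt.d] [Lt.fi, Lt.c, Lt.d, Lt.bi] (pair_rel hinv hr (by decide +kernel)) h
    · rcases brec_true h with h | h
      · exact mRel_good (T := T) (by decide) [Lt.f, Lt.c] [Lt.c, Lt.d, Lt.bi, Lt.di, Lt.b, Lt.di] (pair_rel hinv hr (by decide +kernel)) h
      · rcases brec_true h with h | h
        · exact mRel_good (T := T) (by decide) [Lt.d, Lt.c, Lt.d, Lt.b, Lt.f, Lt.bi, Lt.di, Lt.ci] [] (pair_rel hinv hr (by decide +kernel)) h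
        · exact mRel_good (T := T) (by decide) [Lt.b, Lt.di, Lt.ci] [Lt.fi, Lt.c, Lt.f, Lt.d, Lt.bi, Lt.bi] (pair_rel hinv hr (by decide +kernel)) h
theorem dM_90_s (hinv : ∀ x, g (inv x) = (g x)⁻¹) (hr : ∀ r ∈ rels, (r.map g).prod = 1) (j z1 z2 u : ℕ) (h : dM_90 j z1 z2 u = true) : GoodM (fa g) T MG M (cP g H) u := by
  unfold dM_90 at h
  rcases brec_true h with h | h
  · rcases brec_true h with h | h
    · rcases brec_true h with h | h
      · exact mRel_good (T := T) (by decide) [Lt.c, Lt.d, Lt.bi] [Lt.fi, Lt.c, Lt.d, Lt.bi, Lt.di] (pair_rel hinv hr (by decide +kernel)) h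
      · rcases brec_true h with h | h
        · exact mRel_good (T := T) (by decide) [Lt.bi, Lt.e, Lt.b, Lt.fi, Lt.ci, Lt.b, Lt.d, Lt.ei] [Lt.e, Lt.bi] (pair_rel hinv hr (by decide +kernel)) h
        · exact mRel_good (T := T) (by decide) [Lt.d, Lt.bi] [Lt.f, Lt.d, Lt.c, Lt.b, Lt.c, Lt.b] (pair_rel hinv hr (by decide +kernel)) h
    · rcases brec_true h with h | h
      · exact mRel_good (T := T) (by decide) [Lt.c, Lt.d, Lt.ci] [Lt.fi, Lt.ci, Lt.f, Lt.c, Lt.d] (pair_rel hinv hr (by decide +kernel)) h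
      · rcases brec_true h with h | h
        · exact mRel_good (T := T) (by decide) [Lt.bi, Lt.di, Lt.ci, Lt.d, Lt.c, Lt.d, Lt.b] [Lt.fi] (pair_rel hinv hr (by decide +kernel)) h
        · exact mRel_good (T := T) (by decide) [Lt.ci, Lt.fi, Lt.c, Lt.d, Lt.bi] [Lt.d, Lt.bi, Lt.d] (pair_rel hinv hr (by decide +kernel)) h
  · rcases brec_true h with h | h
    · rcases brec_true h with h | h
      · exact mRel_good (T := T) (by decide) [Lt.ci, Lt.di, Lt.fi, Lt.d, Lt.c] [Lt.di, Lt.ci, Lt.d] (pair_rel hinv hr (by decide +kernel)) h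
      · rcases brec_true h with h | h
        · exact mRel_good (T := T) (by decide) [Lt.bi, Lt.ci, Lt.di, Lt.fi, Lt.d] [Lt.c, Lt.b, Lt.b] (pair_rel hinv hr (by decide +kernel)) h
        · exact mRel_good (T := T) (by decide) [Lt.di, Lt.c, Lt.d] [Lt.ci, Lt.di, Lt.f, Lt.d, Lt.c] (pair_rel hinv hr (by decide +kernel)) h
    · rcases brec_true h with h | h
      · exact mRel_good (T := T) (by decide) [Lt.c, Lt.fi] [Lt.f, Lt.d, Lt.ci, Lt.di, Lt.fi, Lt.c] (pair_rel hinv hr (by decide +kernel)) h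
      · rcases brec_true h with h | h
        · exact mRel_good (T := T) (by decide) [Lt.d, Lt.bi, Lt.di, Lt.b, Lt.di, Lt.ci, Lt.fi] [Lt.ci] (pair_rel hinv hr (by decide +kernel)) h
        · exact mRel_good (T := T) (by decide) [Lt.b, Lt.di, Lt.c, Lt.ei, Lt.b, Lt.ei, Lt.bi, Lt.e] [Lt.fi, Lt.ci] (pair_rel hinv hr (by decide +kernel)) h
theorem dM_91_s (hinv : ∀ x, g (inv x) = (g x)⁻¹) (hr : ∀ r ∈ rels, (r.map g).prod = 1) (j z1 z2 u : ℕ) (h : dM_91 j z1 z2 u = true) : GoodM (fa g) T MG M (cP g H) u := by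
  unfold dM_91 at h
  rcases brec_true h with h | h
  · exact dM_89_s hinv hr j z1 z2 u h
  · exact dM_90_s hinv hr j z1 z2 u h
theorem dM_92_s (hinv : ∀ x, g (inv x) = (g x)⁻¹) (hr : ∀ r ∈ rels, (r.map g).prod = 1) (j z1 z2 u : ℕ) (h : dM_92 j z1 z2 u = true) : GoodM (fa g) T MG M (cP g H) u := by
  unfold dM_92 at h
  rcases brec_true h with h | h
  · rcases brec_true h with h | h
    · rcases brec_true h with h | h
      · exact mRel_good (T := T) (by decide) [Lt.b, Lt.di, Lt.f, Lt.d, Lt.c] [Lt.bi, Lt.ci, Lt.bi] (pair_rel hinv hr (by decide +kernel)) h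
      · rcases brec_true h with h | h
        · exact mRel_good (T := T) (by decide) [Lt.c, Lt.d, Lt.b, Lt.fi, Lt.bi, Lt.di] [Lt.d, Lt.c] (pair_rel hinv hr (by decide +kernel)) h
        · exact mRel_good (T := T) (by decide) [Lt.fi, Lt.c, Lt.f, Lt.c, Lt.d, Lt.ci] [Lt.c, Lt.d] (pair_rel hinv hr (by decide +kernel)) h
    · rcases brec_true h with h | h
      · exact mRel_good (T := T) (by decide) [Lt.b, Lt.b, Lt.f, Lt.bi, Lt.bi] [Lt.fi, Lt.ci, Lt.f] (pair_rel hinv hr (by decide +kernel)) h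
      · rcases brec_true h with h | h
        · exact mRel_good (T := T) (by decide) [Lt.d, Lt.fi, Lt.c, Lt.b, Lt.b, Lt.f] [Lt.bi, Lt.d] (pair_rel hinv hr (by decide +kernel)) h
        · exact mRel_good (T := T) (by decide) [Lt.b, Lt.fi, Lt.ci, Lt.b, Lt.d, Lt.ei, Lt.b, Lt.ei, Lt.bi, Lt.e] [] (pair_rel hinv hr (by decide +kernel)) h
  · rcases brec_true h with h | h
    · rcases brec_true h with h | h
      · exact mRel_good (T := T) (by decide) [Lt.d, Lt.bi, Lt.bi, Lt.f, Lt.bi] [Lt.c, Lt.d, Lt.ci] (pair_rel hinv hr (by decide +kernel)) h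
      · rcases brec_true h with h | h
        · exact mRel_good (T := T) (by decide) [Lt.ci, Lt.f] [Lt.b, Lt.b, Lt.f, Lt.di, Lt.b, Lt.d] (pair_rel hinv hr (by decide +kernel)) h
        · exact mRel_good (T := T) (by decide) [Lt.fi, Lt.ci, Lt.f, Lt.c, Lt.d, Lt.c] [Lt.c, Lt.d] (pair_rel hinv hr (by decide +kernel)) h
    · rcases brec_true h with h | h
      · exact mRel_good (T := T) (by decide) [Lt.c, Lt.f, Lt.ei, Lt.b, Lt.ei, Lt.bi] [Lt.bi, Lt.ci, Lt.di, Lt.ei] (pair_rel hinv hr (by decide +kernel)) h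
      · rcases brec_true h with h | h
        · exact mRel_good (T := T) (by decide) [Lt.fi, Lt.ci, Lt.f, Lt.d, Lt.c, Lt.di, Lt.fi] [Lt.ci] (pair_rel hinv hr (by decide +kernel)) h
        · exact mRel_good (T := T) (by decide) [Lt.b, Lt.b, Lt.f, Lt.bi, Lt.bi, Lt.fi] [Lt.fi, Lt.ci] (pair_rel hinv hr (by decide +kernel)) h
theorem dM_93_s (hinv : ∀ x, g (inv x) = (g x)⁻¹) (hr : ∀ r ∈ rels, (r.map g).prod = 1) (j z1 z2 u : ℕ) (h : dM_93 j z1 z2 u = true) : GoodM (fa g) T MG M (cP g H) u := by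
  unfold dM_93 at h
  rcases brec_true h with h | h
  · rcases brec_true h with h | h
    · rcases brec_true h with h | h
      · exact mRel_good (T := T) (by decide) [Lt.f, Lt.ci, Lt.f, Lt.d] [Lt.ci, Lt.f, Lt.d, Lt.c] (pair_rel hinv hr (by decide +kernel)) h
      · rcases brec_true h with h | h
        · exact mRel_good (T := T) (by decide) [Lt.fi, Lt.bi, Lt.ei, Lt.b, Lt.f] [Lt.ci, Lt.e, Lt.c] (pair_rel hinv hr (by decide +kernel)) h
        · exact mRel_good (T := T) (by decide) [Lt.di, Lt.f] [Lt.c, Lt.di, Lt.c, Lt.d, Lt.ci, Lt.di] (pair_rel hinv hr (by decide +kernel)) h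
    · rcases brec_true h with h | h
      · exact mRel_good (T := T) (by decide) [Lt.f, Lt.c, Lt.d, Lt.ci, Lt.di, Lt.ci, Lt.fi] [Lt.ci] (pair_rel hinv hr (by decide +kernel)) h
      · rcases brec_true h with h | h
        · exact mRel_good (T := T) (by decide) [Lt.b, Lt.f, Lt.di, Lt.b] [Lt.bi, Lt.ci, Lt.f, Lt.di] (pair_rel hinv hr (by decide +kernel)) h
        · exact mRel_good (T := T) (by decide) [Lt.c, Lt.f, Lt.bi, Lt.ei, Lt.b, Lt.e, Lt.bi] [Lt.b, Lt.d, Lt.ei] (pair_rel hinv hr (by decide +kernel)) h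
  · rcases brec_true h with h | h
    · rcases brec_true h with h | h
      · exact mRel_good (T := T) (by decide) [Lt.f, Lt.bi, Lt.bi, Lt.fi, Lt.c] [Lt.bi, Lt.bi, Lt.fi] (pair_rel hinv hr (by decide +kernel)) h
      · rcases brec_true h with h | h
        · exact mRel_good (T := T) (by decide) [Lt.ci, Lt.ei, Lt.c] [Lt.fi, Lt.bi, Lt.e, Lt.b, Lt.f] (pair_rel hinv hr (by decide +kernel)) h
        · exact mRel_good (T := T) (by decide) [Lt.bi, Lt.ci, Lt.bi, Lt.ci, Lt.di, Lt.fi, Lt.d] [Lt.b] (pair_rel hinv hr (by decide +kernel)) h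
    · rcases brec_true h with h | h
      · exact mRel_good (T := T) (by decide) [Lt.e, Lt.bi, Lt.e, Lt.di, Lt.bi, Lt.c, Lt.f, Lt.bi] [Lt.bi, Lt.e] (pair_rel hinv hr (by decide +kernel)) h
      · rcases brec_true h with h | h
        · exact mRel_good (T := T) (by decide) [Lt.bi, Lt.bi, Lt.fi, Lt.c, Lt.f, Lt.b, Lt.b] [Lt.fi] (pair_rel hinv hr (by decide +kernel)) h
        · exact mRel_good (T := T) (by decide) [Lt.c, Lt.d, Lt.ci] [Lt.d, Lt.bi, Lt.bi, Lt.f, Lt.bi] (pair_rel hinv hr (by decide +kernel)) h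
theorem dM_94_s (hinv : ∀ x, g (inv x) = (g x)⁻¹) (hr : ∀ r ∈ rels, (r.map g).prod = 1) (j z1 z2 u : ℕ) (h : dM_94 j z1 z2 u = true) : GoodM (fa g) T MG M (cP g H) u := by
  unfold dM_94 at h
  rcases brec_true h with h | h
  · exact dM_92_s hinv hr j z1 z2 u h
  · exact dM_93_s hinv hr j z1 z2 u h
theorem dM_95_s (hinv : ∀ x, g (inv x) = (g x)⁻¹) (hr : ∀ r ∈ rels, (r.map g).prod = 1) (j z1 z2 u : ℕ) (h : dM_95 j z1 z2 u = true) : GoodM (fa g) T MG M (cP g H) u := by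
  unfold dM_95 at h
  rcases brec_true h with h | h
  · exact dM_91_s hinv hr j z1 z2 u h
  · exact dM_94_s hinv hr j z1 z2 u h
theorem dM_96_s (hinv : ∀ x, g (inv x) = (g x)⁻¹) (hr : ∀ r ∈ rels, (r.map g).prod = 1) (j z1 z2 u : ℕ) (h : dM_96 j z1 z2 u = true) : GoodM (fa g) T MG M (cP g H) u := by
  unfold dM_96 at h
  rcases brec_true h with h | h
  · exact dM_88_s hinv hr j z1 z2 u h
  · exact dM_95_s hinv hr j z1 z2 u h
theorem dM_97_s (hinv : ∀ x, g (inv x) = (g x)⁻¹) (hr : ∀ r ∈ rels, (r.map g).prod = 1) (j z1 z2 u : ℕ) (h : dM_97 j z1 z2 u = true) : GoodM (fa g) T MG M (cP g H) u := by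
  unfold dM_97 at h
  rcases brec_true h with h | h
  · rcases brec_true h with h | h
    · rcases brec_true h with h | h
      · exact mRel_good (T := T) (by decide) [Lt.f, Lt.ci, Lt.e, Lt.c] [Lt.bi, Lt.ei, Lt.b, Lt.f] (pair_rel hinv hr (by decide +kernel)) h
      · exact mRel_good (T := T) (by decide) [Lt.ci, Lt.di, Lt.c, Lt.d, Lt.b, Lt.fi, Lt.bi, Lt.di] [] (pair_rel hinv hr (by decide +kernel)) h
    · rcases brec_true h with h | h
      · exact mRel_good (T := T) (by decide) [Lt.bi] [Lt.ci, Lt.di, Lt.fi, Lt.b, Lt.b, Lt.fi, Lt.c] (pair_rel hinv hr (by decide +kernel)) h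
      · rcases brec_true h with h | h
        · exact mRel_good (T := T) (by decide) [Lt.bi, Lt.f, Lt.d] [Lt.b, Lt.fi, Lt.c, Lt.b, Lt.ci] (pair_rel hinv hr (by decide +kernel)) h
        · exact mRel_good (T := T) (by decide) [Lt.bi, Lt.bi, Lt.bi, Lt.c, Lt.f, Lt.bi, Lt.f, Lt.ci] [Lt.fi] (pair_rel hinv hr (by decide +kernel)) h
  · rcases brec_true h with h | h
    · rcases brec_true h with h | h
      · exact mRel_good (T := T) (by decide) [Lt.fi, Lt.ci, Lt.f, Lt.b, Lt.b, Lt.fi] [Lt.b, Lt.b] (pair_rel hinv hr (by decide +kernel)) h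
      · rcases brec_true h with h | h
        · exact mRel_good (T := T) (by decide) [Lt.bi, Lt.di, Lt.ci, Lt.d, Lt.c, Lt.d, Lt.b, Lt.f] [] (pair_rel hinv hr (by decide +kernel)) h
        · exact mRel_good (T := T) (by decide) [Lt.ci, Lt.f, Lt.c, Lt.d, Lt.bi] [Lt.d, Lt.bi, Lt.di] (pair_rel hinv hr (by decide +kernel)) h
    · rcases brec_true h with h | h
      · exact mRel_good (T := T) (by decide) [Lt.d] [Lt.b, Lt.di, Lt.ci, Lt.fi, Lt.c, Lt.d, Lt.bi] (pair_rel hinv hr (by decide +kernel)) h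
      · rcases brec_true h with h | h
        · exact mRel_good (T := T) (by decide) [Lt.b, Lt.b, Lt.fi, Lt.c, Lt.b] [Lt.f, Lt.d, Lt.c] (pair_rel hinv hr (by decide +kernel)) h
        · exact mRel_good (T := T) (by decide) [Lt.f, Lt.d, Lt.ci] [Lt.c, Lt.fi, Lt.ci, Lt.f, Lt.d] (pair_rel hinv hr (by decide +kernel)) h
theorem dM_98_s (hinv : ∀ x, g (inv x) = (g x)⁻¹) (hr : ∀ r ∈ rels, (r.map g).prod = 1) (j z1 z2 u : ℕ) (h : dM_98 j z1 z2 u = true) : GoodM (fa g) T MG M (cP g H) u := by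
  unfold dM_98 at h
  rcases brec_true h with h | h
  · rcases brec_true h with h | h
    · rcases brec_true h with h | h
      · exact mRel_good (T := T) (by decide) [Lt.c] [Lt.d, Lt.bi, Lt.fi, Lt.ci, Lt.ei, Lt.b, Lt.e, Lt.bi, Lt.e] (pair_rel hinv hr (by decide +kernel)) h
      · rcases brec_true h with h | h
        · exact mRel_good (T := T) (by decide) [Lt.di, Lt.fi, Lt.b, Lt.b, Lt.fi, Lt.c, Lt.b] [Lt.c] (pair_rel hinv hr (by decide +kernel)) h
        · exact mRel_good (T := T) (by decide) [Lt.ei, Lt.bi, Lt.e, Lt.b] [Lt.bi, Lt.e, Lt.di, Lt.bi, Lt.c, Lt.f] (pair_rel hinv hr (by decide +kernel)) h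
    · rcases brec_true h with h | h
      · exact mRel_good (T := T) (by decide) [Lt.e, Lt.di, Lt.bi, Lt.c, Lt.f, Lt.bi] [Lt.b, Lt.ei, Lt.bi, Lt.e] (pair_rel hinv hr (by decide +kernel)) h
      · rcases brec_true h with h | h
        · exact mRel_good (T := T) (by decide) [Lt.bi, Lt.bi] [Lt.d, Lt.bi, Lt.bi, Lt.d, Lt.f, Lt.di] (pair_rel hinv hr (by decide +kernel)) h
        · exact mRel_good (T := T) (by decide) [Lt.ci, Lt.bi, Lt.ci, Lt.di] [Lt.b, Lt.b, Lt.di, Lt.f] (pair_rel hinv hr (by decide +kernel)) h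
  · rcases brec_true h with h | h
    · rcases brec_true h with h | h
      · exact mRel_good (T := T) (by decide) [Lt.f, Lt.b, Lt.b, Lt.f, Lt.bi, Lt.bi, Lt.fi] [Lt.ci] (pair_rel hinv hr (by decide +kernel)) h
      · rcases brec_true h with h | h
        · exact mRel_good (T := T) (by decide) [Lt.bi, Lt.bi, Lt.ci, Lt.f, Lt.di, Lt.bi] [Lt.f, Lt.di] (pair_rel hinv hr (by decide +kernel)) h
        · exact mRel_good (T := T) (by decide) [Lt.e, Lt.bi, Lt.e, Lt.di, Lt.bi, Lt.c, Lt.f, Lt.bi, Lt.ei] [Lt.bi] (pair_rel hinv hr (by decide +kernel)) h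
    · rcases brec_true h with h | h
      · exact mRel_good (T := T) (by decide) [Lt.bi, Lt.bi, Lt.ci] [Lt.f, Lt.di, Lt.b, Lt.d, Lt.fi] (pair_rel hinv hr (by decide +kernel)) h
      · rcases brec_true h with h | h
        · exact mRel_good (T := T) (by decide) [Lt.ci, Lt.d, Lt.bi, Lt.bi, Lt.f, Lt.bi, Lt.c] [Lt.d] (pair_rel hinv hr (by decide +kernel)) h
        · exact mRel_good (T := T) (by decide) [Lt.b, Lt.di, Lt.f, Lt.d, Lt.c, Lt.b] [Lt.bi, Lt.ci] (pair_rel hinv hr (by decide +kernel)) h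
theorem dM_99_s (hinv : ∀ x, g (inv x) = (g x)⁻¹) (hr : ∀ r ∈ rels, (r.map g).prod = 1) (j z1 z2 u : ℕ) (h : dM_99 j z1 z2 u = true) : GoodM (fa g) T MG M (cP g H) u := by
  unfold dM_99 at h
  rcases brec_true h with h | h
  · exact dM_97_s hinv hr j z1 z2 u h
  · exact dM_98_s hinv hr j z1 z2 u h
theorem dM_100_s (hinv : ∀ x, g (inv x) = (g x)⁻¹) (hr : ∀ r ∈ rels, (r.map g).prod = 1) (j z1 z2 u : ℕ) (h : dM_100 j z1 z2 u = true) : GoodM (fa g) T MG M (cP g H) u := by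
  unfold dM_100 at h
  rcases brec_true h with h | h
  · rcases brec_true h with h | h
    · rcases brec_true h with h | h
      · exact mRel_good (T := T) (by decide) [Lt.e, Lt.bi, Lt.e, Lt.fi, Lt.ci, Lt.bi, Lt.ci, Lt.di, Lt.ei, Lt.b] [] (pair_rel hinv hr (by decide +kernel)) h
      · exact mRel_good (T := T) (by decide) [Lt.bi, Lt.c, Lt.f, Lt.bi, Lt.ei, Lt.b, Lt.e, Lt.bi] [Lt.d, Lt.ei] (pair_rel hinv hr (by decide +kernel)) h
    · rcases brec_true h with h | h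
      · exact mRel_good (T := T) (by decide) [Lt.b, Lt.b, Lt.fi, Lt.bi, Lt.bi, Lt.fi] [Lt.fi, Lt.c] (pair_rel hinv hr (by decide +kernel)) h
      · rcases brec_true h with h | h
        · exact mRel_good (T := T) (by decide) [Lt.d, Lt.fi, Lt.di, Lt.b, Lt.b] [Lt.b, Lt.b, Lt.d] (pair_rel hinv hr (by decide +kernel)) h
        · exact mRel_good (T := T) (by decide) [Lt.d, Lt.fi, Lt.bi, Lt.bi, Lt.ci] [Lt.b, Lt.d, Lt.fi] (pair_rel hinv hr (by decide +kernel)) h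
  · rcases brec_true h with h | h
    · rcases brec_true h with h | h
      · exact mRel_good (T := T) (by decide) [Lt.d, Lt.b, Lt.di, Lt.ci, Lt.f] [Lt.b, Lt.di, Lt.ci] (pair_rel hinv hr (by decide +kernel)) h
      · rcases brec_true h with h | h
        · exact mRel_good (T := T) (by decide) [Lt.ei, Lt.b] [Lt.di, Lt.bi, Lt.c, Lt.f, Lt.bi, Lt.ei, Lt.b, Lt.e] (pair_rel hinv hr (by decide +kernel)) h
        · exact mRel_good (T := T) (by decide) [Lt.b, Lt.b, Lt.di, Lt.f] [Lt.ci, Lt.bi, Lt.ci, Lt.di] (pair_rel hinv hr (by decide +kernel)) h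
    · rcases brec_true h with h | h
      · exact mRel_good (T := T) (by decide) [Lt.c, Lt.f, Lt.ei] [Lt.bi, Lt.ci, Lt.di, Lt.ei, Lt.b, Lt.e, Lt.bi] (pair_rel hinv hr (by decide +kernel)) h
      · rcases brec_true h with h | h
        · exact mRel_good (T := T) (by decide) [Lt.bi, Lt.di] [Lt.fi, Lt.bi, Lt.di, Lt.ci, Lt.di, Lt.c] (pair_rel hinv hr (by decide +kernel)) h
        · exact mRel_good (T := T) (by decide) [Lt.di, Lt.c, Lt.d, Lt.ci, Lt.di, Lt.fi] [Lt.ci, Lt.di] (pair_rel hinv hr (by decide +kernel)) h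
theorem dM_101_s (hinv : ∀ x, g (inv x) = (g x)⁻¹) (hr : ∀ r ∈ rels, (r.map g).prod = 1) (j z1 z2 u : ℕ) (h : dM_101 j z1 z2 u = true) : GoodM (fa g) T MG M (cP g H) u := by
  unfold dM_101 at h
  rcases brec_true h with h | h
  · rcases brec_true h with h | h
    · rcases brec_true h with h | h
      · exact mRel_good (T := T) (by decide) [Lt.bi, Lt.ci, Lt.di, Lt.fi] [Lt.c, Lt.b, Lt.b, Lt.di] (pair_rel hinv hr (by decide +kernel)) h
      · rcases brec_true h with h | h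
        · exact mRel_good (T := T) (by decide) [Lt.f, Lt.d, Lt.c, Lt.b] [Lt.d, Lt.bi, Lt.bi, Lt.ci] (pair_rel hinv hr (by decide +kernel)) h
        · exact mRel_good (T := T) (by decide) [Lt.f, Lt.d, Lt.c, Lt.di] [Lt.d, Lt.c, Lt.di, Lt.c] (pair_rel hinv hr (by decide +kernel)) h
    · rcases brec_true h with h | h
      · exact mRel_good (T := T) (by decide) [Lt.b, Lt.di, Lt.ci, Lt.f] [Lt.di, Lt.b, Lt.di, Lt.ci] (pair_rel hinv hr (by decide +kernel)) h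
      · rcases brec_true h with h | h
        · exact mRel_good (T := T) (by decide) [Lt.d, Lt.c, Lt.di] [Lt.ci, Lt.fi, Lt.c, Lt.f, Lt.c] (pair_rel hinv hr (by decide +kernel)) h
        · exact mRel_good (T := T) (by decide) [Lt.c, Lt.d, Lt.c] [Lt.fi, Lt.c, Lt.f, Lt.c, Lt.d] (pair_rel hinv hr (by decide +kernel)) h
  · rcases brec_true h with h | h
    · rcases brec_true h with h | h
      · exact mRel_good (T := T) (by decide) [Lt.di, Lt.ci, Lt.d, Lt.ci, Lt.di, Lt.f] [Lt.ci, Lt.di] (pair_rel hinv hr (by decide +kernel)) h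
      · rcases brec_true h with h | h
        · exact mRel_good (T := T) (by decide) [Lt.fi, Lt.d, Lt.bi, Lt.bi, Lt.ci, Lt.bi] [Lt.d, Lt.c] (pair_rel hinv hr (by decide +kernel)) h
        · exact mRel_good (T := T) (by decide) [Lt.b] [Lt.bi, Lt.c, Lt.fi, Lt.ci, Lt.b, Lt.c, Lt.f, Lt.ci, Lt.bi] (pair_rel hinv hr (by decide +kernel)) h
    · rcases brec_true h with h | h
      · exact mRel_good (T := T) (by decide) [Lt.ci, Lt.d, Lt.ci, Lt.di, Lt.f, Lt.d] [Lt.d, Lt.ci] (pair_rel hinv hr (by decide +kernel)) h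
      · rcases brec_true h with h | h
        · exact mRel_good (T := T) (by decide) [Lt.d, Lt.c, Lt.b, Lt.c, Lt.b, Lt.b, Lt.di] [Lt.fi] (pair_rel hinv hr (by decide +kernel)) h
        · exact mRel_good (T := T) (by decide) [Lt.bi, Lt.fi, Lt.ci] [Lt.di, Lt.c, Lt.ei, Lt.b, Lt.ei, Lt.bi, Lt.e] (pair_rel hinv hr (by decide +kernel)) h
theorem dM_102_s (hinv : ∀ x, g (inv x) = (g x)⁻¹) (hr : ∀ r ∈ rels, (r.map g).prod = 1) (j z1 z2 u : ℕ) (h : dM_102 j z1 z2 u = true) : GoodM (fa g) T MG M (cP g H) u := by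
  unfold dM_102 at h
  rcases brec_true h with h | h
  · exact dM_100_s hinv hr j z1 z2 u h
  · exact dM_101_s hinv hr j z1 z2 u h
theorem dM_103_s (hinv : ∀ x, g (inv x) = (g x)⁻¹) (hr : ∀ r ∈ rels, (r.map g).prod = 1) (j z1 z2 u : ℕ) (h : dM_103 j z1 z2 u = true) : GoodM (fa g) T MG M (cP g H) u := by
  unfold dM_103 at h
  rcases brec_true h with h | h
  · exact dM_99_s hinv hr j z1 z2 u h
  · exact dM_102_s hinv hr j z1 z2 u h
theorem dM_104_s (hinv : ∀ x, g (inv x) = (g x)⁻¹) (hr : ∀ r ∈ rels, (r.map g).prod = 1) (j z1 z2 u : ℕ) (h : dM_104 j z1 z2 u = true) : GoodM (fa g) T MG M (cP g H) u := by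
  unfold dM_104 at h
  rcases brec_true h with h | h
  · rcases brec_true h with h | h
    · rcases brec_true h with h | h
      · exact mRel_good (T := T) (by decide) [Lt.ci, Lt.di, Lt.ei, Lt.b] [Lt.b, Lt.c, Lt.f, Lt.ei, Lt.b, Lt.ei] (pair_rel hinv hr (by decide +kernel)) h
      · exact mRel_good (T := T) (by decide) [Lt.b, Lt.ei, Lt.bi, Lt.e, Lt.b, Lt.fi, Lt.ci, Lt.b, Lt.d, Lt.ei] [] (pair_rel hinv hr (by decide +kernel)) h
    · rcases brec_true h with h | h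
      · exact mRel_good (T := T) (by decide) [Lt.ci, Lt.di, Lt.fi, Lt.b, Lt.b, Lt.fi, Lt.c] [Lt.bi] (pair_rel hinv hr (by decide +kernel)) h
      · rcases brec_true h with h | h
        · exact mRel_good (T := T) (by decide) [Lt.c, Lt.d, Lt.c, Lt.di, Lt.ci, Lt.fi] [Lt.fi, Lt.c] (pair_rel hinv hr (by decide +kernel)) h
        · exact mRel_good (T := T) (by decide) [Lt.bi, Lt.ei, Lt.b, Lt.f, Lt.ci, Lt.ei, Lt.c] [Lt.f] (pair_rel hinv hr (by decide +kernel)) h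
  · rcases brec_true h with h | h
    · rcases brec_true h with h | h
      · exact mRel_good (T := T) (by decide) [Lt.f, Lt.bi, Lt.c, Lt.di, Lt.ci, Lt.d] [Lt.b, Lt.b] (pair_rel hinv hr (by decide +kernel)) h
      · rcases brec_true h with h | h
        · exact mRel_good (T := T) (by decide) [Lt.c] [Lt.di, Lt.f, Lt.d, Lt.c, Lt.di, Lt.ci, Lt.d] (pair_rel hinv hr (by decide +kernel)) h
        · exact mRel_good (T := T) (by decide) [Lt.ci, Lt.di, Lt.c] [Lt.d, Lt.b, Lt.f, Lt.bi, Lt.di] (pair_rel hinv hr (by decide +kernel)) h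
    · rcases brec_true h with h | h
      · exact mRel_good (T := T) (by decide) [Lt.b, Lt.fi, Lt.c, Lt.b, Lt.ci, Lt.di, Lt.fi] [Lt.bi] (pair_rel hinv hr (by decide +kernel)) h
      · rcases brec_true h with h | h
        · exact mRel_good (T := T) (by decide) [Lt.f, Lt.bi, Lt.di, Lt.ci, Lt.d, Lt.c, Lt.d] [Lt.bi] (pair_rel hinv hr (by decide +kernel)) h
        · exact mRel_good (T := T) (by decide) [Lt.ci, Lt.fi, Lt.c, Lt.f] [Lt.d, Lt.c, Lt.di, Lt.ci] (pair_rel hinv hr (by decide +kernel)) h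
theorem dM_105_s (hinv : ∀ x, g (inv x) = (g x)⁻¹) (hr : ∀ r ∈ rels, (r.map g).prod = 1) (j z1 z2 u : ℕ) (h : dM_105 j z1 z2 u = true) : GoodM (fa g) T MG M (cP g H) u := by
  unfold dM_105 at h
  rcases brec_true h with h | h
  · rcases brec_true h with h | h
    · rcases brec_true h with h | h
      · exact mRel_good (T := T) (by decide) [Lt.b, Lt.b, Lt.f, Lt.bi] [Lt.fi, Lt.ci, Lt.f, Lt.b] (pair_rel hinv hr (by decide +kernel)) h
      · rcases brec_true h with h | h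
        · exact mRel_good (T := T) (by decide) [Lt.ei, Lt.c] [Lt.b, Lt.fi, Lt.bi, Lt.ei, Lt.c, Lt.fi] (pair_rel hinv hr (by decide +kernel)) h
        · exact mRel_good (T := T) (by decide) [Lt.fi, Lt.bi] [Lt.bi, Lt.di, Lt.ci, Lt.d, Lt.c, Lt.d] (pair_rel hinv hr (by decide +kernel)) h
    · rcases brec_true h with h | h
      · exact mRel_good (T := T) (by decide) [Lt.bi, Lt.ci, Lt.di, Lt.ei, Lt.b, Lt.e, Lt.bi] [Lt.c, Lt.f, Lt.ei] (pair_rel hinv hr (by decide +kernel)) h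
      · rcases brec_true h with h | h
        · exact mRel_good (T := T) (by decide) [Lt.b, Lt.b, Lt.di, Lt.c, Lt.d, Lt.ci, Lt.b, Lt.fi] [] (pair_rel hinv hr (by decide +kernel)) h
        · exact mRel_good (T := T) (by decide) [Lt.di, Lt.fi, Lt.c, Lt.fi, Lt.ci, Lt.f, Lt.d, Lt.c] [] (pair_rel hinv hr (by decide +kernel)) h
  · rcases brec_true h with h | h
    · rcases brec_true h with h | h
      · exact mRel_good (T := T) (by decide) [Lt.b, Lt.b, Lt.f, Lt.di, Lt.b, Lt.d] [Lt.ci, Lt.f] (pair_rel hinv hr (by decide +kernel)) h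
      · rcases brec_true h with h | h
        · exact mRel_good (T := T) (by decide) [Lt.f, Lt.bi, Lt.c, Lt.di] [Lt.b, Lt.b, Lt.di, Lt.c] (pair_rel hinv hr (by decide +kernel)) h
        · exact mRel_good (T := T) (by decide) [Lt.ci, Lt.d, Lt.bi, Lt.bi] [Lt.d, Lt.ci, Lt.b, Lt.fi] (pair_rel hinv hr (by decide +kernel)) h
    · rcases brec_true h with h | h
      · exact mRel_good (T := T) (by decide) [Lt.c, Lt.f, Lt.ei, Lt.b] [Lt.bi, Lt.ci, Lt.di, Lt.ei, Lt.b, Lt.e] (pair_rel hinv hr (by decide +kernel)) h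
      · rcases brec_true h with h | h
        · exact mRel_good (T := T) (by decide) [Lt.c, Lt.f, Lt.b, Lt.di, Lt.c, Lt.ei, Lt.b, Lt.ei] [Lt.ei, Lt.b] (pair_rel hinv hr (by decide +kernel)) h
        · exact mRel_good (T := T) (by decide) [Lt.ci, Lt.di, Lt.ci] [Lt.di, Lt.ci, Lt.fi, Lt.ci, Lt.f] (pair_rel hinv hr (by decide +kernel)) h
theorem dM_106_s (hinv : ∀ x, g (inv x) = (g x)⁻¹) (hr : ∀ r ∈ rels, (r.map g).prod = 1) (j z1 z2 u : ℕ) (h : dM_106 j z1 z2 u = true) : GoodM (fa g) T MG M (cP g H) u := by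
  unfold dM_106 at h
  rcases brec_true h with h | h
  · exact dM_104_s hinv hr j z1 z2 u h
  · exact dM_105_s hinv hr j z1 z2 u h
theorem dM_107_s (hinv : ∀ x, g (inv x) = (g x)⁻¹) (hr : ∀ r ∈ rels, (r.map g).prod = 1) (j z1 z2 u : ℕ) (h : dM_107 j z1 z2 u = true) : GoodM (fa g) T MG M (cP g H) u := by
  unfold dM_107 at h
  rcases brec_true h with h | h
  · rcases brec_true h with h | h
    · rcases brec_true h with h | h
      · exact mRel_good (T := T) (by decide) [Lt.b, Lt.b, Lt.d] [Lt.d, Lt.fi, Lt.di, Lt.b, Lt.b] (pair_rel hinv hr (by decide +kernel)) h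
      · rcases brec_true h with h | h
        · exact mRel_good (T := T) (by decide) [Lt.d, Lt.b, Lt.fi, Lt.bi, Lt.di] [Lt.ci, Lt.d, Lt.c] (pair_rel hinv hr (by decide +kernel)) h
        · exact mRel_good (T := T) (by decide) [Lt.b, Lt.b, Lt.fi] [Lt.f, Lt.d, Lt.c, Lt.bi, Lt.ci] (pair_rel hinv hr (by decide +kernel)) h
    · rcases brec_true h with h | h
      · exact mRel_good (T := T) (by decide) [Lt.di] [Lt.bi, Lt.bi, Lt.f, Lt.bi, Lt.c, Lt.di, Lt.ci] (pair_rel hinv hr (by decide +kernel)) h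
      · rcases brec_true h with h | h
        · exact mRel_good (T := T) (by decide) [Lt.fi, Lt.c, Lt.b] [Lt.bi, Lt.bi, Lt.f, Lt.d, Lt.c] (pair_rel hinv hr (by decide +kernel)) h
        · exact mRel_good (T := T) (by decide) [Lt.b, Lt.b, Lt.fi, Lt.c, Lt.b, Lt.ci, Lt.di, Lt.fi] [] (pair_rel hinv hr (by decide +kernel)) h
  · rcases brec_true h with h | h
    · rcases brec_true h with h | h
      · exact mRel_good (T := T) (by decide) [Lt.fi, Lt.bi, Lt.ei, Lt.b, Lt.f, Lt.ci, Lt.ei] [Lt.ci] (pair_rel hinv hr (by decide +kernel)) h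
      · rcases brec_true h with h | h
        · exact mRel_good (T := T) (by decide) [Lt.bi, Lt.di, Lt.b, Lt.di, Lt.ci, Lt.fi, Lt.c, Lt.d] [] (pair_rel hinv hr (by decide +kernel)) h
        · exact mRel_good (T := T) (by decide) [Lt.e, Lt.bi, Lt.e, Lt.fi, Lt.ci, Lt.bi, Lt.ci, Lt.di] [Lt.bi, Lt.e] (pair_rel hinv hr (by decide +kernel)) h
    · rcases brec_true h with h | h
      · exact mRel_good (T := T) (by decide) [Lt.di, Lt.bi, Lt.c, Lt.f, Lt.bi, Lt.ei, Lt.b, Lt.e] [Lt.ei, Lt.b] (pair_rel hinv hr (by decide +kernel)) h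
      · rcases brec_true h with h | h
        · exact mRel_good (T := T) (by decide) [Lt.ci, Lt.f, Lt.bi, Lt.bi, Lt.bi, Lt.c, Lt.f, Lt.bi] [Lt.fi] (pair_rel hinv hr (by decide +kernel)) h
        · exact mRel_good (T := T) (by decide) [Lt.f, Lt.ci, Lt.e, Lt.b, Lt.f, Lt.bi, Lt.ei, Lt.c] [] (pair_rel hinv hr (by decide +kernel)) h
theorem dM_108_s (hinv : ∀ x, g (inv x) = (g x)⁻¹) (hr : ∀ r ∈ rels, (r.map g).prod = 1) (j z1 z2 u : ℕ) (h : dM_108 j z1 z2 u = true) : GoodM (fa g) T MG M (cP g H) u := by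
  unfold dM_108 at h
  rcases brec_true h with h | h
  · rcases brec_true h with h | h
    · rcases brec_true h with h | h
      · exact mRel_good (T := T) (by decide) [Lt.b, Lt.b] [Lt.fi, Lt.ci, Lt.f, Lt.b, Lt.b, Lt.fi] (pair_rel hinv hr (by decide +kernel)) h
      · rcases brec_true h with h | h
        · exact mRel_good (T := T) (by decide) [Lt.e, Lt.b, Lt.fi, Lt.ci, Lt.b] [Lt.b, Lt.e, Lt.bi, Lt.e, Lt.di] (pair_rel hinv hr (by decide +kernel)) h
        · exact mRel_good (T := T) (by decide) [Lt.d, Lt.fi, Lt.bi, Lt.bi, Lt.ci, Lt.f] [Lt.b, Lt.d] (pair_rel hinv hr (by decide +kernel)) h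
    · rcases brec_true h with h | h
      · exact mRel_good (T := T) (by decide) [Lt.bi, Lt.bi, Lt.f] [Lt.di, Lt.c, Lt.d, Lt.ci, Lt.b] (pair_rel hinv hr (by decide +kernel)) h
      · rcases brec_true h with h | h
        · exact mRel_good (T := T) (by decide) [Lt.c, Lt.b, Lt.ci, Lt.di, Lt.fi, Lt.b, Lt.b, Lt.fi] [] (pair_rel hinv hr (by decide +kernel)) h
        · exact mRel_good (T := T) (by decide) [Lt.b, Lt.di, Lt.c] [Lt.fi, Lt.ci, Lt.ei, Lt.b, Lt.e, Lt.bi, Lt.e] (pair_rel hinv hr (by decide +kernel)) h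
  · rcases brec_true h with h | h
    · rcases brec_true h with h | h
      · exact mRel_good (T := T) (by decide) [Lt.bi, Lt.ci, Lt.di] [Lt.c, Lt.f, Lt.ei, Lt.b, Lt.ei, Lt.bi, Lt.e] (pair_rel hinv hr (by decide +kernel)) h
      · rcases brec_true h with h | h
        · exact mRel_good (T := T) (by decide) [Lt.b, Lt.ci] [Lt.ci, Lt.f, Lt.bi, Lt.bi, Lt.f, Lt.d] (pair_rel hinv hr (by decide +kernel)) h
        · exact mRel_good (T := T) (by decide) [Lt.bi, Lt.ci, Lt.di, Lt.ei, Lt.b, Lt.e, Lt.bi, Lt.e] [Lt.c, Lt.f] (pair_rel hinv hr (by decide +kernel)) h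
    · rcases brec_true h with h | h
      · exact mRel_good (T := T) (by decide) [Lt.fi, Lt.ci, Lt.e, Lt.b, Lt.fi, Lt.bi, Lt.ei] [Lt.ci] (pair_rel hinv hr (by decide +kernel)) h
      · rcases brec_true h with h | h
        · exact mRel_good (T := T) (by decide) [Lt.fi, Lt.b, Lt.b, Lt.di, Lt.c, Lt.d, Lt.ci] [Lt.bi] (pair_rel hinv hr (by decide +kernel)) h
        · exact mRel_good (T := T) (by decide) [Lt.ci, Lt.e, Lt.b, Lt.fi, Lt.bi] [Lt.f, Lt.ci, Lt.e] (pair_rel hinv hr (by decide +kernel)) h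
theorem dM_109_s (hinv : ∀ x, g (inv x) = (g x)⁻¹) (hr : ∀ r ∈ rels, (r.map g).prod = 1) (j z1 z2 u : ℕ) (h : dM_109 j z1 z2 u = true) : GoodM (fa g) T MG M (cP g H) u := by
  unfold dM_109 at h
  rcases brec_true h with h | h
  · exact dM_107_s hinv hr j z1 z2 u h
  · exact dM_108_s hinv hr j z1 z2 u h
theorem dM_110_s (hinv : ∀ x, g (inv x) = (g x)⁻¹) (hr : ∀ r ∈ rels, (r.map g).prod = 1) (j z1 z2 u : ℕ) (h : dM_110 j z1 z2 u = true) : GoodM (fa g) T MG M (cP g H) u := by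
  unfold dM_110 at h
  rcases brec_true h with h | h
  · exact dM_106_s hinv hr j z1 z2 u h
  · exact dM_109_s hinv hr j z1 z2 u h
theorem dM_111_s (hinv : ∀ x, g (inv x) = (g x)⁻¹) (hr : ∀ r ∈ rels, (r.map g).prod = 1) (j z1 z2 u : ℕ) (h : dM_111 j z1 z2 u = true) : GoodM (fa g) T MG M (cP g H) u := by
  unfold dM_111 at h
  rcases brec_true h with h | h
  · exact dM_103_s hinv hr j z1 z2 u h
  · exact dM_110_s hinv hr j z1 z2 u h
theorem dM_112_s (hinv : ∀ x, g (inv x) = (g x)⁻¹) (hr : ∀ r ∈ rels, (r.map g).prod = 1) (j z1 z2 u : ℕ) (h : dM_112 j z1 z2 u = true) : GoodM (fa g) T MG M (cP g H) u := by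
  unfold dM_112 at h
  rcases brec_true h with h | h
  · exact dM_96_s hinv hr j z1 z2 u h
  · exact dM_111_s hinv hr j z1 z2 u h
theorem dM_113_s (hinv : ∀ x, g (inv x) = (g x)⁻¹) (hr : ∀ r ∈ rels, (r.map g).prod = 1) (j z1 z2 u : ℕ) (h : dM_113 j z1 z2 u = true) : GoodM (fa g) T MG M (cP g H) u := by
  unfold dM_113 at h
  rcases brec_true h with h | h
  · exact dM_81_s hinv hr j z1 z2 u h
  · exact dM_112_s hinv hr j z1 z2 u h
theorem dM_114_s (hinv : ∀ x, g (inv x) = (g x)⁻¹) (hr : ∀ r ∈ rels, (r.map g).prod = 1) (j z1 z2 u : ℕ) (h : dM_114 j z1 z2 u = true) : GoodM (fa g) T MG M (cP g H) u := by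
  unfold dM_114 at h
  rcases brec_true h with h | h
  · rcases brec_true h with h | h
    · rcases brec_true h with h | h
      · exact mRel_good (T := T) (by decide) [Lt.bi, Lt.e, Lt.b, Lt.fi, Lt.ci, Lt.b, Lt.d] [Lt.e, Lt.bi, Lt.e] (pair_rel hinv hr (by decide +kernel)) h
      · exact mRel_good (T := T) (by decide) [Lt.bi, Lt.di, Lt.b, Lt.di] [Lt.di, Lt.ci, Lt.f, Lt.c] (pair_rel hinv hr (by decide +kernel)) h
    · rcases brec_true h with h | h
      · exact mRel_good (T := T) (by decide) [Lt.c, Lt.b, Lt.c, Lt.b] [Lt.di, Lt.fi, Lt.d, Lt.bi] (pair_rel hinv hr (by decide +kernel)) h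
      · rcases brec_true h with h | h
        · exact mRel_good (T := T) (by decide) [Lt.di, Lt.c, Lt.d, Lt.ci, Lt.di, Lt.fi, Lt.d, Lt.c] [] (pair_rel hinv hr (by decide +kernel)) h
        · exact mRel_good (T := T) (by decide) [Lt.d, Lt.ei, Lt.b] [Lt.bi, Lt.c, Lt.f, Lt.bi, Lt.ei, Lt.b, Lt.e] (pair_rel hinv hr (by decide +kernel)) h
  · rcases brec_true h with h | h
    · rcases brec_true h with h | h
      · exact mRel_good (T := T) (by decide) [Lt.b] [Lt.e, Lt.c, Lt.f, Lt.b, Lt.di, Lt.c, Lt.ei, Lt.b, Lt.ei] (pair_rel hinv hr (by decide +kernel)) h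
      · rcases brec_true h with h | h
        · exact mRel_good (T := T) (by decide) [Lt.b, Lt.f, Lt.bi, Lt.ei, Lt.c] [Lt.ei, Lt.c, Lt.fi] (pair_rel hinv hr (by decide +kernel)) h
        · exact mRel_good (T := T) (by decide) [Lt.c, Lt.f, Lt.ei, Lt.b, Lt.ei, Lt.bi, Lt.e, Lt.d, Lt.c, Lt.b] [] (pair_rel hinv hr (by decide +kernel)) h
    · rcases brec_true h with h | h
      · exact mRel_good (T := T) (by decide) [Lt.bi, Lt.e, Lt.fi, Lt.ci, Lt.bi, Lt.ci] [Lt.ei, Lt.bi, Lt.e, Lt.d] (pair_rel hinv hr (by decide +kernel)) h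
      · rcases brec_true h with h | h
        · exact mRel_good (T := T) (by decide) [Lt.b, Lt.fi, Lt.ci, Lt.b, Lt.b, Lt.b, Lt.fi] [Lt.f, Lt.ci] (pair_rel hinv hr (by decide +kernel)) h
        · exact mRel_good (T := T) (by decide) [Lt.di] [Lt.bi, Lt.bi, Lt.d, Lt.f, Lt.di, Lt.b, Lt.b] (pair_rel hinv hr (by decide +kernel)) h
theorem dM_115_s (hinv : ∀ x, g (inv x) = (g x)⁻¹) (hr : ∀ r ∈ rels, (r.map g).prod = 1) (j z1 z2 u : ℕ) (h : dM_115 j z1 z2 u = true) : GoodM (fa g) T MG M (cP g H) u := by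
  unfold dM_115 at h
  rcases brec_true h with h | h
  · rcases brec_true h with h | h
    · rcases brec_true h with h | h
      · exact mRel_good (T := T) (by decide) [Lt.di, Lt.bi, Lt.bi] [Lt.bi, Lt.bi, Lt.d, Lt.f, Lt.di] (pair_rel hinv hr (by decide +kernel)) h
      · rcases brec_true h with h | h
        · exact mRel_good (T := T) (by decide) [Lt.f, Lt.ci, Lt.bi, Lt.bi] [Lt.ci, Lt.bi, Lt.c, Lt.f, Lt.ci, Lt.b] (pair_rel hinv hr (by decide +kernel)) h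
        · exact mRel_good (T := T) (by decide) [Lt.ci, Lt.di, Lt.ei, Lt.b, Lt.e, Lt.bi, Lt.e] [Lt.b, Lt.c, Lt.f] (pair_rel hinv hr (by decide +kernel)) h
    · rcases brec_true h with h | h
      · exact mRel_good (T := T) (by decide) [Lt.f, Lt.ci, Lt.f, Lt.d, Lt.ci, Lt.di] [Lt.ci, Lt.f] (pair_rel hinv hr (by decide +kernel)) h
      · rcases brec_true h with h | h
        · exact mRel_good (T := T) (by decide) [Lt.bi, Lt.f, Lt.bi] [Lt.b, Lt.di, Lt.c, Lt.d, Lt.ci] (pair_rel hinv hr (by decide +kernel)) h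
        · exact mRel_good (T := T) (by decide) [Lt.f, Lt.ci] [Lt.ci, Lt.e, Lt.b, Lt.fi, Lt.bi, Lt.ei] (pair_rel hinv hr (by decide +kernel)) h
  · rcases brec_true h with h | h
    · rcases brec_true h with h | h
      · exact mRel_good (T := T) (by decide) [Lt.fi, Lt.bi, Lt.di, Lt.ci, Lt.di] [Lt.bi, Lt.di, Lt.ci] (pair_rel hinv hr (by decide +kernel)) h
      · rcases brec_true h with h | h
        · exact mRel_good (T := T) (by decide) [Lt.ei, Lt.b, Lt.ei, Lt.bi, Lt.e] [Lt.di, Lt.bi, Lt.c, Lt.f, Lt.bi] (pair_rel hinv hr (by decide +kernel)) h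
        · exact mRel_good (T := T) (by decide) [Lt.bi, Lt.ei, Lt.c, Lt.f, Lt.ci] [Lt.fi, Lt.bi, Lt.ei] (pair_rel hinv hr (by decide +kernel)) h
    · rcases brec_true h with h | h
      · exact mRel_good (T := T) (by decide) [Lt.ci, Lt.b, Lt.fi, Lt.b, Lt.b, Lt.di] [Lt.di, Lt.ci] (pair_rel hinv hr (by decide +kernel)) h
      · rcases brec_true h with h | h
        · exact mRel_good (T := T) (by decide) [Lt.e, Lt.b] [Lt.c, Lt.fi, Lt.ci, Lt.e, Lt.b, Lt.fi] (pair_rel hinv hr (by decide +kernel)) h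
        · exact mRel_good (T := T) (by decide) [Lt.d, Lt.c, Lt.b, Lt.c, Lt.f, Lt.ei, Lt.b, Lt.ei, Lt.bi] [Lt.ei] (pair_rel hinv hr (by decide +kernel)) h
theorem dM_116_s (hinv : ∀ x, g (inv x) = (g x)⁻¹) (hr : ∀ r ∈ rels, (r.map g).prod = 1) (j z1 z2 u : ℕ) (h : dM_116 j z1 z2 u = true) : GoodM (fa g) T MG M (cP g H) u := by
  unfold dM_116 at h
  rcases brec_true h with h | h
  · exact dM_114_s hinv hr j z1 z2 u h
  · exact dM_115_s hinv hr j z1 z2 u h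
theorem dM_117_s (hinv : ∀ x, g (inv x) = (g x)⁻¹) (hr : ∀ r ∈ rels, (r.map g).prod = 1) (j z1 z2 u : ℕ) (h : dM_117 j z1 z2 u = true) : GoodM (fa g) T MG M (cP g H) u := by
  unfold dM_117 at h
  rcases brec_true h with h | h
  · rcases brec_true h with h | h
    · rcases brec_true h with h | h
      · exact mRel_good (T := T) (by decide) [Lt.e, Lt.bi, Lt.e, Lt.ci] [Lt.bi, Lt.e, Lt.c, Lt.f, Lt.b, Lt.di] (pair_rel hinv hr (by decide +kernel)) h
      · exact mRel_good (T := T) (by decide) [Lt.d, Lt.c, Lt.di, Lt.ci, Lt.d] [Lt.fi, Lt.d, Lt.c] (pair_rel hinv hr (by decide +kernel)) h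
    · rcases brec_true h with h | h
      · exact mRel_good (T := T) (by decide) [Lt.f, Lt.bi, Lt.ei, Lt.b, Lt.e] [Lt.ci, Lt.b, Lt.d, Lt.ei, Lt.b] (pair_rel hinv hr (by decide +kernel)) h
      · rcases brec_true h with h | h
        · exact mRel_good (T := T) (by decide) [Lt.ci, Lt.di, Lt.ei] [Lt.b, Lt.c, Lt.f, Lt.ei, Lt.b, Lt.ei, Lt.bi] (pair_rel hinv hr (by decide +kernel)) h
        · exact mRel_good (T := T) (by decide) [Lt.ci, Lt.ei, Lt.c, Lt.fi, Lt.bi, Lt.ei, Lt.b] [Lt.fi] (pair_rel hinv hr (by decide +kernel)) h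
  · rcases brec_true h with h | h
    · rcases brec_true h with h | h
      · exact mRel_good (T := T) (by decide) [Lt.d, Lt.bi, Lt.fi, Lt.c, Lt.f, Lt.d] [Lt.ci, Lt.b, Lt.b] (pair_rel hinv hr (by decide +kernel)) h
      · rcases brec_true h with h | h
        · exact mRel_good (T := T) (by decide) [Lt.e, Lt.c, Lt.f, Lt.b, Lt.di, Lt.c, Lt.ei, Lt.b] [Lt.b, Lt.e] (pair_rel hinv hr (by decide +kernel)) h
        · exact mRel_good (T := T) (by decide) [Lt.fi, Lt.ci, Lt.b, Lt.d, Lt.ei, Lt.b, Lt.ei] [Lt.bi, Lt.ei, Lt.b] (pair_rel hinv hr (by decide +kernel)) h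
    · rcases brec_true h with h | h
      · exact mRel_good (T := T) (by decide) [Lt.b, Lt.e, Lt.bi, Lt.e, Lt.di] [Lt.e, Lt.b, Lt.fi, Lt.ci, Lt.b] (pair_rel hinv hr (by decide +kernel)) h
      · rcases brec_true h with h | h
        · exact mRel_good (T := T) (by decide) [Lt.f, Lt.c, Lt.d, Lt.bi, Lt.d] [Lt.c, Lt.d, Lt.bi] (pair_rel hinv hr (by decide +kernel)) h
        · exact mRel_good (T := T) (by decide) [Lt.bi, Lt.fi, Lt.ci] [Lt.b, Lt.f, Lt.bi, Lt.bi, Lt.fi] (pair_rel hinv hr (by decide +kernel)) h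
theorem dM_118_s (hinv : ∀ x, g (inv x) = (g x)⁻¹) (hr : ∀ r ∈ rels, (r.map g).prod = 1) (j z1 z2 u : ℕ) (h : dM_118 j z1 z2 u = true) : GoodM (fa g) T MG M (cP g H) u := by
  unfold dM_118 at h
  rcases brec_true h with h | h
  · rcases brec_true h with h | h
    · rcases brec_true h with h | h
      · exact mRel_good (T := T) (by decide) [Lt.bi] [Lt.fi, Lt.ci, Lt.b, Lt.d, Lt.ei, Lt.b, Lt.ei, Lt.bi, Lt.e] (pair_rel hinv hr (by decide +kernel)) h
      · rcases brec_true h with h | h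
        · exact mRel_good (T := T) (by decide) [Lt.fi, Lt.d] [Lt.d, Lt.c, Lt.b, Lt.c, Lt.b, Lt.b] (pair_rel hinv hr (by decide +kernel)) h
        · exact mRel_good (T := T) (by decide) [Lt.ei, Lt.bi, Lt.e, Lt.b, Lt.fi, Lt.ci, Lt.b, Lt.d, Lt.ei] [Lt.bi] (pair_rel hinv hr (by decide +kernel)) h
    · rcases brec_true h with h | h
      · exact mRel_good (T := T) (by decide) [Lt.b, Lt.e, Lt.bi, Lt.e] [Lt.e, Lt.c, Lt.f, Lt.b, Lt.di, Lt.c] (pair_rel hinv hr (by decide +kernel)) h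
      · rcases brec_true h with h | h
        · exact mRel_good (T := T) (by decide) [Lt.di, Lt.b, Lt.d, Lt.fi, Lt.c, Lt.b] [Lt.fi, Lt.bi] (pair_rel hinv hr (by decide +kernel)) h
        · exact mRel_good (T := T) (by decide) [Lt.c, Lt.di, Lt.ci, Lt.d] [Lt.di, Lt.fi, Lt.d, Lt.c] (pair_rel hinv hr (by decide +kernel)) h
  · rcases brec_true h with h | h
    · rcases brec_true h with h | h
      · exact mRel_good (T := T) (by decide) [Lt.bi, Lt.d] [Lt.b, Lt.d, Lt.bi, Lt.bi, Lt.d, Lt.f] (pair_rel hinv hr (by decide +kernel)) h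
      · rcases brec_true h with h | h
        · exact mRel_good (T := T) (by decide) [Lt.bi, Lt.fi, Lt.ci, Lt.ei, Lt.b, Lt.e, Lt.bi, Lt.e] [Lt.di, Lt.c] (pair_rel hinv hr (by decide +kernel)) h
        · exact mRel_good (T := T) (by decide) [Lt.ei, Lt.c, Lt.fi, Lt.ci, Lt.e, Lt.b, Lt.fi, Lt.bi] [] (pair_rel hinv hr (by decide +kernel)) h
    · rcases brec_true h with h | h
      · exact mRel_good (T := T) (by decide) [Lt.d, Lt.ci, Lt.b] [Lt.ci, Lt.d, Lt.bi, Lt.bi, Lt.f] (pair_rel hinv hr (by decide +kernel)) h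
      · rcases brec_true h with h | h
        · exact mRel_good (T := T) (by decide) [Lt.d, Lt.bi, Lt.fi, Lt.ci, Lt.ei, Lt.b] [Lt.c, Lt.ei, Lt.b, Lt.ei] (pair_rel hinv hr (by decide +kernel)) h
        · exact mRel_good (T := T) (by decide) [Lt.b, Lt.b, Lt.f, Lt.di] [Lt.ci, Lt.f, Lt.di, Lt.bi] (pair_rel hinv hr (by decide +kernel)) h
theorem dM_119_s (hinv : ∀ x, g (inv x) = (g x)⁻¹) (hr : ∀ r ∈ rels, (r.map g).prod = 1) (j z1 z2 u : ℕ) (h : dM_119 j z1 z2 u = true) : GoodM (fa g) T MG M (cP g H) u := by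
  unfold dM_119 at h
  rcases brec_true h with h | h
  · exact dM_117_s hinv hr j z1 z2 u h
  · exact dM_118_s hinv hr j z1 z2 u h
theorem dM_120_s (hinv : ∀ x, g (inv x) = (g x)⁻¹) (hr : ∀ r ∈ rels, (r.map g).prod = 1) (j z1 z2 u : ℕ) (h : dM_120 j z1 z2 u = true) : GoodM (fa g) T MG M (cP g H) u := by
  unfold dM_120 at h
  rcases brec_true h with h | h
  · exact dM_116_s hinv hr j z1 z2 u h
  · exact dM_119_s hinv hr j z1 z2 u h
theorem dM_121_s (hinv : ∀ x, g (inv x) = (g x)⁻¹) (hr : ∀ r ∈ rels, (r.map g).prod = 1) (j z1 z2 u : ℕ) (h : dM_121 j z1 z2 u = true) : GoodM (fa g) T MG M (cP g H) u := by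
  unfold dM_121 at h
  rcases brec_true h with h | h
  · rcases brec_true h with h | h
    · rcases brec_true h with h | h
      · exact mRel_good (T := T) (by decide) [Lt.b, Lt.b, Lt.b, Lt.fi, Lt.c, Lt.fi, Lt.b, Lt.fi] [Lt.c] (pair_rel hinv hr (by decide +kernel)) h
      · exact mRel_good (T := T) (by decide) [Lt.di, Lt.ci, Lt.d, Lt.c, Lt.d, Lt.b] [Lt.b, Lt.fi] (pair_rel hinv hr (by decide +kernel)) h
    · rcases brec_true h with h | h
      · exact mRel_good (T := T) (by decide) [Lt.di, Lt.bi] [Lt.bi, Lt.bi, Lt.d, Lt.f, Lt.di, Lt.b] (pair_rel hinv hr (by decide +kernel)) h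
      · rcases brec_true h with h | h
        · exact mRel_good (T := T) (by decide) [Lt.di, Lt.f, Lt.d] [Lt.bi, Lt.bi, Lt.ci, Lt.bi, Lt.ci] (pair_rel hinv hr (by decide +kernel)) h
        · exact mRel_good (T := T) (by decide) [Lt.f, Lt.bi, Lt.di, Lt.ci, Lt.d, Lt.c] [Lt.bi, Lt.di] (pair_rel hinv hr (by decide +kernel)) h
  · rcases brec_true h with h | h
    · rcases brec_true h with h | h
      · exact mRel_good (T := T) (by decide) [Lt.f, Lt.bi, Lt.ei, Lt.b, Lt.e, Lt.bi, Lt.e] [Lt.ci, Lt.b, Lt.d] (pair_rel hinv hr (by decide +kernel)) h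
      · rcases brec_true h with h | h
        · exact mRel_good (T := T) (by decide) [Lt.b, Lt.d, Lt.ei] [Lt.c, Lt.f, Lt.bi, Lt.ei, Lt.b, Lt.e, Lt.bi] (pair_rel hinv hr (by decide +kernel)) h
        · exact mRel_good (T := T) (by decide) [Lt.f, Lt.d] [Lt.d, Lt.bi, Lt.bi, Lt.ci, Lt.bi, Lt.ci] (pair_rel hinv hr (by decide +kernel)) h
    · rcases brec_true h with h | h
      · exact mRel_good (T := T) (by decide) [Lt.c, Lt.b, Lt.b, Lt.di] [Lt.bi, Lt.ci, Lt.di, Lt.fi] (pair_rel hinv hr (by decide +kernel)) h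
      · rcases brec_true h with h | h
        · exact mRel_good (T := T) (by decide) [Lt.fi, Lt.c, Lt.fi] [Lt.d, Lt.ci, Lt.di, Lt.fi, Lt.c] (pair_rel hinv hr (by decide +kernel)) h
        · exact mRel_good (T := T) (by decide) [Lt.bi, Lt.ci, Lt.bi, Lt.ci] [Lt.b, Lt.di, Lt.f, Lt.d] (pair_rel hinv hr (by decide +kernel)) h
theorem dM_122_s (hinv : ∀ x, g (inv x) = (g x)⁻¹) (hr : ∀ r ∈ rels, (r.map g).prod = 1) (j z1 z2 u : ℕ) (h : dM_122 j z1 z2 u = true) : GoodM (fa g) T MG M (cP g H) u := by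
  unfold dM_122 at h
  rcases brec_true h with h | h
  · rcases brec_true h with h | h
    · rcases brec_true h with h | h
      · exact mRel_good (T := T) (by decide) [Lt.b, Lt.f] [Lt.bi, Lt.ci, Lt.f, Lt.di, Lt.bi, Lt.d] (pair_rel hinv hr (by decide +kernel)) h
      · rcases brec_true h with h | h
        · exact mRel_good (T := T) (by decide) [Lt.ci, Lt.b] [Lt.di, Lt.ci, Lt.d, Lt.bi, Lt.bi, Lt.f] (pair_rel hinv hr (by decide +kernel)) h
        · exact mRel_good (T := T) (by decide) [Lt.b, Lt.f, Lt.di] [Lt.bi, Lt.ci, Lt.f, Lt.di, Lt.bi] (pair_rel hinv hr (by decide +kernel)) h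
    · rcases brec_true h with h | h
      · exact mRel_good (T := T) (by decide) [Lt.b, Lt.b, Lt.di, Lt.c] [Lt.f, Lt.bi, Lt.c, Lt.di] (pair_rel hinv hr (by decide +kernel)) h
      · rcases brec_true h with h | h
        · exact mRel_good (T := T) (by decide) [Lt.b, Lt.fi, Lt.b] [Lt.c, Lt.di, Lt.ci, Lt.d, Lt.bi] (pair_rel hinv hr (by decide +kernel)) h
        · exact mRel_good (T := T) (by decide) [Lt.bi, Lt.di] [Lt.f, Lt.bi, Lt.di, Lt.ci, Lt.d, Lt.c] (pair_rel hinv hr (by decide +kernel)) h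
  · rcases brec_true h with h | h
    · rcases brec_true h with h | h
      · exact mRel_good (T := T) (by decide) [Lt.di, Lt.fi, Lt.b, Lt.b, Lt.fi, Lt.c, Lt.b, Lt.ci] [] (pair_rel hinv hr (by decide +kernel)) h
      · rcases brec_true h with h | h
        · exact mRel_good (T := T) (by decide) [Lt.bi, Lt.ci, Lt.di, Lt.ei] [Lt.c, Lt.f, Lt.ei, Lt.b, Lt.ei, Lt.bi] (pair_rel hinv hr (by decide +kernel)) h
        · exact mRel_good (T := T) (by decide) [Lt.b, Lt.d, Lt.ei, Lt.b, Lt.ei, Lt.bi, Lt.e] [Lt.c, Lt.f, Lt.bi] (pair_rel hinv hr (by decide +kernel)) h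
    · rcases brec_true h with h | h
      · exact mRel_good (T := T) (by decide) [Lt.di, Lt.b, Lt.d, Lt.fi, Lt.c, Lt.b, Lt.b] [Lt.fi] (pair_rel hinv hr (by decide +kernel)) h
      · rcases brec_true h with h | h
        · exact mRel_good (T := T) (by decide) [Lt.bi, Lt.bi, Lt.fi, Lt.ci, Lt.f] [Lt.f, Lt.bi, Lt.bi] (pair_rel hinv hr (by decide +kernel)) h
        · exact mRel_good (T := T) (by decide) [Lt.f, Lt.d, Lt.c, Lt.di, Lt.ci, Lt.d, Lt.ci, Lt.di] [] (pair_rel hinv hr (by decide +kernel)) h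
theorem dM_123_s (hinv : ∀ x, g (inv x) = (g x)⁻¹) (hr : ∀ r ∈ rels, (r.map g).prod = 1) (j z1 z2 u : ℕ) (h : dM_123 j z1 z2 u = true) : GoodM (fa g) T MG M (cP g H) u := by
  unfold dM_123 at h
  rcases brec_true h with h | h
  · exact dM_121_s hinv hr j z1 z2 u h
  · exact dM_122_s hinv hr j z1 z2 u h
theorem dM_124_s (hinv : ∀ x, g (inv x) = (g x)⁻¹) (hr : ∀ r ∈ rels, (r.map g).prod = 1) (j z1 z2 u : ℕ) (h : dM_124 j z1 z2 u = true) : GoodM (fa g) T MG M (cP g H) u := by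
  unfold dM_124 at h
  rcases brec_true h with h | h
  · rcases brec_true h with h | h
    · rcases brec_true h with h | h
      · exact mRel_good (T := T) (by decide) [Lt.e, Lt.di, Lt.bi, Lt.c, Lt.f, Lt.bi, Lt.ei, Lt.b, Lt.e, Lt.bi] [] (pair_rel hinv hr (by decide +kernel)) h
      · exact mRel_good (T := T) (by decide) [Lt.c, Lt.ei, Lt.b] [Lt.d, Lt.bi, Lt.fi, Lt.ci, Lt.ei, Lt.b, Lt.e] (pair_rel hinv hr (by decide +kernel)) h
    · rcases brec_true h with h | h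
      · exact mRel_good (T := T) (by decide) [Lt.bi, Lt.bi, Lt.fi, Lt.c, Lt.f] [Lt.fi, Lt.bi, Lt.bi] (pair_rel hinv hr (by decide +kernel)) h
      · rcases brec_true h with h | h
        · exact mRel_good (T := T) (by decide) [Lt.bi, Lt.bi, Lt.d, Lt.f] [Lt.di, Lt.bi, Lt.bi, Lt.d] (pair_rel hinv hr (by decide +kernel)) h
        · exact mRel_good (T := T) (by decide) [Lt.fi, Lt.bi, Lt.e, Lt.b, Lt.f, Lt.ci] [Lt.ci, Lt.ei] (pair_rel hinv hr (by decide +kernel)) h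
  · rcases brec_true h with h | h
    · rcases brec_true h with h | h
      · exact mRel_good (T := T) (by decide) [Lt.b, Lt.d, Lt.fi, Lt.c, Lt.b, Lt.b, Lt.f, Lt.di] [] (pair_rel hinv hr (by decide +kernel)) h
      · rcases brec_true h with h | h
        · exact mRel_good (T := T) (by decide) [Lt.e, Lt.c, Lt.fi, Lt.bi, Lt.e, Lt.b, Lt.f] [Lt.c] (pair_rel hinv hr (by decide +kernel)) h
        · exact mRel_good (T := T) (by decide) [Lt.c, Lt.d, Lt.c, Lt.di, Lt.ci, Lt.fi, Lt.ci, Lt.f] [] (pair_rel hinv hr (by decide +kernel)) h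
    · rcases brec_true h with h | h
      · exact mRel_good (T := T) (by decide) [Lt.f] [Lt.c, Lt.b, Lt.b, Lt.f, Lt.di, Lt.b, Lt.d] (pair_rel hinv hr (by decide +kernel)) h
      · rcases brec_true h with h | h
        · exact mRel_good (T := T) (by decide) [Lt.di, Lt.b] [Lt.b, Lt.di, Lt.ci, Lt.f, Lt.c, Lt.d] (pair_rel hinv hr (by decide +kernel)) h
        · exact mRel_good (T := T) (by decide) [Lt.di, Lt.ci, Lt.fi, Lt.c, Lt.d, Lt.bi, Lt.di] [Lt.bi] (pair_rel hinv hr (by decide +kernel)) h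
theorem dM_125_s (hinv : ∀ x, g (inv x) = (g x)⁻¹) (hr : ∀ r ∈ rels, (r.map g).prod = 1) (j z1 z2 u : ℕ) (h : dM_125 j z1 z2 u = true) : GoodM (fa g) T MG M (cP g H) u := by
  unfold dM_125 at h
  rcases brec_true h with h | h
  · rcases brec_true h with h | h
    · rcases brec_true h with h | h
      · exact mRel_good (T := T) (by decide) [Lt.f, Lt.ci, Lt.e, Lt.c, Lt.fi, Lt.bi, Lt.e, Lt.b] [] (pair_rel hinv hr (by decide +kernel)) h
      · rcases brec_true h with h | h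
        · exact mRel_good (T := T) (by decide) [Lt.fi, Lt.bi, Lt.ei, Lt.b, Lt.f, Lt.ci] [Lt.ci, Lt.e] (pair_rel hinv hr (by decide +kernel)) h
        · exact mRel_good (T := T) (by decide) [Lt.ci, Lt.di, Lt.ei, Lt.b, Lt.e, Lt.bi] [Lt.b, Lt.c, Lt.f, Lt.ei] (pair_rel hinv hr (by decide +kernel)) h
    · rcases brec_true h with h | h
      · exact mRel_good (T := T) (by decide) [Lt.b, Lt.di, Lt.ci, Lt.f, Lt.c, Lt.d] [Lt.di, Lt.b] (pair_rel hinv hr (by decide +kernel)) h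
      · rcases brec_true h with h | h
        · exact mRel_good (T := T) (by decide) [Lt.ci, Lt.b, Lt.fi, Lt.b] [Lt.di, Lt.ci, Lt.d, Lt.bi] (pair_rel hinv hr (by decide +kernel)) h
        · exact mRel_good (T := T) (by decide) [Lt.b, Lt.f, Lt.bi, Lt.di, Lt.ci, Lt.d, Lt.c, Lt.d] [] (pair_rel hinv hr (by decide +kernel)) h
  · rcases brec_true h with h | h
    · rcases brec_true h with h | h
      · exact mRel_good (T := T) (by decide) [Lt.ei, Lt.bi, Lt.e, Lt.b, Lt.fi, Lt.ci, Lt.b, Lt.d] [Lt.bi, Lt.e] (pair_rel hinv hr (by decide +kernel)) h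
      · rcases brec_true h with h | h
        · exact mRel_good (T := T) (by decide) [Lt.bi, Lt.di, Lt.ci] [Lt.fi, Lt.bi, Lt.di, Lt.ci, Lt.di] (pair_rel hinv hr (by decide +kernel)) h
        · exact mRel_good (T := T) (by decide) [Lt.ei, Lt.c, Lt.f] [Lt.b, Lt.fi, Lt.bi, Lt.ei, Lt.c] (pair_rel hinv hr (by decide +kernel)) h
    · rcases brec_true h with h | h
      · exact mRel_good (T := T) (by decide) [Lt.di, Lt.ci, Lt.fi, Lt.c, Lt.d] [Lt.bi, Lt.d, Lt.b] (pair_rel hinv hr (by decide +kernel)) h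
      · rcases brec_true h with h | h
        · exact mRel_good (T := T) (by decide) [Lt.f, Lt.bi, Lt.bi, Lt.f, Lt.d, Lt.c] [Lt.c, Lt.b] (pair_rel hinv hr (by decide +kernel)) h
        · exact mRel_good (T := T) (by decide) [Lt.bi, Lt.ei, Lt.c, Lt.f] [Lt.fi, Lt.bi, Lt.ei, Lt.c] (pair_rel hinv hr (by decide +kernel)) h
theorem dM_126_s (hinv : ∀ x, g (inv x) = (g x)⁻¹) (hr : ∀ r ∈ rels, (r.map g).prod = 1) (j z1 z2 u : ℕ) (h : dM_126 j z1 z2 u = true) : GoodM (fa g) T MG M (cP g H) u := by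
  unfold dM_126 at h
  rcases brec_true h with h | h
  · exact dM_124_s hinv hr j z1 z2 u h
  · exact dM_125_s hinv hr j z1 z2 u h
theorem dM_127_s (hinv : ∀ x, g (inv x) = (g x)⁻¹) (hr : ∀ r ∈ rels, (r.map g).prod = 1) (j z1 z2 u : ℕ) (h : dM_127 j z1 z2 u = true) : GoodM (fa g) T MG M (cP g H) u := by
  unfold dM_127 at h
  rcases brec_true h with h | h
  · exact dM_123_s hinv hr j z1 z2 u h
  · exact dM_126_s hinv hr j z1 z2 u h
theorem dM_128_s (hinv : ∀ x, g (inv x) = (g x)⁻¹) (hr : ∀ r ∈ rels, (r.map g).prod = 1) (j z1 z2 u : ℕ) (h : dM_128 j z1 z2 u = true) : GoodM (fa g) T MG M (cP g H) u := by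
  unfold dM_128 at h
  rcases brec_true h with h | h
  · exact dM_120_s hinv hr j z1 z2 u h
  · exact dM_127_s hinv hr j z1 z2 u h
theorem dM_129_s (hinv : ∀ x, g (inv x) = (g x)⁻¹) (hr : ∀ r ∈ rels, (r.map g).prod = 1) (j z1 z2 u : ℕ) (h : dM_129 j z1 z2 u = true) : GoodM (fa g) T MG M (cP g H) u := by
  unfold dM_129 at h
  rcases brec_true h with h | h
  · rcases brec_true h with h | h
    · rcases brec_true h with h | h
      · exact mRel_good (T := T) (by decide) [Lt.bi, Lt.fi, Lt.ci, Lt.f] [Lt.b, Lt.f, Lt.bi, Lt.bi] (pair_rel hinv hr (by decide +kernel)) h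
      · exact mRel_good (T := T) (by decide) [Lt.e, Lt.bi, Lt.e, Lt.fi, Lt.ci, Lt.bi, Lt.ci, Lt.di, Lt.ei] [Lt.bi] (pair_rel hinv hr (by decide +kernel)) h
    · rcases brec_true h with h | h
      · exact mRel_good (T := T) (by decide) [Lt.b, Lt.b, Lt.di, Lt.c, Lt.d] [Lt.f, Lt.bi, Lt.c] (pair_rel hinv hr (by decide +kernel)) h
      · rcases brec_true h with h | h
        · exact mRel_good (T := T) (by decide) [Lt.di, Lt.fi, Lt.b, Lt.b, Lt.fi, Lt.c] [Lt.c, Lt.bi] (pair_rel hinv hr (by decide +kernel)) h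
        · exact mRel_good (T := T) (by decide) [Lt.bi, Lt.fi, Lt.c, Lt.f, Lt.b] [Lt.b, Lt.fi, Lt.bi] (pair_rel hinv hr (by decide +kernel)) h
  · rcases brec_true h with h | h
    · rcases brec_true h with h | h
      · exact mRel_good (T := T) (by decide) [Lt.fi, Lt.ci, Lt.ei, Lt.b, Lt.e, Lt.bi] [Lt.b, Lt.di, Lt.c, Lt.ei] (pair_rel hinv hr (by decide +kernel)) h
      · rcases brec_true h with h | h
        · exact mRel_good (T := T) (by decide) [Lt.c, Lt.f, Lt.bi] [Lt.b, Lt.d, Lt.ei, Lt.b, Lt.ei, Lt.bi, Lt.e] (pair_rel hinv hr (by decide +kernel)) h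
        · exact mRel_good (T := T) (by decide) [Lt.b, Lt.f, Lt.ci, Lt.ei, Lt.c] [Lt.e, Lt.b, Lt.f] (pair_rel hinv hr (by decide +kernel)) h
    · rcases brec_true h with h | h
      · exact mRel_good (T := T) (by decide) [Lt.di, Lt.ei] [Lt.c, Lt.b, Lt.c, Lt.f, Lt.ei, Lt.b, Lt.ei, Lt.bi] (pair_rel hinv hr (by decide +kernel)) h
      · rcases brec_true h with h | h
        · exact mRel_good (T := T) (by decide) [Lt.ci, Lt.b, Lt.d] [Lt.f, Lt.bi, Lt.ei, Lt.b, Lt.e, Lt.bi, Lt.e] (pair_rel hinv hr (by decide +kernel)) h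
        · exact mRel_good (T := T) (by decide) [Lt.f, Lt.b, Lt.di, Lt.c, Lt.ei, Lt.b, Lt.ei] [Lt.ci, Lt.ei, Lt.b] (pair_rel hinv hr (by decide +kernel)) h
theorem dM_130_s (hinv : ∀ x, g (inv x) = (g x)⁻¹) (hr : ∀ r ∈ rels, (r.map g).prod = 1) (j z1 z2 u : ℕ) (h : dM_130 j z1 z2 u = true) : GoodM (fa g) T MG M (cP g H) u := by
  unfold dM_130 at h
  rcases brec_true h with h | h
  · rcases brec_true h with h | h
    · rcases brec_true h with h | h
      · exact mRel_good (T := T) (by decide) [Lt.bi, Lt.e, Lt.b] [Lt.f, Lt.ci, Lt.ei, Lt.c, Lt.fi] (pair_rel hinv hr (by decide +kernel)) h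
      · rcases brec_true h with h | h
        · exact mRel_good (T := T) (by decide) [Lt.b, Lt.b, Lt.di] [Lt.ci, Lt.bi, Lt.ci, Lt.di, Lt.fi] (pair_rel hinv hr (by decide +kernel)) h
        · exact mRel_good (T := T) (by decide) [Lt.c, Lt.b, Lt.b, Lt.f, Lt.di] [Lt.f, Lt.di, Lt.bi] (pair_rel hinv hr (by decide +kernel)) h
    · rcases brec_true h with h | h
      · exact mRel_good (T := T) (by decide) [Lt.b, Lt.c, Lt.f, Lt.ei, Lt.b, Lt.ei, Lt.bi] [Lt.ci, Lt.di, Lt.ei] (pair_rel hinv hr (by decide +kernel)) h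
      · rcases brec_true h with h | h
        · exact mRel_good (T := T) (by decide) [Lt.c, Lt.fi, Lt.bi, Lt.e] [Lt.ei, Lt.c, Lt.fi, Lt.bi] (pair_rel hinv hr (by decide +kernel)) h
        · exact mRel_good (T := T) (by decide) [Lt.bi, Lt.ci, Lt.f, Lt.di, Lt.bi, Lt.d, Lt.fi, Lt.bi] [] (pair_rel hinv hr (by decide +kernel)) h
  · rcases brec_true h with h | h
    · rcases brec_true h with h | h
      · exact mRel_good (T := T) (by decide) [Lt.bi, Lt.ei, Lt.c, Lt.f, Lt.ci, Lt.e, Lt.b, Lt.f] [] (pair_rel hinv hr (by decide +kernel)) h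
      · rcases brec_true h with h | h
        · exact mRel_good (T := T) (by decide) [Lt.c, Lt.di, Lt.fi, Lt.c, Lt.fi, Lt.ci] [Lt.di, Lt.fi] (pair_rel hinv hr (by decide +kernel)) h
        · exact mRel_good (T := T) (by decide) [Lt.b, Lt.fi, Lt.bi] [Lt.bi, Lt.fi, Lt.c, Lt.f, Lt.b] (pair_rel hinv hr (by decide +kernel)) h
    · rcases brec_true h with h | h
      · exact mRel_good (T := T) (by decide) [Lt.ci, Lt.d, Lt.c, Lt.d] [Lt.d, Lt.b, Lt.fi, Lt.bi] (pair_rel hinv hr (by decide +kernel)) h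
      · rcases brec_true h with h | h
        · exact mRel_good (T := T) (by decide) [Lt.c] [Lt.fi, Lt.c, Lt.d, Lt.bi, Lt.di, Lt.b, Lt.di] (pair_rel hinv hr (by decide +kernel)) h
        · exact mRel_good (T := T) (by decide) [Lt.b, Lt.ci, Lt.di] [Lt.ci, Lt.f, Lt.bi, Lt.bi, Lt.f] (pair_rel hinv hr (by decide +kernel)) h
theorem dM_131_s (hinv : ∀ x, g (inv x) = (g x)⁻¹) (hr : ∀ r ∈ rels, (r.map g).prod = 1) (j z1 z2 u : ℕ) (h : dM_131 j z1 z2 u = true) : GoodM (fa g) T MG M (cP g H) u := by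
  unfold dM_131 at h
  rcases brec_true h with h | h
  · exact dM_129_s hinv hr j z1 z2 u h
  · exact dM_130_s hinv hr j z1 z2 u h
theorem dM_132_s (hinv : ∀ x, g (inv x) = (g x)⁻¹) (hr : ∀ r ∈ rels, (r.map g).prod = 1) (j z1 z2 u : ℕ) (h : dM_132 j z1 z2 u = true) : GoodM (fa g) T MG M (cP g H) u := by
  unfold dM_132 at h
  rcases brec_true h with h | h
  · rcases brec_true h with h | h
    · rcases brec_true h with h | h
      · exact mRel_good (T := T) (by decide) [Lt.ci, Lt.ei, Lt.c, Lt.fi, Lt.bi] [Lt.fi, Lt.bi, Lt.e] (pair_rel hinv hr (by decide +kernel)) h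
      · exact mRel_good (T := T) (by decide) [Lt.ci, Lt.d, Lt.bi, Lt.fi, Lt.ci] [Lt.ei, Lt.b, Lt.ei, Lt.bi, Lt.e] (pair_rel hinv hr (by decide +kernel)) h
    · rcases brec_true h with h | h
      · exact mRel_good (T := T) (by decide) [Lt.di, Lt.c, Lt.d] [Lt.bi, Lt.bi, Lt.f, Lt.bi, Lt.c] (pair_rel hinv hr (by decide +kernel)) h
      · rcases brec_true h with h | h
        · exact mRel_good (T := T) (by decide) [Lt.f, Lt.di, Lt.b, Lt.b] [Lt.di, Lt.b, Lt.b, Lt.di] (pair_rel hinv hr (by decide +kernel)) h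
        · exact mRel_good (T := T) (by decide) [Lt.di, Lt.ci, Lt.d, Lt.c, Lt.d, Lt.b, Lt.f, Lt.bi] [] (pair_rel hinv hr (by decide +kernel)) h
  · rcases brec_true h with h | h
    · rcases brec_true h with h | h
      · exact mRel_good (T := T) (by decide) [Lt.fi, Lt.c, Lt.f] [Lt.b, Lt.b, Lt.fi, Lt.bi, Lt.bi] (pair_rel hinv hr (by decide +kernel)) h
      · rcases brec_true h with h | h
        · exact mRel_good (T := T) (by decide) [Lt.c, Lt.d] [Lt.b, Lt.b, Lt.di, Lt.fi, Lt.ci, Lt.f, Lt.b] (pair_rel hinv hr (by decide +kernel)) h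
        · exact mRel_good (T := T) (by decide) [Lt.d, Lt.c, Lt.b, Lt.c, Lt.f, Lt.ei] [Lt.ei, Lt.b, Lt.e, Lt.bi] (pair_rel hinv hr (by decide +kernel)) h
    · rcases brec_true h with h | h
      · exact mRel_good (T := T) (by decide) [Lt.d, Lt.bi, Lt.fi, Lt.ci, Lt.ei, Lt.b, Lt.e, Lt.bi, Lt.e, Lt.ci] [] (pair_rel hinv hr (by decide +kernel)) h
      · rcases brec_true h with h | h
        · exact mRel_good (T := T) (by decide) [Lt.ei, Lt.c, Lt.fi] [Lt.b, Lt.f, Lt.bi, Lt.ei, Lt.c] (pair_rel hinv hr (by decide +kernel)) h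
        · exact mRel_good (T := T) (by decide) [Lt.c, Lt.di, Lt.fi, Lt.c, Lt.fi, Lt.ci, Lt.f] [Lt.di] (pair_rel hinv hr (by decide +kernel)) h
theorem dM_133_s (hinv : ∀ x, g (inv x) = (g x)⁻¹) (hr : ∀ r ∈ rels, (r.map g).prod = 1) (j z1 z2 u : ℕ) (h : dM_133 j z1 z2 u = true) : GoodM (fa g) T MG M (cP g H) u := by
  unfold dM_133 at h
  rcases brec_true h with h | h
  · rcases brec_true h with h | h
    · rcases brec_true h with h | h
      · exact mRel_good (T := T) (by decide) [Lt.d, Lt.c, Lt.di, Lt.ci, Lt.fi, Lt.ci, Lt.f, Lt.c] [] (pair_rel hinv hr (by decide +kernel)) h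
      · rcases brec_true h with h | h
        · exact mRel_good (T := T) (by decide) [Lt.f, Lt.c, Lt.d] [Lt.c, Lt.f, Lt.c, Lt.d, Lt.ci] (pair_rel hinv hr (by decide +kernel)) h
        · exact mRel_good (T := T) (by decide) [Lt.c, Lt.b, Lt.b, Lt.di, Lt.f] [Lt.bi, Lt.ci, Lt.di] (pair_rel hinv hr (by decide +kernel)) h
    · rcases brec_true h with h | h
      · exact mRel_good (T := T) (by decide) [Lt.f, Lt.ci, Lt.f] [Lt.ci, Lt.f, Lt.d, Lt.c, Lt.di] (pair_rel hinv hr (by decide +kernel)) h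
      · rcases brec_true h with h | h
        · exact mRel_good (T := T) (by decide) [Lt.bi, Lt.d, Lt.b, Lt.di, Lt.ci] [Lt.di, Lt.ci, Lt.fi] (pair_rel hinv hr (by decide +kernel)) h
        · exact mRel_good (T := T) (by decide) [Lt.c, Lt.f] [Lt.e, Lt.b, Lt.fi, Lt.bi, Lt.ei, Lt.c] (pair_rel hinv hr (by decide +kernel)) h
  · rcases brec_true h with h | h
    · rcases brec_true h with h | h
      · exact mRel_good (T := T) (by decide) [Lt.bi, Lt.e, Lt.di, Lt.bi, Lt.c, Lt.f, Lt.bi] [Lt.ei, Lt.bi, Lt.e] (pair_rel hinv hr (by decide +kernel)) h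
      · rcases brec_true h with h | h
        · exact mRel_good (T := T) (by decide) [Lt.ei, Lt.bi] [Lt.bi, Lt.e, Lt.di, Lt.bi, Lt.c, Lt.f, Lt.bi, Lt.ei] (pair_rel hinv hr (by decide +kernel)) h
        · exact mRel_good (T := T) (by decide) [Lt.e, Lt.c, Lt.fi] [Lt.c, Lt.fi, Lt.bi, Lt.ei, Lt.b] (pair_rel hinv hr (by decide +kernel)) h
    · rcases brec_true h with h | h
      · exact mRel_good (T := T) (by decide) [Lt.ci] [Lt.d, Lt.b, Lt.fi, Lt.bi, Lt.di, Lt.ci, Lt.di] (pair_rel hinv hr (by decide +kernel)) h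
      · rcases brec_true h with h | h
        · exact mRel_good (T := T) (by decide) [Lt.c, Lt.d, Lt.b, Lt.f, Lt.bi, Lt.di] [Lt.di, Lt.c] (pair_rel hinv hr (by decide +kernel)) h
        · exact mRel_good (T := T) (by decide) [Lt.fi, Lt.di, Lt.b, Lt.b, Lt.di, Lt.bi] [Lt.di, Lt.b] (pair_rel hinv hr (by decide +kernel)) h
theorem dM_134_s (hinv : ∀ x, g (inv x) = (g x)⁻¹) (hr : ∀ r ∈ rels, (r.map g).prod = 1) (j z1 z2 u : ℕ) (h : dM_134 j z1 z2 u = true) : GoodM (fa g) T MG M (cP g H) u := by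
  unfold dM_134 at h
  rcases brec_true h with h | h
  · exact dM_132_s hinv hr j z1 z2 u h
  · exact dM_133_s hinv hr j z1 z2 u h
theorem dM_135_s (hinv : ∀ x, g (inv x) = (g x)⁻¹) (hr : ∀ r ∈ rels, (r.map g).prod = 1) (j z1 z2 u : ℕ) (h : dM_135 j z1 z2 u = true) : GoodM (fa g) T MG M (cP g H) u := by
  unfold dM_135 at h
  rcases brec_true h with h | h
  · exact dM_131_s hinv hr j z1 z2 u h
  · exact dM_134_s hinv hr j z1 z2 u h
theorem dM_136_s (hinv : ∀ x, g (inv x) = (g x)⁻¹) (hr : ∀ r ∈ rels, (r.map g).prod = 1) (j z1 z2 u : ℕ) (h : dM_136 j z1 z2 u = true) : GoodM (fa g) T MG M (cP g H) u := by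
  unfold dM_136 at h
  rcases brec_true h with h | h
  · rcases brec_true h with h | h
    · rcases brec_true h with h | h
      · exact mRel_good (T := T) (by decide) [Lt.bi, Lt.bi, Lt.d, Lt.fi, Lt.di, Lt.b, Lt.b, Lt.di] [] (pair_rel hinv hr (by decide +kernel)) h
      · exact mRel_good (T := T) (by decide) [Lt.f, Lt.di] [Lt.di, Lt.b, Lt.b, Lt.di, Lt.bi, Lt.bi] (pair_rel hinv hr (by decide +kernel)) h
    · rcases brec_true h with h | h
      · exact mRel_good (T := T) (by decide) [Lt.d, Lt.f, Lt.di, Lt.b, Lt.b, Lt.d] [Lt.b, Lt.b] (pair_rel hinv hr (by decide +kernel)) h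
      · rcases brec_true h with h | h
        · exact mRel_good (T := T) (by decide) [Lt.bi, Lt.d, Lt.f, Lt.di, Lt.b] [Lt.b, Lt.di, Lt.bi] (pair_rel hinv hr (by decide +kernel)) h
        · exact mRel_good (T := T) (by decide) [Lt.ci, Lt.f, Lt.bi, Lt.bi, Lt.f, Lt.d] [Lt.b, Lt.ci] (pair_rel hinv hr (by decide +kernel)) h
  · rcases brec_true h with h | h
    · rcases brec_true h with h | h
      · exact mRel_good (T := T) (by decide) [Lt.bi, Lt.c, Lt.di, Lt.ci, Lt.d, Lt.bi] [Lt.fi, Lt.b] (pair_rel hinv hr (by decide +kernel)) h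
      · rcases brec_true h with h | h
        · exact mRel_good (T := T) (by decide) [Lt.d, Lt.bi, Lt.bi] [Lt.bi, Lt.bi, Lt.d, Lt.fi, Lt.di] (pair_rel hinv hr (by decide +kernel)) h
        · exact mRel_good (T := T) (by decide) [Lt.b, Lt.di] [Lt.di, Lt.b, Lt.di, Lt.ci, Lt.fi, Lt.c] (pair_rel hinv hr (by decide +kernel)) h
    · rcases brec_true h with h | h
      · exact mRel_good (T := T) (by decide) [Lt.b, Lt.di, Lt.ci, Lt.fi] [Lt.d, Lt.b, Lt.di, Lt.ci] (pair_rel hinv hr (by decide +kernel)) h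
      · rcases brec_true h with h | h
        · exact mRel_good (T := T) (by decide) [Lt.c, Lt.di, Lt.ci, Lt.d, Lt.ci] [Lt.di, Lt.fi, Lt.d] (pair_rel hinv hr (by decide +kernel)) h
        · exact mRel_good (T := T) (by decide) [Lt.b] [Lt.bi, Lt.ci, Lt.bi, Lt.ci, Lt.di, Lt.fi, Lt.d] (pair_rel hinv hr (by decide +kernel)) h
theorem dM_137_s (hinv : ∀ x, g (inv x) = (g x)⁻¹) (hr : ∀ r ∈ rels, (r.map g).prod = 1) (j z1 z2 u : ℕ) (h : dM_137 j z1 z2 u = true) : GoodM (fa g) T MG M (cP g H) u := by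
  unfold dM_137 at h
  rcases brec_true h with h | h
  · rcases brec_true h with h | h
    · rcases brec_true h with h | h
      · exact mRel_good (T := T) (by decide) [Lt.b, Lt.b, Lt.di, Lt.f, Lt.d, Lt.c, Lt.b, Lt.c] [] (pair_rel hinv hr (by decide +kernel)) h
      · rcases brec_true h with h | h
        · exact mRel_good (T := T) (by decide) [Lt.f, Lt.bi, Lt.c, Lt.di, Lt.ci] [Lt.b, Lt.b, Lt.di] (pair_rel hinv hr (by decide +kernel)) h
        · exact mRel_good (T := T) (by decide) [Lt.fi, Lt.c, Lt.f, Lt.ci, Lt.f, Lt.d, Lt.ci] [Lt.d] (pair_rel hinv hr (by decide +kernel)) h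
    · rcases brec_true h with h | h
      · exact mRel_good (T := T) (by decide) [Lt.d, Lt.fi, Lt.di, Lt.b, Lt.b, Lt.di] [Lt.b, Lt.b] (pair_rel hinv hr (by decide +kernel)) h
      · rcases brec_true h with h | h
        · exact mRel_good (T := T) (by decide) [Lt.b, Lt.f, Lt.bi, Lt.ei, Lt.c, Lt.f] [Lt.ei, Lt.c] (pair_rel hinv hr (by decide +kernel)) h
        · exact mRel_good (T := T) (by decide) [Lt.bi, Lt.d, Lt.fi, Lt.di, Lt.b, Lt.b] [Lt.b, Lt.d] (pair_rel hinv hr (by decide +kernel)) h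
  · rcases brec_true h with h | h
    · rcases brec_true h with h | h
      · exact mRel_good (T := T) (by decide) [Lt.bi, Lt.f, Lt.d, Lt.c, Lt.bi, Lt.ci] [Lt.b, Lt.fi] (pair_rel hinv hr (by decide +kernel)) h
      · rcases brec_true h with h | h
        · exact mRel_good (T := T) (by decide) [Lt.di, Lt.bi, Lt.c, Lt.f, Lt.bi, Lt.ei, Lt.b, Lt.e, Lt.bi] [Lt.ei] (pair_rel hinv hr (by decide +kernel)) h
        · exact mRel_good (T := T) (by decide) [Lt.bi, Lt.c, Lt.f, Lt.bi, Lt.ei] [Lt.d, Lt.ei, Lt.b, Lt.ei, Lt.bi] (pair_rel hinv hr (by decide +kernel)) h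
    · rcases brec_true h with h | h
      · exact mRel_good (T := T) (by decide) [Lt.c, Lt.d, Lt.b, Lt.f, Lt.bi] [Lt.di, Lt.c, Lt.d] (pair_rel hinv hr (by decide +kernel)) h
      · rcases brec_true h with h | h
        · exact mRel_good (T := T) (by decide) [Lt.bi, Lt.bi, Lt.d, Lt.f, Lt.di, Lt.b, Lt.b, Lt.d] [] (pair_rel hinv hr (by decide +kernel)) h
        · exact mRel_good (T := T) (by decide) [Lt.b, Lt.di] [Lt.d, Lt.b, Lt.di, Lt.ci, Lt.f, Lt.c] (pair_rel hinv hr (by decide +kernel)) h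
theorem dM_138_s (hinv : ∀ x, g (inv x) = (g x)⁻¹) (hr : ∀ r ∈ rels, (r.map g).prod = 1) (j z1 z2 u : ℕ) (h : dM_138 j z1 z2 u = true) : GoodM (fa g) T MG M (cP g H) u := by
  unfold dM_138 at h
  rcases brec_true h with h | h
  · exact dM_136_s hinv hr j z1 z2 u h
  · exact dM_137_s hinv hr j z1 z2 u h
theorem dM_139_s (hinv : ∀ x, g (inv x) = (g x)⁻¹) (hr : ∀ r ∈ rels, (r.map g).prod = 1) (j z1 z2 u : ℕ) (h : dM_139 j z1 z2 u = true) : GoodM (fa g) T MG M (cP g H) u := by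
  unfold dM_139 at h
  rcases brec_true h with h | h
  · rcases brec_true h with h | h
    · rcases brec_true h with h | h
      · exact mRel_good (T := T) (by decide) [Lt.b, Lt.di, Lt.bi, Lt.bi, Lt.d] [Lt.bi, Lt.d, Lt.f] (pair_rel hinv hr (by decide +kernel)) h
      · rcases brec_true h with h | h
        · exact mRel_good (T := T) (by decide) [Lt.bi, Lt.bi, Lt.d, Lt.f, Lt.di] [Lt.di, Lt.bi, Lt.bi] (pair_rel hinv hr (by decide +kernel)) h
        · exact mRel_good (T := T) (by decide) [Lt.b, Lt.fi, Lt.bi, Lt.ei, Lt.c] [Lt.ei, Lt.c, Lt.f] (pair_rel hinv hr (by decide +kernel)) h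
    · rcases brec_true h with h | h
      · exact mRel_good (T := T) (by decide) [Lt.d, Lt.c, Lt.b] [Lt.fi, Lt.d, Lt.bi, Lt.bi, Lt.ci] (pair_rel hinv hr (by decide +kernel)) h
      · rcases brec_true h with h | h
        · exact mRel_good (T := T) (by decide) [Lt.di, Lt.c, Lt.d, Lt.b, Lt.fi, Lt.bi] [Lt.c, Lt.d] (pair_rel hinv hr (by decide +kernel)) h
        · exact mRel_good (T := T) (by decide) [Lt.ci, Lt.di, Lt.f, Lt.d, Lt.c] [Lt.di, Lt.c, Lt.d] (pair_rel hinv hr (by decide +kernel)) h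
  · rcases brec_true h with h | h
    · rcases brec_true h with h | h
      · exact mRel_good (T := T) (by decide) [Lt.d, Lt.ci, Lt.b, Lt.fi, Lt.b, Lt.b, Lt.di, Lt.c] [] (pair_rel hinv hr (by decide +kernel)) h
      · rcases brec_true h with h | h
        · exact mRel_good (T := T) (by decide) [Lt.ci, Lt.f] [Lt.d, Lt.bi, Lt.di, Lt.b, Lt.di, Lt.ci] (pair_rel hinv hr (by decide +kernel)) h
        · exact mRel_good (T := T) (by decide) [Lt.di, Lt.fi, Lt.c, Lt.fi, Lt.ci, Lt.f, Lt.d] [Lt.ci] (pair_rel hinv hr (by decide +kernel)) h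
    · rcases brec_true h with h | h
      · exact mRel_good (T := T) (by decide) [Lt.d, Lt.ci] [Lt.ci, Lt.d, Lt.bi, Lt.bi, Lt.f, Lt.bi] (pair_rel hinv hr (by decide +kernel)) h
      · rcases brec_true h with h | h
        · exact mRel_good (T := T) (by decide) [Lt.fi, Lt.ci, Lt.ei, Lt.b, Lt.e, Lt.bi, Lt.e, Lt.ci] [Lt.b, Lt.di] (pair_rel hinv hr (by decide +kernel)) h
        · exact mRel_good (T := T) (by decide) [Lt.fi, Lt.bi, Lt.di] [Lt.bi, Lt.di, Lt.ci, Lt.d, Lt.c] (pair_rel hinv hr (by decide +kernel)) h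
theorem dM_140_s (hinv : ∀ x, g (inv x) = (g x)⁻¹) (hr : ∀ r ∈ rels, (r.map g).prod = 1) (j z1 z2 u : ℕ) (h : dM_140 j z1 z2 u = true) : GoodM (fa g) T MG M (cP g H) u := by
  unfold dM_140 at h
  rcases brec_true h with h | h
  · rcases brec_true h with h | h
    · rcases brec_true h with h | h
      · exact mRel_good (T := T) (by decide) [Lt.b, Lt.fi, Lt.bi, Lt.bi] [Lt.bi, Lt.fi, Lt.c, Lt.f] (pair_rel hinv hr (by decide +kernel)) h
      · rcases brec_true h with h | h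
        · exact mRel_good (T := T) (by decide) [Lt.b, Lt.ei, Lt.bi] [Lt.e, Lt.di, Lt.bi, Lt.c, Lt.f, Lt.bi, Lt.ei] (pair_rel hinv hr (by decide +kernel)) h
        · exact mRel_good (T := T) (by decide) [Lt.b, Lt.f, Lt.bi, Lt.bi, Lt.fi, Lt.c, Lt.f] [Lt.bi] (pair_rel hinv hr (by decide +kernel)) h
    · rcases brec_true h with h | h
      · exact mRel_good (T := T) (by decide) [Lt.di, Lt.b, Lt.d, Lt.fi, Lt.c, Lt.b, Lt.b, Lt.f] [] (pair_rel hinv hr (by decide +kernel)) h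
      · rcases brec_true h with h | h
        · exact mRel_good (T := T) (by decide) [Lt.bi, Lt.di, Lt.b, Lt.di, Lt.ci, Lt.fi] [Lt.di, Lt.ci] (pair_rel hinv hr (by decide +kernel)) h
        · exact mRel_good (T := T) (by decide) [Lt.f, Lt.b, Lt.b, Lt.fi, Lt.bi, Lt.bi] [Lt.c, Lt.f] (pair_rel hinv hr (by decide +kernel)) h
  · rcases brec_true h with h | h
    · rcases brec_true h with h | h
      · exact mRel_good (T := T) (by decide) [Lt.d, Lt.ci, Lt.di, Lt.f, Lt.d, Lt.c, Lt.di, Lt.ci] [] (pair_rel hinv hr (by decide +kernel)) h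
      · rcases brec_true h with h | h
        · exact mRel_good (T := T) (by decide) [Lt.c, Lt.f, Lt.b, Lt.di, Lt.c, Lt.ei, Lt.b, Lt.ei, Lt.bi] [Lt.ei] (pair_rel hinv hr (by decide +kernel)) h
        · exact mRel_good (T := T) (by decide) [Lt.f, Lt.ci, Lt.ei, Lt.c, Lt.fi, Lt.bi, Lt.ei] [Lt.bi] (pair_rel hinv hr (by decide +kernel)) h
    · rcases brec_true h with h | h
      · exact mRel_good (T := T) (by decide) [Lt.f, Lt.bi, Lt.ei, Lt.c, Lt.f, Lt.ci] [Lt.bi, Lt.ei] (pair_rel hinv hr (by decide +kernel)) h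
      · rcases brec_true h with h | h
        · exact mRel_good (T := T) (by decide) [Lt.f, Lt.d, Lt.c, Lt.b, Lt.c] [Lt.d, Lt.bi, Lt.bi] (pair_rel hinv hr (by decide +kernel)) h
        · exact mRel_good (T := T) (by decide) [Lt.ci, Lt.e] [Lt.f, Lt.ci, Lt.e, Lt.b, Lt.f, Lt.bi] (pair_rel hinv hr (by decide +kernel)) h
theorem dM_141_s (hinv : ∀ x, g (inv x) = (g x)⁻¹) (hr : ∀ r ∈ rels, (r.map g).prod = 1) (j z1 z2 u : ℕ) (h : dM_141 j z1 z2 u = true) : GoodM (fa g) T MG M (cP g H) u := by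
  unfold dM_141 at h
  rcases brec_true h with h | h
  · exact dM_139_s hinv hr j z1 z2 u h
  · exact dM_140_s hinv hr j z1 z2 u h
theorem dM_142_s (hinv : ∀ x, g (inv x) = (g x)⁻¹) (hr : ∀ r ∈ rels, (r.map g).prod = 1) (j z1 z2 u : ℕ) (h : dM_142 j z1 z2 u = true) : GoodM (fa g) T MG M (cP g H) u := by
  unfold dM_142 at h
  rcases brec_true h with h | h
  · exact dM_138_s hinv hr j z1 z2 u h
  · exact dM_141_s hinv hr j z1 z2 u h
theorem dM_143_s (hinv : ∀ x, g (inv x) = (g x)⁻¹) (hr : ∀ r ∈ rels, (r.map g).prod = 1) (j z1 z2 u : ℕ) (h : dM_143 j z1 z2 u = true) : GoodM (fa g) T MG M (cP g H) u := by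
  unfold dM_143 at h
  rcases brec_true h with h | h
  · exact dM_135_s hinv hr j z1 z2 u h
  · exact dM_142_s hinv hr j z1 z2 u h
theorem dM_144_s (hinv : ∀ x, g (inv x) = (g x)⁻¹) (hr : ∀ r ∈ rels, (r.map g).prod = 1) (j z1 z2 u : ℕ) (h : dM_144 j z1 z2 u = true) : GoodM (fa g) T MG M (cP g H) u := by
  unfold dM_144 at h
  rcases brec_true h with h | h
  · exact dM_128_s hinv hr j z1 z2 u h
  · exact dM_143_s hinv hr j z1 z2 u h
theorem dM_145_s (hinv : ∀ x, g (inv x) = (g x)⁻¹) (hr : ∀ r ∈ rels, (r.map g).prod = 1) (j z1 z2 u : ℕ) (h : dM_145 j z1 z2 u = true) : GoodM (fa g) T MG M (cP g H) u := by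
  unfold dM_145 at h
  rcases brec_true h with h | h
  · rcases brec_true h with h | h
    · rcases brec_true h with h | h
      · exact mRel_good (T := T) (by decide) [Lt.fi, Lt.ci, Lt.f, Lt.b, Lt.b] [Lt.b, Lt.b, Lt.f] (pair_rel hinv hr (by decide +kernel)) h
      · exact mRel_good (T := T) (by decide) [Lt.di] [Lt.ei, Lt.b, Lt.ei, Lt.bi, Lt.e, Lt.b, Lt.fi, Lt.ci, Lt.b] (pair_rel hinv hr (by decide +kernel)) h
    · rcases brec_true h with h | h
      · exact mRel_good (T := T) (by decide) [Lt.d, Lt.bi, Lt.d, Lt.b, Lt.di, Lt.ci] [Lt.ci, Lt.fi] (pair_rel hinv hr (by decide +kernel)) h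
      · rcases brec_true h with h | h
        · exact mRel_good (T := T) (by decide) [Lt.b, Lt.b, Lt.fi, Lt.bi, Lt.bi] [Lt.fi, Lt.c, Lt.f] (pair_rel hinv hr (by decide +kernel)) h
        · exact mRel_good (T := T) (by decide) [Lt.f, Lt.bi, Lt.ei, Lt.c] [Lt.bi, Lt.ei, Lt.c, Lt.fi] (pair_rel hinv hr (by decide +kernel)) h
  · rcases brec_true h with h | h
    · rcases brec_true h with h | h
      · exact mRel_good (T := T) (by decide) [Lt.di, Lt.f, Lt.d, Lt.c, Lt.b, Lt.c, Lt.b, Lt.b] [] (pair_rel hinv hr (by decide +kernel)) h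
      · rcases brec_true h with h | h
        · exact mRel_good (T := T) (by decide) [Lt.bi, Lt.f] [Lt.b, Lt.di, Lt.c, Lt.d, Lt.ci, Lt.b] (pair_rel hinv hr (by decide +kernel)) h
        · exact mRel_good (T := T) (by decide) [Lt.bi, Lt.di, Lt.ci, Lt.di, Lt.c, Lt.d, Lt.b] [Lt.f] (pair_rel hinv hr (by decide +kernel)) h
    · rcases brec_true h with h | h
      · exact mRel_good (T := T) (by decide) [Lt.d, Lt.b, Lt.f, Lt.bi] [Lt.ci, Lt.di, Lt.c, Lt.d] (pair_rel hinv hr (by decide +kernel)) h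
      · rcases brec_true h with h | h
        · exact mRel_good (T := T) (by decide) [Lt.ci] [Lt.d, Lt.ci, Lt.di, Lt.fi, Lt.d, Lt.c, Lt.di] (pair_rel hinv hr (by decide +kernel)) h
        · exact mRel_good (T := T) (by decide) [Lt.b, Lt.b, Lt.b, Lt.fi, Lt.c] [Lt.c, Lt.f, Lt.bi, Lt.f] (pair_rel hinv hr (by decide +kernel)) h
theorem dM_146_s (hinv : ∀ x, g (inv x) = (g x)⁻¹) (hr : ∀ r ∈ rels, (r.map g).prod = 1) (j z1 z2 u : ℕ) (h : dM_146 j z1 z2 u = true) : GoodM (fa g) T MG M (cP g H) u := by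
  unfold dM_146 at h
  rcases brec_true h with h | h
  · rcases brec_true h with h | h
    · rcases brec_true h with h | h
      · exact mRel_good (T := T) (by decide) [Lt.bi, Lt.d, Lt.f, Lt.di, Lt.b, Lt.b] [Lt.b, Lt.di] (pair_rel hinv hr (by decide +kernel)) h
      · rcases brec_true h with h | h
        · exact mRel_good (T := T) (by decide) [Lt.ei, Lt.b] [Lt.b, Lt.fi, Lt.ci, Lt.b, Lt.d, Lt.ei, Lt.b, Lt.ei] (pair_rel hinv hr (by decide +kernel)) h
        · exact mRel_good (T := T) (by decide) [Lt.f, Lt.ci, Lt.f, Lt.d, Lt.ci] [Lt.ci, Lt.f, Lt.d] (pair_rel hinv hr (by decide +kernel)) h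
    · rcases brec_true h with h | h
      · exact mRel_good (T := T) (by decide) [Lt.c] [Lt.f, Lt.d, Lt.c, Lt.di, Lt.fi, Lt.c, Lt.fi] (pair_rel hinv hr (by decide +kernel)) h
      · rcases brec_true h with h | h
        · exact mRel_good (T := T) (by decide) [Lt.bi, Lt.bi, Lt.ci, Lt.f, Lt.di] [Lt.f, Lt.di, Lt.b] (pair_rel hinv hr (by decide +kernel)) h
        · exact mRel_good (T := T) (by decide) [Lt.f, Lt.ci, Lt.ei, Lt.c, Lt.fi, Lt.bi] [Lt.bi, Lt.e] (pair_rel hinv hr (by decide +kernel)) h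
  · rcases brec_true h with h | h
    · rcases brec_true h with h | h
      · exact mRel_good (T := T) (by decide) [Lt.d, Lt.bi, Lt.bi, Lt.f, Lt.bi, Lt.c, Lt.di] [Lt.c] (pair_rel hinv hr (by decide +kernel)) h
      · rcases brec_true h with h | h
        · exact mRel_good (T := T) (by decide) [Lt.fi, Lt.bi, Lt.bi, Lt.ci, Lt.f] [Lt.di, Lt.b, Lt.d] (pair_rel hinv hr (by decide +kernel)) h
        · exact mRel_good (T := T) (by decide) [Lt.fi, Lt.di, Lt.b, Lt.b] [Lt.di, Lt.b, Lt.b, Lt.d] (pair_rel hinv hr (by decide +kernel)) h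
    · rcases brec_true h with h | h
      · exact mRel_good (T := T) (by decide) [Lt.di, Lt.bi, Lt.d, Lt.fi] [Lt.fi, Lt.c, Lt.b, Lt.b] (pair_rel hinv hr (by decide +kernel)) h
      · rcases brec_true h with h | h
        · exact mRel_good (T := T) (by decide) [Lt.f, Lt.d, Lt.ci, Lt.di, Lt.fi, Lt.c] [Lt.c, Lt.fi] (pair_rel hinv hr (by decide +kernel)) h
        · exact mRel_good (T := T) (by decide) [Lt.c, Lt.f, Lt.bi, Lt.ei, Lt.b] [Lt.b, Lt.d, Lt.ei, Lt.b, Lt.ei] (pair_rel hinv hr (by decide +kernel)) h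
theorem dM_147_s (hinv : ∀ x, g (inv x) = (g x)⁻¹) (hr : ∀ r ∈ rels, (r.map g).prod = 1) (j z1 z2 u : ℕ) (h : dM_147 j z1 z2 u = true) : GoodM (fa g) T MG M (cP g H) u := by
  unfold dM_147 at h
  rcases brec_true h with h | h
  · exact dM_145_s hinv hr j z1 z2 u h
  · exact dM_146_s hinv hr j z1 z2 u h
theorem dM_148_s (hinv : ∀ x, g (inv x) = (g x)⁻¹) (hr : ∀ r ∈ rels, (r.map g).prod = 1) (j z1 z2 u : ℕ) (h : dM_148 j z1 z2 u = true) : GoodM (fa g) T MG M (cP g H) u := by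
  unfold dM_148 at h
  rcases brec_true h with h | h
  · rcases brec_true h with h | h
    · rcases brec_true h with h | h
      · exact mRel_good (T := T) (by decide) [Lt.bi, Lt.bi, Lt.fi] [Lt.fi, Lt.bi, Lt.bi, Lt.fi, Lt.ci] (pair_rel hinv hr (by decide +kernel)) h
      · exact mRel_good (T := T) (by decide) [Lt.bi, Lt.bi, Lt.d, Lt.fi, Lt.di, Lt.b] [Lt.d, Lt.bi] (pair_rel hinv hr (by decide +kernel)) h
    · rcases brec_true h with h | h
      · exact mRel_good (T := T) (by decide) [Lt.f, Lt.ei, Lt.b] [Lt.ci, Lt.bi, Lt.ci, Lt.di, Lt.ei, Lt.b, Lt.e] (pair_rel hinv hr (by decide +kernel)) h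
      · rcases brec_true h with h | h
        · exact mRel_good (T := T) (by decide) [Lt.bi, Lt.fi, Lt.c] [Lt.b, Lt.fi, Lt.bi, Lt.bi, Lt.fi] (pair_rel hinv hr (by decide +kernel)) h
        · exact mRel_good (T := T) (by decide) [Lt.d, Lt.c, Lt.bi, Lt.ci] [Lt.fi, Lt.b, Lt.b, Lt.fi] (pair_rel hinv hr (by decide +kernel)) h
  · rcases brec_true h with h | h
    · rcases brec_true h with h | h
      · exact mRel_good (T := T) (by decide) [Lt.f, Lt.bi, Lt.bi] [Lt.bi, Lt.bi, Lt.fi, Lt.ci, Lt.f] (pair_rel hinv hr (by decide +kernel)) h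
      · rcases brec_true h with h | h
        · exact mRel_good (T := T) (by decide) [Lt.d, Lt.c, Lt.b, Lt.c] [Lt.fi, Lt.d, Lt.bi, Lt.bi] (pair_rel hinv hr (by decide +kernel)) h
        · exact mRel_good (T := T) (by decide) [Lt.fi, Lt.c, Lt.fi, Lt.ci, Lt.f, Lt.d, Lt.c, Lt.di] [] (pair_rel hinv hr (by decide +kernel)) h
    · rcases brec_true h with h | h
      · exact mRel_good (T := T) (by decide) [Lt.bi, Lt.bi, Lt.ci, Lt.bi] [Lt.di, Lt.f, Lt.d, Lt.c] (pair_rel hinv hr (by decide +kernel)) h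
      · rcases brec_true h with h | h
        · exact mRel_good (T := T) (by decide) [Lt.di, Lt.fi, Lt.c, Lt.f, Lt.ci] [Lt.c, Lt.di, Lt.fi] (pair_rel hinv hr (by decide +kernel)) h
        · exact mRel_good (T := T) (by decide) [Lt.fi, Lt.ci, Lt.e, Lt.b, Lt.fi, Lt.bi] [Lt.ci, Lt.e] (pair_rel hinv hr (by decide +kernel)) h
theorem dM_149_s (hinv : ∀ x, g (inv x) = (g x)⁻¹) (hr : ∀ r ∈ rels, (r.map g).prod = 1) (j z1 z2 u : ℕ) (h : dM_149 j z1 z2 u = true) : GoodM (fa g) T MG M (cP g H) u := by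
  unfold dM_149 at h
  rcases brec_true h with h | h
  · rcases brec_true h with h | h
    · rcases brec_true h with h | h
      · exact mRel_good (T := T) (by decide) [Lt.f, Lt.bi, Lt.bi, Lt.f] [Lt.c, Lt.b, Lt.ci, Lt.di] (pair_rel hinv hr (by decide +kernel)) h
      · rcases brec_true h with h | h
        · exact mRel_good (T := T) (by decide) [Lt.bi, Lt.bi, Lt.d, Lt.fi, Lt.di] [Lt.d, Lt.bi, Lt.bi] (pair_rel hinv hr (by decide +kernel)) h
        · exact mRel_good (T := T) (by decide) [Lt.d, Lt.ci] [Lt.ci, Lt.fi, Lt.ci, Lt.f, Lt.c, Lt.d] (pair_rel hinv hr (by decide +kernel)) h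
    · rcases brec_true h with h | h
      · exact mRel_good (T := T) (by decide) [Lt.ei, Lt.bi, Lt.e, Lt.b, Lt.fi, Lt.ci, Lt.b] [Lt.bi, Lt.e, Lt.di] (pair_rel hinv hr (by decide +kernel)) h
      · rcases brec_true h with h | h
        · exact mRel_good (T := T) (by decide) [Lt.b, Lt.fi, Lt.bi, Lt.bi, Lt.fi, Lt.ci] [Lt.bi, Lt.fi] (pair_rel hinv hr (by decide +kernel)) h
        · exact mRel_good (T := T) (by decide) [Lt.bi, Lt.c, Lt.f, Lt.bi, Lt.f, Lt.ci] [Lt.b, Lt.b, Lt.fi] (pair_rel hinv hr (by decide +kernel)) h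
  · rcases brec_true h with h | h
    · rcases brec_true h with h | h
      · exact mRel_good (T := T) (by decide) [Lt.ci, Lt.e, Lt.b, Lt.fi, Lt.bi, Lt.ei, Lt.c, Lt.fi] [] (pair_rel hinv hr (by decide +kernel)) h
      · rcases brec_true h with h | h
        · exact mRel_good (T := T) (by decide) [Lt.f, Lt.d, Lt.c, Lt.bi, Lt.ci, Lt.f, Lt.bi, Lt.bi] [] (pair_rel hinv hr (by decide +kernel)) h
        · exact mRel_good (T := T) (by decide) [Lt.di, Lt.c, Lt.ei, Lt.b, Lt.ei] [Lt.bi, Lt.fi, Lt.ci, Lt.ei, Lt.b] (pair_rel hinv hr (by decide +kernel)) h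
    · rcases brec_true h with h | h
      · exact mRel_good (T := T) (by decide) [Lt.d, Lt.bi, Lt.fi, Lt.ci, Lt.ei, Lt.b, Lt.e, Lt.bi] [Lt.c, Lt.ei] (pair_rel hinv hr (by decide +kernel)) h
      · rcases brec_true h with h | h
        · exact mRel_good (T := T) (by decide) [Lt.bi, Lt.e, Lt.b, Lt.fi, Lt.ci, Lt.b] [Lt.e, Lt.bi, Lt.e, Lt.di] (pair_rel hinv hr (by decide +kernel)) h
        · exact mRel_good (T := T) (by decide) [Lt.c, Lt.d, Lt.bi, Lt.d, Lt.b, Lt.di] [Lt.fi, Lt.c] (pair_rel hinv hr (by decide +kernel)) h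
theorem dM_150_s (hinv : ∀ x, g (inv x) = (g x)⁻¹) (hr : ∀ r ∈ rels, (r.map g).prod = 1) (j z1 z2 u : ℕ) (h : dM_150 j z1 z2 u = true) : GoodM (fa g) T MG M (cP g H) u := by
  unfold dM_150 at h
  rcases brec_true h with h | h
  · exact dM_148_s hinv hr j z1 z2 u h
  · exact dM_149_s hinv hr j z1 z2 u h
theorem dM_151_s (hinv : ∀ x, g (inv x) = (g x)⁻¹) (hr : ∀ r ∈ rels, (r.map g).prod = 1) (j z1 z2 u : ℕ) (h : dM_151 j z1 z2 u = true) : GoodM (fa g) T MG M (cP g H) u := by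
  unfold dM_151 at h
  rcases brec_true h with h | h
  · exact dM_147_s hinv hr j z1 z2 u h
  · exact dM_150_s hinv hr j z1 z2 u h
theorem dM_152_s (hinv : ∀ x, g (inv x) = (g x)⁻¹) (hr : ∀ r ∈ rels, (r.map g).prod = 1) (j z1 z2 u : ℕ) (h : dM_152 j z1 z2 u = true) : GoodM (fa g) T MG M (cP g H) u := by
  unfold dM_152 at h
  rcases brec_true h with h | h
  · rcases brec_true h with h | h
    · rcases brec_true h with h | h
      · exact mRel_good (T := T) (by decide) [Lt.f, Lt.ci, Lt.b] [Lt.ci, Lt.b, Lt.c, Lt.f, Lt.ci, Lt.bi, Lt.bi] (pair_rel hinv hr (by decide +kernel)) h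
      · exact mRel_good (T := T) (by decide) [Lt.b, Lt.b, Lt.fi, Lt.c] [Lt.f, Lt.d, Lt.c, Lt.bi] (pair_rel hinv hr (by decide +kernel)) h
    · rcases brec_true h with h | h
      · exact mRel_good (T := T) (by decide) [Lt.b, Lt.c, Lt.f, Lt.ei, Lt.b, Lt.ei, Lt.bi, Lt.e] [Lt.ci, Lt.di] (pair_rel hinv hr (by decide +kernel)) h
      · rcases brec_true h with h | h
        · exact mRel_good (T := T) (by decide) [Lt.bi, Lt.ei, Lt.b, Lt.f, Lt.ci] [Lt.f, Lt.ci, Lt.e] (pair_rel hinv hr (by decide +kernel)) h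
        · exact mRel_good (T := T) (by decide) [Lt.bi, Lt.ci, Lt.f, Lt.bi, Lt.bi] [Lt.ci, Lt.di, Lt.fi] (pair_rel hinv hr (by decide +kernel)) h
  · rcases brec_true h with h | h
    · rcases brec_true h with h | h
      · exact mRel_good (T := T) (by decide) [Lt.bi, Lt.d, Lt.fi, Lt.di] [Lt.b, Lt.d, Lt.bi, Lt.bi] (pair_rel hinv hr (by decide +kernel)) h
      · rcases brec_true h with h | h
        · exact mRel_good (T := T) (by decide) [Lt.f, Lt.bi, Lt.ei] [Lt.ci, Lt.b, Lt.d, Lt.ei, Lt.b, Lt.ei, Lt.bi] (pair_rel hinv hr (by decide +kernel)) h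
        · exact mRel_good (T := T) (by decide) [Lt.ei, Lt.c, Lt.f, Lt.ci, Lt.e, Lt.b, Lt.f] [Lt.b] (pair_rel hinv hr (by decide +kernel)) h
    · rcases brec_true h with h | h
      · exact mRel_good (T := T) (by decide) [Lt.d, Lt.c, Lt.bi, Lt.ci, Lt.f, Lt.bi, Lt.bi, Lt.f] [] (pair_rel hinv hr (by decide +kernel)) h
      · rcases brec_true h with h | h
        · exact mRel_good (T := T) (by decide) [Lt.di, Lt.fi, Lt.b] [Lt.c, Lt.bi, Lt.ci, Lt.f, Lt.bi] (pair_rel hinv hr (by decide +kernel)) h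
        · exact mRel_good (T := T) (by decide) [Lt.ci, Lt.b, Lt.fi] [Lt.di, Lt.ci, Lt.d, Lt.bi, Lt.bi] (pair_rel hinv hr (by decide +kernel)) h
theorem dM_153_s (hinv : ∀ x, g (inv x) = (g x)⁻¹) (hr : ∀ r ∈ rels, (r.map g).prod = 1) (j z1 z2 u : ℕ) (h : dM_153 j z1 z2 u = true) : GoodM (fa g) T MG M (cP g H) u := by
  unfold dM_153 at h
  rcases brec_true h with h | h
  · rcases brec_true h with h | h
    · rcases brec_true h with h | h
      · exact mRel_good (T := T) (by decide) [Lt.f, Lt.d, Lt.c] [Lt.d, Lt.bi, Lt.bi, Lt.ci, Lt.bi] (pair_rel hinv hr (by decide +kernel)) h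
      · rcases brec_true h with h | h
        · exact mRel_good (T := T) (by decide) [Lt.c] [Lt.fi, Lt.ci, Lt.f, Lt.c, Lt.d, Lt.c, Lt.di] (pair_rel hinv hr (by decide +kernel)) h
        · exact mRel_good (T := T) (by decide) [Lt.c, Lt.d, Lt.ci, Lt.di] [Lt.d, Lt.ci, Lt.di, Lt.f] (pair_rel hinv hr (by decide +kernel)) h
    · rcases brec_true h with h | h
      · exact mRel_good (T := T) (by decide) [Lt.c, Lt.f] [Lt.f, Lt.c, Lt.d, Lt.c, Lt.di, Lt.ci] (pair_rel hinv hr (by decide +kernel)) h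
      · rcases brec_true h with h | h
        · exact mRel_good (T := T) (by decide) [Lt.fi, Lt.bi, Lt.ei, Lt.c, Lt.fi, Lt.ci, Lt.e, Lt.b] [] (pair_rel hinv hr (by decide +kernel)) h
        · exact mRel_good (T := T) (by decide) [Lt.bi, Lt.fi, Lt.c, Lt.f] [Lt.b, Lt.fi, Lt.bi, Lt.bi] (pair_rel hinv hr (by decide +kernel)) h
  · rcases brec_true h with h | h
    · rcases brec_true h with h | h
      · exact mRel_good (T := T) (by decide) [Lt.b, Lt.b, Lt.di] [Lt.f, Lt.bi, Lt.c, Lt.di, Lt.ci] (pair_rel hinv hr (by decide +kernel)) h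
      · rcases brec_true h with h | h
        · exact mRel_good (T := T) (by decide) [Lt.di, Lt.c, Lt.d, Lt.ci, Lt.b, Lt.fi, Lt.b, Lt.b] [] (pair_rel hinv hr (by decide +kernel)) h
        · exact mRel_good (T := T) (by decide) [Lt.bi, Lt.bi] [Lt.di, Lt.f, Lt.d, Lt.c, Lt.b, Lt.c] (pair_rel hinv hr (by decide +kernel)) h
    · rcases brec_true h with h | h
      · exact mRel_good (T := T) (by decide) [Lt.ei, Lt.bi, Lt.e, Lt.d] [Lt.bi, Lt.e, Lt.fi, Lt.ci, Lt.bi, Lt.ci] (pair_rel hinv hr (by decide +kernel)) h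
      · rcases brec_true h with h | h
        · exact mRel_good (T := T) (by decide) [Lt.fi, Lt.c, Lt.d, Lt.bi] [Lt.c, Lt.d, Lt.bi, Lt.d] (pair_rel hinv hr (by decide +kernel)) h
        · exact mRel_good (T := T) (by decide) [Lt.fi, Lt.ci, Lt.f, Lt.c] [Lt.c, Lt.d, Lt.ci, Lt.di] (pair_rel hinv hr (by decide +kernel)) h
theorem dM_154_s (hinv : ∀ x, g (inv x) = (g x)⁻¹) (hr : ∀ r ∈ rels, (r.map g).prod = 1) (j z1 z2 u : ℕ) (h : dM_154 j z1 z2 u = true) : GoodM (fa g) T MG M (cP g H) u := by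
  unfold dM_154 at h
  rcases brec_true h with h | h
  · exact dM_152_s hinv hr j z1 z2 u h
  · exact dM_153_s hinv hr j z1 z2 u h
theorem dM_155_s (hinv : ∀ x, g (inv x) = (g x)⁻¹) (hr : ∀ r ∈ rels, (r.map g).prod = 1) (j z1 z2 u : ℕ) (h : dM_155 j z1 z2 u = true) : GoodM (fa g) T MG M (cP g H) u := by
  unfold dM_155 at h
  rcases brec_true h with h | h
  · rcases brec_true h with h | h
    · rcases brec_true h with h | h
      · exact mRel_good (T := T) (by decide) [Lt.ci, Lt.di] [Lt.bi, Lt.ci, Lt.f, Lt.bi, Lt.bi, Lt.f] (pair_rel hinv hr (by decide +kernel)) h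
      · rcases brec_true h with h | h
        · exact mRel_good (T := T) (by decide) [Lt.b, Lt.d] [Lt.bi, Lt.d, Lt.fi, Lt.di, Lt.b, Lt.b] (pair_rel hinv hr (by decide +kernel)) h
        · exact mRel_good (T := T) (by decide) [Lt.di, Lt.ci, Lt.di, Lt.c, Lt.d, Lt.b] [Lt.b, Lt.f] (pair_rel hinv hr (by decide +kernel)) h
    · rcases brec_true h with h | h
      · exact mRel_good (T := T) (by decide) [Lt.f, Lt.b, Lt.b, Lt.f, Lt.bi] [Lt.ci, Lt.f, Lt.b] (pair_rel hinv hr (by decide +kernel)) h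
      · rcases brec_true h with h | h
        · exact mRel_good (T := T) (by decide) [Lt.ci, Lt.b, Lt.d, Lt.ei, Lt.b] [Lt.f, Lt.bi, Lt.ei, Lt.b, Lt.e] (pair_rel hinv hr (by decide +kernel)) h
        · exact mRel_good (T := T) (by decide) [Lt.ci] [Lt.fi, Lt.b, Lt.fi, Lt.ci, Lt.b, Lt.b, Lt.b, Lt.fi] (pair_rel hinv hr (by decide +kernel)) h
  · rcases brec_true h with h | h
    · rcases brec_true h with h | h
      · exact mRel_good (T := T) (by decide) [Lt.ei, Lt.b, Lt.f] [Lt.b, Lt.f, Lt.ci, Lt.e, Lt.c] (pair_rel hinv hr (by decide +kernel)) h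
      · rcases brec_true h with h | h
        · exact mRel_good (T := T) (by decide) [Lt.c, Lt.b, Lt.c, Lt.f, Lt.ei, Lt.b] [Lt.di, Lt.ei, Lt.b, Lt.e] (pair_rel hinv hr (by decide +kernel)) h
        · exact mRel_good (T := T) (by decide) [Lt.bi, Lt.bi, Lt.ci] [Lt.di, Lt.f, Lt.d, Lt.c, Lt.b] (pair_rel hinv hr (by decide +kernel)) h
    · rcases brec_true h with h | h
      · exact mRel_good (T := T) (by decide) [Lt.fi] [Lt.d, Lt.c, Lt.di, Lt.ci, Lt.d, Lt.ci, Lt.di] (pair_rel hinv hr (by decide +kernel)) h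
      · rcases brec_true h with h | h
        · exact mRel_good (T := T) (by decide) [Lt.ei, Lt.c, Lt.fi, Lt.bi, Lt.ei, Lt.b, Lt.f] [Lt.c] (pair_rel hinv hr (by decide +kernel)) h
        · exact mRel_good (T := T) (by decide) [Lt.c, Lt.fi, Lt.ci] [Lt.f, Lt.d, Lt.ci, Lt.di, Lt.fi] (pair_rel hinv hr (by decide +kernel)) h
theorem dM_156_s (hinv : ∀ x, g (inv x) = (g x)⁻¹) (hr : ∀ r ∈ rels, (r.map g).prod = 1) (j z1 z2 u : ℕ) (h : dM_156 j z1 z2 u = true) : GoodM (fa g) T MG M (cP g H) u := by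
  unfold dM_156 at h
  rcases brec_true h with h | h
  · rcases brec_true h with h | h
    · rcases brec_true h with h | h
      · exact mRel_good (T := T) (by decide) [Lt.bi, Lt.f] [Lt.fi, Lt.ci, Lt.b, Lt.b, Lt.b, Lt.fi, Lt.c] (pair_rel hinv hr (by decide +kernel)) h
      · rcases brec_true h with h | h
        · exact mRel_good (T := T) (by decide) [Lt.c, Lt.d, Lt.ci] [Lt.d, Lt.ci, Lt.di, Lt.f, Lt.d] (pair_rel hinv hr (by decide +kernel)) h
        · exact mRel_good (T := T) (by decide) [Lt.c, Lt.b, Lt.c, Lt.f, Lt.ei, Lt.b, Lt.ei, Lt.bi] [Lt.di, Lt.ei] (pair_rel hinv hr (by decide +kernel)) h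
    · rcases brec_true h with h | h
      · exact mRel_good (T := T) (by decide) [Lt.di, Lt.ci, Lt.fi, Lt.ci, Lt.f, Lt.c] [Lt.ci, Lt.di] (pair_rel hinv hr (by decide +kernel)) h
      · rcases brec_true h with h | h
        · exact mRel_good (T := T) (by decide) [Lt.bi, Lt.di, Lt.b, Lt.di, Lt.ci, Lt.fi, Lt.c] [Lt.di] (pair_rel hinv hr (by decide +kernel)) h
        · exact mRel_good (T := T) (by decide) [Lt.di, Lt.ci, Lt.f] [Lt.bi, Lt.di, Lt.b, Lt.di, Lt.ci] (pair_rel hinv hr (by decide +kernel)) h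
  · rcases brec_true h with h | h
    · rcases brec_true h with h | h
      · exact mRel_good (T := T) (by decide) [Lt.ci, Lt.f] [Lt.fi, Lt.ci, Lt.f, Lt.d, Lt.c, Lt.di] (pair_rel hinv hr (by decide +kernel)) h
      · rcases brec_true h with h | h
        · exact mRel_good (T := T) (by decide) [Lt.fi, Lt.c, Lt.f, Lt.c, Lt.d] [Lt.c, Lt.d, Lt.c] (pair_rel hinv hr (by decide +kernel)) h
        · exact mRel_good (T := T) (by decide) [Lt.d, Lt.ci, Lt.di, Lt.fi, Lt.d, Lt.c, Lt.di, Lt.c] [] (pair_rel hinv hr (by decide +kernel)) h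
    · rcases brec_true h with h | h
      · exact mRel_good (T := T) (by decide) [Lt.fi, Lt.ci, Lt.f] [Lt.ci, Lt.f, Lt.d, Lt.ci, Lt.di] (pair_rel hinv hr (by decide +kernel)) h
      · rcases brec_true h with h | h
        · exact mRel_good (T := T) (by decide) [Lt.di, Lt.b, Lt.di, Lt.ci, Lt.fi, Lt.c] [Lt.b, Lt.di] (pair_rel hinv hr (by decide +kernel)) h
        · exact mRel_good (T := T) (by decide) [Lt.di, Lt.ci, Lt.f, Lt.c] [Lt.bi, Lt.di, Lt.b, Lt.di] (pair_rel hinv hr (by decide +kernel)) h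
theorem dM_157_s (hinv : ∀ x, g (inv x) = (g x)⁻¹) (hr : ∀ r ∈ rels, (r.map g).prod = 1) (j z1 z2 u : ℕ) (h : dM_157 j z1 z2 u = true) : GoodM (fa g) T MG M (cP g H) u := by
  unfold dM_157 at h
  rcases brec_true h with h | h
  · exact dM_155_s hinv hr j z1 z2 u h
  · exact dM_156_s hinv hr j z1 z2 u h
theorem dM_158_s (hinv : ∀ x, g (inv x) = (g x)⁻¹) (hr : ∀ r ∈ rels, (r.map g).prod = 1) (j z1 z2 u : ℕ) (h : dM_158 j z1 z2 u = true) : GoodM (fa g) T MG M (cP g H) u := by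
  unfold dM_158 at h
  rcases brec_true h with h | h
  · exact dM_154_s hinv hr j z1 z2 u h
  · exact dM_157_s hinv hr j z1 z2 u h
theorem dM_159_s (hinv : ∀ x, g (inv x) = (g x)⁻¹) (hr : ∀ r ∈ rels, (r.map g).prod = 1) (j z1 z2 u : ℕ) (h : dM_159 j z1 z2 u = true) : GoodM (fa g) T MG M (cP g H) u := by
  unfold dM_159 at h
  rcases brec_true h with h | h
  · exact dM_151_s hinv hr j z1 z2 u h
  · exact dM_158_s hinv hr j z1 z2 u h
theorem dM_160_s (hinv : ∀ x, g (inv x) = (g x)⁻¹) (hr : ∀ r ∈ rels, (r.map g).prod = 1) (j z1 z2 u : ℕ) (h : dM_160 j z1 z2 u = true) : GoodM (fa g) T MG M (cP g H) u := by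
  unfold dM_160 at h
  rcases brec_true h with h | h
  · rcases brec_true h with h | h
    · rcases brec_true h with h | h
      · exact mRel_good (T := T) (by decide) [Lt.c, Lt.f, Lt.ci, Lt.f, Lt.d] [Lt.f, Lt.d, Lt.c] (pair_rel hinv hr (by decide +kernel)) h
      · exact mRel_good (T := T) (by decide) [Lt.ci] [Lt.fi, Lt.bi, Lt.e, Lt.b, Lt.f, Lt.ci, Lt.e] (pair_rel hinv hr (by decide +kernel)) h
    · rcases brec_true h with h | h
      · exact mRel_good (T := T) (by decide) [Lt.d, Lt.ci] [Lt.c, Lt.d, Lt.ci, Lt.di, Lt.fi, Lt.d] (pair_rel hinv hr (by decide +kernel)) h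
      · rcases brec_true h with h | h
        · exact mRel_good (T := T) (by decide) [Lt.ci, Lt.f] [Lt.f, Lt.b, Lt.b, Lt.f, Lt.bi, Lt.bi] (pair_rel hinv hr (by decide +kernel)) h
        · exact mRel_good (T := T) (by decide) [Lt.fi, Lt.d, Lt.bi, Lt.bi, Lt.ci, Lt.bi, Lt.ci] [Lt.d] (pair_rel hinv hr (by decide +kernel)) h
  · rcases brec_true h with h | h
    · rcases brec_true h with h | h
      · exact mRel_good (T := T) (by decide) [Lt.bi, Lt.d, Lt.b, Lt.di, Lt.ci, Lt.f] [Lt.di, Lt.ci] (pair_rel hinv hr (by decide +kernel)) h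
      · rcases brec_true h with h | h
        · exact mRel_good (T := T) (by decide) [Lt.bi, Lt.ei] [Lt.f, Lt.ci, Lt.e, Lt.c, Lt.fi, Lt.bi] (pair_rel hinv hr (by decide +kernel)) h
        · exact mRel_good (T := T) (by decide) [Lt.b] [Lt.bi, Lt.f, Lt.d, Lt.c, Lt.bi, Lt.ci, Lt.f] (pair_rel hinv hr (by decide +kernel)) h
    · rcases brec_true h with h | h
      · exact mRel_good (T := T) (by decide) [Lt.b, Lt.di, Lt.c, Lt.ei, Lt.b, Lt.ei] [Lt.fi, Lt.ci, Lt.ei, Lt.b] (pair_rel hinv hr (by decide +kernel)) h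
      · rcases brec_true h with h | h
        · exact mRel_good (T := T) (by decide) [Lt.b, Lt.d, Lt.fi] [Lt.d, Lt.fi, Lt.bi, Lt.bi, Lt.ci] (pair_rel hinv hr (by decide +kernel)) h
        · exact mRel_good (T := T) (by decide) [Lt.c] [Lt.di, Lt.ei, Lt.b, Lt.e, Lt.bi, Lt.e, Lt.fi, Lt.ci, Lt.bi] (pair_rel hinv hr (by decide +kernel)) h
theorem dM_161_s (hinv : ∀ x, g (inv x) = (g x)⁻¹) (hr : ∀ r ∈ rels, (r.map g).prod = 1) (j z1 z2 u : ℕ) (h : dM_161 j z1 z2 u = true) : GoodM (fa g) T MG M (cP g H) u := by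
  unfold dM_161 at h
  rcases brec_true h with h | h
  · rcases brec_true h with h | h
    · rcases brec_true h with h | h
      · exact mRel_good (T := T) (by decide) [Lt.f, Lt.d, Lt.c, Lt.di, Lt.fi] [Lt.c, Lt.f, Lt.ci] (pair_rel hinv hr (by decide +kernel)) h
      · rcases brec_true h with h | h
        · exact mRel_good (T := T) (by decide) [Lt.ci, Lt.di, Lt.fi, Lt.d, Lt.c, Lt.di] [Lt.di, Lt.ci] (pair_rel hinv hr (by decide +kernel)) h
        · exact mRel_good (T := T) (by decide) [Lt.bi, Lt.ci, Lt.di, Lt.ei, Lt.b, Lt.e] [Lt.c, Lt.f, Lt.ei, Lt.b] (pair_rel hinv hr (by decide +kernel)) h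
    · rcases brec_true h with h | h
      · exact mRel_good (T := T) (by decide) [Lt.b, Lt.fi, Lt.bi, Lt.ei, Lt.c, Lt.fi, Lt.ci] [Lt.ei] (pair_rel hinv hr (by decide +kernel)) h
      · rcases brec_true h with h | h
        · exact mRel_good (T := T) (by decide) [Lt.c, Lt.d, Lt.ci, Lt.di, Lt.fi, Lt.d] [Lt.d, Lt.ci] (pair_rel hinv hr (by decide +kernel)) h
        · exact mRel_good (T := T) (by decide) [Lt.f, Lt.bi, Lt.bi, Lt.fi] [Lt.bi, Lt.bi, Lt.fi, Lt.ci] (pair_rel hinv hr (by decide +kernel)) h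
  · rcases brec_true h with h | h
    · rcases brec_true h with h | h
      · exact mRel_good (T := T) (by decide) [Lt.di, Lt.ci, Lt.fi] [Lt.c, Lt.di, Lt.ci, Lt.fi, Lt.ci] (pair_rel hinv hr (by decide +kernel)) h
      · rcases brec_true h with h | h
        · exact mRel_good (T := T) (by decide) [Lt.ci, Lt.di, Lt.ci, Lt.fi] [Lt.di, Lt.ci, Lt.fi, Lt.ci] (pair_rel hinv hr (by decide +kernel)) h
        · exact mRel_good (T := T) (by decide) [Lt.bi] [Lt.b, Lt.c, Lt.fi, Lt.ci, Lt.bi, Lt.c, Lt.f, Lt.ci, Lt.b] (pair_rel hinv hr (by decide +kernel)) h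
    · rcases brec_true h with h | h
      · exact mRel_good (T := T) (by decide) [Lt.fi, Lt.b, Lt.b, Lt.fi] [Lt.d, Lt.c, Lt.bi, Lt.ci] (pair_rel hinv hr (by decide +kernel)) h
      · rcases brec_true h with h | h
        · exact mRel_good (T := T) (by decide) [Lt.b] [Lt.f, Lt.d, Lt.c, Lt.bi, Lt.ci, Lt.f, Lt.bi] (pair_rel hinv hr (by decide +kernel)) h
        · exact mRel_good (T := T) (by decide) [Lt.fi, Lt.di] [Lt.di, Lt.b, Lt.b, Lt.d, Lt.bi, Lt.bi] (pair_rel hinv hr (by decide +kernel)) h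
theorem dM_162_s (hinv : ∀ x, g (inv x) = (g x)⁻¹) (hr : ∀ r ∈ rels, (r.map g).prod = 1) (j z1 z2 u : ℕ) (h : dM_162 j z1 z2 u = true) : GoodM (fa g) T MG M (cP g H) u := by
  unfold dM_162 at h
  rcases brec_true h with h | h
  · exact dM_160_s hinv hr j z1 z2 u h
  · exact dM_161_s hinv hr j z1 z2 u h
theorem dM_163_s (hinv : ∀ x, g (inv x) = (g x)⁻¹) (hr : ∀ r ∈ rels, (r.map g).prod = 1) (j z1 z2 u : ℕ) (h : dM_163 j z1 z2 u = true) : GoodM (fa g) T MG M (cP g H) u := by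
  unfold dM_163 at h
  rcases brec_true h with h | h
  · rcases brec_true h with h | h
    · rcases brec_true h with h | h
      · exact mRel_good (T := T) (by decide) [Lt.e, Lt.di, Lt.bi] [Lt.b, Lt.ei, Lt.bi, Lt.e, Lt.b, Lt.fi, Lt.ci] (pair_rel hinv hr (by decide +kernel)) h
      · exact mRel_good (T := T) (by decide) [Lt.fi, Lt.c, Lt.f, Lt.d, Lt.bi] [Lt.b, Lt.di, Lt.ci, Lt.b] (pair_rel hinv hr (by decide +kernel)) h
    · rcases brec_true h with h | h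
      · exact mRel_good (T := T) (by decide) [Lt.b, Lt.b, Lt.d, Lt.bi, Lt.bi, Lt.d] [Lt.d, Lt.fi] (pair_rel hinv hr (by decide +kernel)) h
      · rcases brec_true h with h | h
        · exact mRel_good (T := T) (by decide) [Lt.c, Lt.d, Lt.b, Lt.fi, Lt.bi, Lt.di, Lt.ci, Lt.di] [] (pair_rel hinv hr (by decide +kernel)) h
        · exact mRel_good (T := T) (by decide) [Lt.c, Lt.fi, Lt.ci, Lt.f] [Lt.f, Lt.d, Lt.ci, Lt.di] (pair_rel hinv hr (by decide +kernel)) h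
  · rcases brec_true h with h | h
    · rcases brec_true h with h | h
      · exact mRel_good (T := T) (by decide) [Lt.c, Lt.bi, Lt.ci, Lt.f, Lt.bi, Lt.bi] [Lt.di, Lt.fi] (pair_rel hinv hr (by decide +kernel)) h
      · rcases brec_true h with h | h
        · exact mRel_good (T := T) (by decide) [Lt.b, Lt.f, Lt.bi, Lt.bi, Lt.fi, Lt.c] [Lt.bi, Lt.fi] (pair_rel hinv hr (by decide +kernel)) h
        · exact mRel_good (T := T) (by decide) [Lt.c, Lt.di, Lt.ci] [Lt.b, Lt.fi, Lt.b, Lt.b, Lt.di] (pair_rel hinv hr (by decide +kernel)) h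
    · rcases brec_true h with h | h
      · exact mRel_good (T := T) (by decide) [Lt.ci, Lt.di, Lt.fi] [Lt.di, Lt.ci, Lt.d, Lt.ci, Lt.di] (pair_rel hinv hr (by decide +kernel)) h
      · rcases brec_true h with h | h
        · exact mRel_good (T := T) (by decide) [Lt.ci, Lt.f, Lt.d, Lt.c, Lt.di, Lt.fi, Lt.c] [Lt.f] (pair_rel hinv hr (by decide +kernel)) h
        · exact mRel_good (T := T) (by decide) [Lt.di, Lt.bi, Lt.d, Lt.fi, Lt.bi, Lt.bi] [Lt.fi, Lt.c] (pair_rel hinv hr (by decide +kernel)) h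
theorem dM_164_s (hinv : ∀ x, g (inv x) = (g x)⁻¹) (hr : ∀ r ∈ rels, (r.map g).prod = 1) (j z1 z2 u : ℕ) (h : dM_164 j z1 z2 u = true) : GoodM (fa g) T MG M (cP g H) u := by
  unfold dM_164 at h
  rcases brec_true h with h | h
  · rcases brec_true h with h | h
    · rcases brec_true h with h | h
      · exact mRel_good (T := T) (by decide) [Lt.fi, Lt.c, Lt.f, Lt.b, Lt.b] [Lt.b, Lt.b, Lt.fi] (pair_rel hinv hr (by decide +kernel)) h
      · rcases brec_true h with h | h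
        · exact mRel_good (T := T) (by decide) [Lt.b, Lt.fi] [Lt.bi, Lt.fi, Lt.c, Lt.f, Lt.b, Lt.b] (pair_rel hinv hr (by decide +kernel)) h
        · exact mRel_good (T := T) (by decide) [Lt.d, Lt.bi, Lt.d, Lt.b] [Lt.ci, Lt.fi, Lt.c, Lt.d] (pair_rel hinv hr (by decide +kernel)) h
    · rcases brec_true h with h | h
      · exact mRel_good (T := T) (by decide) [Lt.di, Lt.b, Lt.b, Lt.di, Lt.bi, Lt.bi, Lt.d, Lt.fi] [] (pair_rel hinv hr (by decide +kernel)) h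
      · rcases brec_true h with h | h
        · exact mRel_good (T := T) (by decide) [Lt.bi, Lt.e, Lt.ci, Lt.d, Lt.bi, Lt.fi, Lt.ci, Lt.ei, Lt.b] [Lt.ei] (pair_rel hinv hr (by decide +kernel)) h
        · exact mRel_good (T := T) (by decide) [Lt.bi, Lt.ei, Lt.c] [Lt.fi, Lt.bi, Lt.ei, Lt.c, Lt.fi] (pair_rel hinv hr (by decide +kernel)) h
  · rcases brec_true h with h | h
    · rcases brec_true h with h | h
      · exact mRel_good (T := T) (by decide) [Lt.f, Lt.di, Lt.bi, Lt.d, Lt.fi, Lt.bi] [Lt.c, Lt.b] (pair_rel hinv hr (by decide +kernel)) h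
      · rcases brec_true h with h | h
        · exact mRel_good (T := T) (by decide) [Lt.f, Lt.di, Lt.b, Lt.d, Lt.fi] [Lt.bi, Lt.bi, Lt.ci] (pair_rel hinv hr (by decide +kernel)) h
        · exact mRel_good (T := T) (by decide) [Lt.f, Lt.c, Lt.d, Lt.c, Lt.di] [Lt.c, Lt.f, Lt.c] (pair_rel hinv hr (by decide +kernel)) h
    · rcases brec_true h with h | h
      · exact mRel_good (T := T) (by decide) [Lt.f, Lt.b, Lt.di, Lt.c, Lt.ei, Lt.b] [Lt.ci, Lt.ei, Lt.b, Lt.e] (pair_rel hinv hr (by decide +kernel)) h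
      · rcases brec_true h with h | h
        · exact mRel_good (T := T) (by decide) [Lt.d, Lt.b] [Lt.ci, Lt.d, Lt.c, Lt.d, Lt.b, Lt.f] (pair_rel hinv hr (by decide +kernel)) h
        · exact mRel_good (T := T) (by decide) [Lt.bi, Lt.d, Lt.f, Lt.di, Lt.b, Lt.b, Lt.d] [Lt.b] (pair_rel hinv hr (by decide +kernel)) h
theorem dM_165_s (hinv : ∀ x, g (inv x) = (g x)⁻¹) (hr : ∀ r ∈ rels, (r.map g).prod = 1) (j z1 z2 u : ℕ) (h : dM_165 j z1 z2 u = true) : GoodM (fa g) T MG M (cP g H) u := by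
  unfold dM_165 at h
  rcases brec_true h with h | h
  · exact dM_163_s hinv hr j z1 z2 u h
  · exact dM_164_s hinv hr j z1 z2 u h
theorem dM_166_s (hinv : ∀ x, g (inv x) = (g x)⁻¹) (hr : ∀ r ∈ rels, (r.map g).prod = 1) (j z1 z2 u : ℕ) (h : dM_166 j z1 z2 u = true) : GoodM (fa g) T MG M (cP g H) u := by
  unfold dM_166 at h
  rcases brec_true h with h | h
  · exact dM_162_s hinv hr j z1 z2 u h
  · exact dM_165_s hinv hr j z1 z2 u h
theorem dM_167_s (hinv : ∀ x, g (inv x) = (g x)⁻¹) (hr : ∀ r ∈ rels, (r.map g).prod = 1) (j z1 z2 u : ℕ) (h : dM_167 j z1 z2 u = true) : GoodM (fa g) T MG M (cP g H) u := by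
  unfold dM_167 at h
  rcases brec_true h with h | h
  · rcases brec_true h with h | h
    · rcases brec_true h with h | h
      · exact mRel_good (T := T) (by decide) [Lt.b, Lt.f, Lt.ci, Lt.ei, Lt.c, Lt.fi, Lt.bi, Lt.ei] [] (pair_rel hinv hr (by decide +kernel)) h
      · exact mRel_good (T := T) (by decide) [Lt.fi, Lt.bi, Lt.bi, Lt.ci, Lt.f, Lt.di, Lt.bi] [Lt.di] (pair_rel hinv hr (by decide +kernel)) h
    · rcases brec_true h with h | h
      · exact mRel_good (T := T) (by decide) [Lt.f, Lt.b, Lt.b, Lt.f, Lt.bi, Lt.bi, Lt.fi, Lt.c] [] (pair_rel hinv hr (by decide +kernel)) h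
      · rcases brec_true h with h | h
        · exact mRel_good (T := T) (by decide) [Lt.f] [Lt.c, Lt.f, Lt.c, Lt.d, Lt.ci, Lt.di, Lt.ci] (pair_rel hinv hr (by decide +kernel)) h
        · exact mRel_good (T := T) (by decide) [Lt.ci, Lt.fi] [Lt.d, Lt.bi, Lt.d, Lt.b, Lt.di, Lt.ci] (pair_rel hinv hr (by decide +kernel)) h
  · rcases brec_true h with h | h
    · rcases brec_true h with h | h
      · exact mRel_good (T := T) (by decide) [Lt.c, Lt.fi] [Lt.e, Lt.c, Lt.fi, Lt.bi, Lt.e, Lt.b] (pair_rel hinv hr (by decide +kernel)) h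
      · rcases brec_true h with h | h
        · exact mRel_good (T := T) (by decide) [Lt.bi] [Lt.f, Lt.di, Lt.b, Lt.d, Lt.fi, Lt.c, Lt.b] (pair_rel hinv hr (by decide +kernel)) h
        · exact mRel_good (T := T) (by decide) [Lt.di, Lt.ci, Lt.f, Lt.c, Lt.d] [Lt.bi, Lt.di, Lt.b] (pair_rel hinv hr (by decide +kernel)) h
    · rcases brec_true h with h | h
      · exact mRel_good (T := T) (by decide) [Lt.ci, Lt.di, Lt.ci, Lt.fi, Lt.c] [Lt.di, Lt.ci, Lt.fi] (pair_rel hinv hr (by decide +kernel)) h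
      · rcases brec_true h with h | h
        · exact mRel_good (T := T) (by decide) [Lt.b, Lt.di, Lt.bi, Lt.bi, Lt.d, Lt.fi] [Lt.bi, Lt.d] (pair_rel hinv hr (by decide +kernel)) h
        · exact mRel_good (T := T) (by decide) [Lt.d, Lt.ci, Lt.di] [Lt.fi, Lt.c, Lt.fi, Lt.ci, Lt.f] (pair_rel hinv hr (by decide +kernel)) h
theorem dM_168_s (hinv : ∀ x, g (inv x) = (g x)⁻¹) (hr : ∀ r ∈ rels, (r.map g).prod = 1) (j z1 z2 u : ℕ) (h : dM_168 j z1 z2 u = true) : GoodM (fa g) T MG M (cP g H) u := by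
  unfold dM_168 at h
  rcases brec_true h with h | h
  · rcases brec_true h with h | h
    · rcases brec_true h with h | h
      · exact mRel_good (T := T) (by decide) [Lt.di, Lt.ci, Lt.d, Lt.bi, Lt.bi, Lt.f, Lt.bi] [Lt.ci] (pair_rel hinv hr (by decide +kernel)) h
      · rcases brec_true h with h | h
        · exact mRel_good (T := T) (by decide) [Lt.c, Lt.di, Lt.fi] [Lt.di, Lt.fi, Lt.c, Lt.f, Lt.ci] (pair_rel hinv hr (by decide +kernel)) h
        · exact mRel_good (T := T) (by decide) [Lt.di, Lt.ci, Lt.fi, Lt.c] [Lt.bi, Lt.d, Lt.b, Lt.di] (pair_rel hinv hr (by decide +kernel)) h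
    · rcases brec_true h with h | h
      · exact mRel_good (T := T) (by decide) [Lt.bi, Lt.bi, Lt.fi, Lt.ci, Lt.f, Lt.b, Lt.b] [Lt.f] (pair_rel hinv hr (by decide +kernel)) h
      · rcases brec_true h with h | h
        · exact mRel_good (T := T) (by decide) [Lt.fi] [Lt.ci, Lt.e, Lt.b, Lt.f, Lt.bi, Lt.ei, Lt.c] (pair_rel hinv hr (by decide +kernel)) h
        · exact mRel_good (T := T) (by decide) [Lt.fi, Lt.b, Lt.b] [Lt.bi, Lt.c, Lt.di, Lt.ci, Lt.d] (pair_rel hinv hr (by decide +kernel)) h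
  · rcases brec_true h with h | h
    · rcases brec_true h with h | h
      · exact mRel_good (T := T) (by decide) [Lt.di, Lt.f, Lt.d, Lt.c, Lt.b, Lt.c] [Lt.bi, Lt.bi] (pair_rel hinv hr (by decide +kernel)) h
      · rcases brec_true h with h | h
        · exact mRel_good (T := T) (by decide) [Lt.d, Lt.ci, Lt.di] [Lt.ci, Lt.fi, Lt.ci, Lt.f, Lt.c] (pair_rel hinv hr (by decide +kernel)) h
        · exact mRel_good (T := T) (by decide) [Lt.fi, Lt.bi, Lt.ei] [Lt.bi, Lt.ei, Lt.c, Lt.f, Lt.ci] (pair_rel hinv hr (by decide +kernel)) h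
    · rcases brec_true h with h | h
      · exact mRel_good (T := T) (by decide) [Lt.fi] [Lt.bi, Lt.ei, Lt.c, Lt.f, Lt.ci, Lt.e, Lt.b] (pair_rel hinv hr (by decide +kernel)) h
      · rcases brec_true h with h | h
        · exact mRel_good (T := T) (by decide) [Lt.b, Lt.fi, Lt.bi, Lt.bi, Lt.fi] [Lt.bi, Lt.fi, Lt.c] (pair_rel hinv hr (by decide +kernel)) h
        · exact mRel_good (T := T) (by decide) [Lt.b, Lt.f, Lt.bi, Lt.bi, Lt.fi] [Lt.bi, Lt.fi, Lt.ci] (pair_rel hinv hr (by decide +kernel)) h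
theorem dM_169_s (hinv : ∀ x, g (inv x) = (g x)⁻¹) (hr : ∀ r ∈ rels, (r.map g).prod = 1) (j z1 z2 u : ℕ) (h : dM_169 j z1 z2 u = true) : GoodM (fa g) T MG M (cP g H) u := by
  unfold dM_169 at h
  rcases brec_true h with h | h
  · exact dM_167_s hinv hr j z1 z2 u h
  · exact dM_168_s hinv hr j z1 z2 u h
theorem dM_170_s (hinv : ∀ x, g (inv x) = (g x)⁻¹) (hr : ∀ r ∈ rels, (r.map g).prod = 1) (j z1 z2 u : ℕ) (h : dM_170 j z1 z2 u = true) : GoodM (fa g) T MG M (cP g H) u := by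
  unfold dM_170 at h
  rcases brec_true h with h | h
  · rcases brec_true h with h | h
    · rcases brec_true h with h | h
      · exact mRel_good (T := T) (by decide) [Lt.fi, Lt.ci, Lt.ei, Lt.b] [Lt.b, Lt.di, Lt.c, Lt.ei, Lt.b, Lt.ei] (pair_rel hinv hr (by decide +kernel)) h
      · rcases brec_true h with h | h
        · exact mRel_good (T := T) (by decide) [Lt.ci] [Lt.ei, Lt.b, Lt.ei, Lt.bi, Lt.e, Lt.c, Lt.f, Lt.b, Lt.di] (pair_rel hinv hr (by decide +kernel)) h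
        · exact mRel_good (T := T) (by decide) [Lt.ci, Lt.d, Lt.bi, Lt.bi, Lt.f, Lt.bi] [Lt.d, Lt.ci] (pair_rel hinv hr (by decide +kernel)) h
    · rcases brec_true h with h | h
      · exact mRel_good (T := T) (by decide) [Lt.fi, Lt.c, Lt.b, Lt.b, Lt.f, Lt.di, Lt.b] [Lt.di] (pair_rel hinv hr (by decide +kernel)) h
      · rcases brec_true h with h | h
        · exact mRel_good (T := T) (by decide) [Lt.fi, Lt.bi] [Lt.bi, Lt.bi, Lt.fi, Lt.c, Lt.f, Lt.b] (pair_rel hinv hr (by decide +kernel)) h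
        · exact mRel_good (T := T) (by decide) [Lt.b, Lt.di] [Lt.bi, Lt.ci, Lt.bi, Lt.ci, Lt.di, Lt.fi] (pair_rel hinv hr (by decide +kernel)) h
  · rcases brec_true h with h | h
    · rcases brec_true h with h | h
      · exact mRel_good (T := T) (by decide) [Lt.c, Lt.b, Lt.ci, Lt.di, Lt.fi] [Lt.f, Lt.bi, Lt.bi] (pair_rel hinv hr (by decide +kernel)) h
      · rcases brec_true h with h | h
        · exact mRel_good (T := T) (by decide) [Lt.bi] [Lt.di, Lt.ci, Lt.f, Lt.c, Lt.d, Lt.bi, Lt.d] (pair_rel hinv hr (by decide +kernel)) h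
        · exact mRel_good (T := T) (by decide) [Lt.ci, Lt.di, Lt.c, Lt.d, Lt.b, Lt.fi, Lt.bi] [Lt.d] (pair_rel hinv hr (by decide +kernel)) h
    · rcases brec_true h with h | h
      · exact mRel_good (T := T) (by decide) [Lt.bi, Lt.ci, Lt.di, Lt.fi, Lt.d, Lt.bi, Lt.bi, Lt.ci] [] (pair_rel hinv hr (by decide +kernel)) h
      · rcases brec_true h with h | h
        · exact mRel_good (T := T) (by decide) [Lt.c] [Lt.e, Lt.b, Lt.fi, Lt.bi, Lt.ei, Lt.c, Lt.fi] (pair_rel hinv hr (by decide +kernel)) h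
        · exact mRel_good (T := T) (by decide) [Lt.ci, Lt.fi, Lt.c, Lt.f, Lt.c, Lt.d, Lt.ci] [Lt.d] (pair_rel hinv hr (by decide +kernel)) h
theorem dM_171_s (hinv : ∀ x, g (inv x) = (g x)⁻¹) (hr : ∀ r ∈ rels, (r.map g).prod = 1) (j z1 z2 u : ℕ) (h : dM_171 j z1 z2 u = true) : GoodM (fa g) T MG M (cP g H) u := by
  unfold dM_171 at h
  rcases brec_true h with h | h
  · rcases brec_true h with h | h
    · rcases brec_true h with h | h
      · exact mRel_good (T := T) (by decide) [Lt.f, Lt.b, Lt.b] [Lt.c, Lt.f, Lt.b, Lt.b, Lt.f] (pair_rel hinv hr (by decide +kernel)) h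
      · rcases brec_true h with h | h
        · exact mRel_good (T := T) (by decide) [Lt.fi, Lt.b, Lt.b, Lt.fi, Lt.c, Lt.b, Lt.ci, Lt.di] [] (pair_rel hinv hr (by decide +kernel)) h
        · exact mRel_good (T := T) (by decide) [Lt.d, Lt.fi] [Lt.bi, Lt.d, Lt.fi, Lt.bi, Lt.bi, Lt.ci] (pair_rel hinv hr (by decide +kernel)) h
    · rcases brec_true h with h | h
      · exact mRel_good (T := T) (by decide) [Lt.c, Lt.di, Lt.c] [Lt.di, Lt.f, Lt.d, Lt.c, Lt.di] (pair_rel hinv hr (by decide +kernel)) h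
      · rcases brec_true h with h | h
        · exact mRel_good (T := T) (by decide) [Lt.b, Lt.b, Lt.fi, Lt.c, Lt.b, Lt.ci, Lt.di] [Lt.f] (pair_rel hinv hr (by decide +kernel)) h
        · exact mRel_good (T := T) (by decide) [Lt.bi, Lt.fi, Lt.ci, Lt.ei] [Lt.di, Lt.c, Lt.ei, Lt.b, Lt.ei, Lt.bi] (pair_rel hinv hr (by decide +kernel)) h
  · rcases brec_true h with h | h
    · rcases brec_true h with h | h
      · exact mRel_good (T := T) (by decide) [Lt.fi, Lt.bi, Lt.bi, Lt.fi, Lt.ci, Lt.f, Lt.b] [Lt.bi] (pair_rel hinv hr (by decide +kernel)) h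
      · rcases brec_true h with h | h
        · exact mRel_good (T := T) (by decide) [Lt.f, Lt.b, Lt.di] [Lt.c, Lt.f, Lt.d, Lt.bi, Lt.bi, Lt.c] (pair_rel hinv hr (by decide +kernel)) h
        · exact mRel_good (T := T) (by decide) [Lt.ci, Lt.di, Lt.ci, Lt.fi, Lt.c, Lt.f] [Lt.di, Lt.ci] (pair_rel hinv hr (by decide +kernel)) h
    · rcases brec_true h with h | h
      · exact mRel_good (T := T) (by decide) [Lt.f, Lt.d, Lt.c] [Lt.c, Lt.f, Lt.ci, Lt.f, Lt.d] (pair_rel hinv hr (by decide +kernel)) h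
      · rcases brec_true h with h | h
        · exact mRel_good (T := T) (by decide) [Lt.ci, Lt.d, Lt.c, Lt.d, Lt.b, Lt.f, Lt.bi] [Lt.d] (pair_rel hinv hr (by decide +kernel)) h
        · exact mRel_good (T := T) (by decide) [Lt.di, Lt.ci] [Lt.bi, Lt.d, Lt.b, Lt.di, Lt.ci, Lt.f] (pair_rel hinv hr (by decide +kernel)) h
theorem dM_172_s (hinv : ∀ x, g (inv x) = (g x)⁻¹) (hr : ∀ r ∈ rels, (r.map g).prod = 1) (j z1 z2 u : ℕ) (h : dM_172 j z1 z2 u = true) : GoodM (fa g) T MG M (cP g H) u := by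
  unfold dM_172 at h
  rcases brec_true h with h | h
  · exact dM_170_s hinv hr j z1 z2 u h
  · exact dM_171_s hinv hr j z1 z2 u h
theorem dM_173_s (hinv : ∀ x, g (inv x) = (g x)⁻¹) (hr : ∀ r ∈ rels, (r.map g).prod = 1) (j z1 z2 u : ℕ) (h : dM_173 j z1 z2 u = true) : GoodM (fa g) T MG M (cP g H) u := by
  unfold dM_173 at h
  rcases brec_true h with h | h
  · exact dM_169_s hinv hr j z1 z2 u h
  · exact dM_172_s hinv hr j z1 z2 u h
theorem dM_174_s (hinv : ∀ x, g (inv x) = (g x)⁻¹) (hr : ∀ r ∈ rels, (r.map g).prod = 1) (j z1 z2 u : ℕ) (h : dM_174 j z1 z2 u = true) : GoodM (fa g) T MG M (cP g H) u := by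
  unfold dM_174 at h
  rcases brec_true h with h | h
  · exact dM_166_s hinv hr j z1 z2 u h
  · exact dM_173_s hinv hr j z1 z2 u h
theorem dM_175_s (hinv : ∀ x, g (inv x) = (g x)⁻¹) (hr : ∀ r ∈ rels, (r.map g).prod = 1) (j z1 z2 u : ℕ) (h : dM_175 j z1 z2 u = true) : GoodM (fa g) T MG M (cP g H) u := by
  unfold dM_175 at h
  rcases brec_true h with h | h
  · exact dM_159_s hinv hr j z1 z2 u h
  · exact dM_174_s hinv hr j z1 z2 u h
theorem dM_176_s (hinv : ∀ x, g (inv x) = (g x)⁻¹) (hr : ∀ r ∈ rels, (r.map g).prod = 1) (j z1 z2 u : ℕ) (h : dM_176 j z1 z2 u = true) : GoodM (fa g) T MG M (cP g H) u := by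
  unfold dM_176 at h
  rcases brec_true h with h | h
  · exact dM_144_s hinv hr j z1 z2 u h
  · exact dM_175_s hinv hr j z1 z2 u h
theorem dM_177_s (hinv : ∀ x, g (inv x) = (g x)⁻¹) (hr : ∀ r ∈ rels, (r.map g).prod = 1) (j z1 z2 u : ℕ) (h : dM_177 j z1 z2 u = true) : GoodM (fa g) T MG M (cP g H) u := by
  unfold dM_177 at h
  rcases brec_true h with h | h
  · exact dM_113_s hinv hr j z1 z2 u h
  · exact dM_176_s hinv hr j z1 z2 u h
theorem dM_178_s (hinv : ∀ x, g (inv x) = (g x)⁻¹) (hr : ∀ r ∈ rels, (r.map g).prod = 1) (j z1 z2 u : ℕ) (h : dM_178 j z1 z2 u = true) : GoodM (fa g) T MG M (cP g H) u := by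
  unfold dM_178 at h
  rcases brec_true h with h | h
  · exact dM_66_s hinv hr j z1 z2 u h
  · exact dM_177_s hinv hr j z1 z2 u h
theorem dM_179_s (hinv : ∀ x, g (inv x) = (g x)⁻¹) (hr : ∀ r ∈ rels, (r.map g).prod = 1) (j z1 z2 u : ℕ) (h : dM_179 j z1 z2 u = true) : GoodM (fa g) T MG M (cP g H) u := by
  unfold dM_179 at h
  rcases brec_true h with h | h
  · exact dM_11_s hinv hr j z1 z2 u h
  · exact dM_178_s hinv hr j z1 z2 u h
theorem dM_180_s (hinv : ∀ x, g (inv x) = (g x)⁻¹) (hr : ∀ r ∈ rels, (r.map g).prod = 1) (j z1 z2 u : ℕ) (h : dM_180 j z1 z2 u = true) : GoodM (fa g) T MG M (cP g H) u := by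
  unfold dM_180 at h
  rcases brec_true h with h | h
  · exact dM_0_s hinv hr j z1 z2 u h
  · exact dM_179_s hinv hr j z1 z2 u h
theorem sndM (hinv : ∀ x, g (inv x) = (g x)⁻¹) (hr : ∀ r ∈ rels, (r.map g).prod = 1) (u : ℕ) (h : chkM u = true) :
    MG u < A → MG u % M < u ∧ GoodM (fa g) T MG M (cP g H) u := by
  intro hA
  unfold chkM at h
  cases hb : Nat.ble A (MG u) with
  | true => exact absurd (le_of_ble hb) (by omega)
  | false =>
    rw [hb] at h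
    obtain ⟨h1, h2⟩ := band_eq_true.1 h
    exact ⟨le_of_ble h1, dM_180_s hinv hr _ _ _ _ h2⟩
theorem sndN (hinv : ∀ x, g (inv x) = (g x)⁻¹) (hr : ∀ r ∈ rels, (r.map g).prod = 1) (hH : ∀ r ∈ subs, (r.map g).prod ∈ H)
    (u : ℕ) (hu : u < M) (h : chkP u = true) : (∀ x, (T x u < A ∧ Good (fa g) T MG M (cP g H) x u) ∨ (A ≤ T x u ∧ MG u < A)) ∧ (MG u < A → MG u % M < u ∧ GoodM (fa g) T MG M (cP g H) u) := by
  unfold chkP at h
  cases hb : Nat.ble M u with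
  | true => exact absurd (le_of_ble hb) (by omega)
  | false =>
    rw [hb] at h
    change chkN u = true at h
    unfold chkN at h
    obtain ⟨h0, h⟩ := band_eq_true.1 h
    obtain ⟨h1, h⟩ := band_eq_true.1 h
    obtain ⟨h2, h⟩ := band_eq_true.1 h
    obtain ⟨h3, h⟩ := band_eq_true.1 h
    obtain ⟨h4, h⟩ := band_eq_true.1 h
    obtain ⟨h5, h⟩ := band_eq_true.1 h
    obtain ⟨h6, h⟩ := band_eq_true.1 h
    obtain ⟨h7, h⟩ := band_eq_true.1 h
    obtain ⟨h8, h⟩ := band_eq_true.1 h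
    obtain ⟨h9, h⟩ := band_eq_true.1 h
    refine ⟨?_, sndM hinv hr u h⟩
    intro x
    cases x
    · exact snc_b hinv hr hH _ u hu h0
    · exact snc_bi hinv hr hH _ u hu h1
    · exact snc_d hinv hr hH _ u hu h2
    · exact snc_di hinv hr hH _ u hu h3
    · exact snc_c hinv hr hH _ u hu h4
    · exact snc_ci hinv hr hH _ u hu h5
    · exact snc_f hinv hr hH _ u hu h6
    · exact snc_fi hinv hr hH _ u hu h7
    · exact snc_e hinv hr hH _ u hu h8
    · exact snc_ei hinv hr hH _ u hu h9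
theorem final (hinv : ∀ x, g (inv x) = (g x)⁻¹) (hr : ∀ r ∈ rels, (r.map g).prod = 1) (hH : ∀ r ∈ subs, (r.map g).prod ∈ H)
    (hall : ∀ u, u < M → chkP u = true) (hc : cntB liveP 14 0 = 3200) :
    H.relIndex (Subgroup.closure (Set.range g)) ≤ 3200 ∧ H.relIndex (Subgroup.closure (Set.range g)) ≠ 0 := by
  have hn := fun u hu => sndN hinv hr hH u hu (hall u hu)
  have h1 : ∀ x u, u < M → T x u < A → Good (fa g) T MG M (cP g H) x u := by
    intro x u hu hx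
    rcases (hn u hu).1 x with h | h
    · exact h.2
    · exact absurd h.1 (by omega)
  have h2 : ∀ u, u < M → MG u < A → GoodM (fa g) T MG M (cP g H) u := fun u hu h => ((hn u hu).2 h).2
  refine relIndex_le (M := M) (A := A) (T := T) (MG := MG) (c := cP g H) (by decide) cc_zero (sound_of_good h1 h2) ?_ ?_ ?_
  · intro u hu h
    exact ((hn u hu).2 h).1
  · intro x u hu h
    rcases (hn u hu).1 x with h' | h'
    · exact h'.1
    · exact absurd h'.2 (by omega)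
  · rw [← hc, ← cntB_spec]
    apply Finset.card_le_card
    intro u
    simp only [Finset.mem_filter, Finset.mem_Ico]
    rintro ⟨⟨_, h3⟩, h4⟩
    refine ⟨⟨Nat.zero_le _, lt_of_lt_of_le h3 (by decide)⟩, ?_⟩
    unfold liveP
    cases hb : Nat.ble M u with
    | true => exact absurd (le_of_ble hb) (by omega)
    | false => exact h4
end
end H94.TCRuB
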